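import Cfsg.Agent.Lib.H09.Chain

/-! Conjugation families. -/

set_option autoImplicit false
set_option linter.unusedSectionVars false
set_option linter.unusedVariables false

namespace Cfsg.Agent.H09

open Cfsg

variable {G : Type*} [Group G]

set_option quotPrecheck false in
local notation:max "𝐍" T:max => Subgroup.normalizer ((T : Subgroup G) : Set G)
set_option quotPrecheck false in
local notation:65 T:66 " ⋆ " g:66 => Subgroup.map (MulAut.conj g).toMonoidHom T

/-- Steps of a conjugation family. -/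
def CStep (𝓕 : Set (Subgroup G)) (B : Set G) (y : G) : Prop :=
  ∃ T ∈ 𝓕, y ∈ 𝐍 T ∧ B ⊆ T

theorem cStep_sys (𝓕 : Set (Subgroup G)) : StepSys (CStep 𝓕) where
  res := by
    rintro A B y hBA ⟨T, hT, hy, hA⟩
    exact ⟨T, hT, hy, hBA.trans hA⟩
  inv := by
    rintro A y ⟨T, hT, hy, hA⟩
    exact ⟨T, hT, Subgroup.inv_mem _ hy, cjs_subset_of_mem_normalizer hy hA⟩

/-- Chains in the form used by conjugation families. -/
inductive ChainR (𝓕 : Set (Subgroup G)) : Set G → G → Prop
  | nil (A : Set G) : ChainR 𝓕 A 1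
  | cons {A : Set G} {T : Subgroup G} {x g : G} : T ∈ 𝓕 → x ∈ 𝐍 T → A ⊆ T →
      ChainR 𝓕 (cjs x⁻¹ A) g → ChainR 𝓕 A (x * g)

theorem ChainR.comp {𝓕 : Set (Subgroup G)} {A : Set G} {x x' : G} (h : ChainR 𝓕 A x)
    (h' : ChainR 𝓕 (cjs x⁻¹ A) x') : ChainR 𝓕 A (x * x') := by
  induction h generalizing x' with
  | nil A => simpa [cjs_one] using h'
  | @cons A T x g hT hx hA hg ih =>
    rw [mul_assoc]
    refine ChainR.cons hT hx hA (ih ?_)
    rw [← cjs_mul]
    simpa using h'

theorem chainR_of_chain {𝓕 : Set (Subgroup G)} {A : Set G} {c : G} (h : Chain (CStep 𝓕) A c) :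
    ChainR 𝓕 A c⁻¹ := by
  induction h with
  | nil => simpa using ChainR.nil A
  | @snoc c y _ hy ih =>
    rw [mul_inv_rev]
    refine ih.comp ?_
    obtain ⟨T, hT, hyT, hsub⟩ := hy
    rw [inv_inv]
    have := ChainR.cons hT (Subgroup.inv_mem _ hyT) hsub (ChainR.nil _)
    simpa using this

theorem data_of_chainR {𝓕 : Set (Subgroup G)} {A : Set G} {g : G} (h : ChainR 𝓕 A g) :
    ∃ (n : ℕ) (T : Fin n → Subgroup G) (x : Fin n → G), (List.ofFn x).prod = g ∧
      (∀ i, T i ∈ 𝓕) ∧ (∀ i, x i ∈ 𝐍 (T i)) ∧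
      (∀ h : 0 < n, A ⊆ T ⟨0, h⟩) ∧
      ∀ (i : Fin n) (h : i.val + 1 < n),
        (fun a => (((List.ofFn x).take (i.val + 1)).prod)⁻¹ * a * ((List.ofFn x).take (i.val + 1)).prod) '' A ⊆
          T ⟨i.val + 1, h⟩ := by
  induction h with
  | nil A =>
    exact ⟨0, Fin.elim0, Fin.elim0, by simp, fun i => i.elim0, fun i => i.elim0,
      fun h => absurd h (lt_irrefl _), fun i => i.elim0⟩
  | @cons A T0 x0 g hT0 hx0 hA hg ih =>
    obtain ⟨n, T, x, hprod, hT, hx, h0, hi⟩ := ih
    refine ⟨n + 1, Fin.cons (α := fun _ => Subgroup G) T0 T, Fin.cons (α := fun _ => G) x0 x,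
      ?_, ?_, ?_, ?_, ?_⟩
    · rw [List.ofFn_succ]
      simp [hprod]
    · intro i
      induction i using Fin.cases with
      | zero => simpa using hT0
      | succ i => simpa using hT i
    · intro i
      induction i using Fin.cases with
      | zero => simpa using hx0
      | succ i => simpa using hx i
    · intro _
      exact hA
    · intro i hlt
      have hlist : List.ofFn (Fin.cons (α := fun _ => G) x0 x : Fin (n + 1) → G) =
          x0 :: List.ofFn x := by
        rw [List.ofFn_succ]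
        simp
      rw [hlist]
      have hT' : (Fin.cons (α := fun _ => Subgroup G) T0 T : Fin (n + 1) → Subgroup G)
          ⟨i.val + 1, hlt⟩ = T ⟨i.val, by omega⟩ := rfl
      rw [hT']
      rcases i with ⟨i, hin⟩
      simp only at hlt ⊢
      cases i with
      | zero =>
        have := h0 (by omega)
        intro b hb
        obtain ⟨a, ha, rfl⟩ := hb
        apply this
        refine ⟨a, ha, ?_⟩
        simp
      | succ j =>
        have hj : j + 1 < n := by omega
        have := hi ⟨j, by omega⟩ hj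
        intro b hb
        obtain ⟨a, ha, rfl⟩ := hb
        apply this
        refine ⟨x0⁻¹ * a * x0, ⟨a, ha, by simp⟩, ?_⟩
        simp only [List.take_succ_cons, List.prod_cons]
        group

section
variable [Finite G] {p : ℕ} [hp : Fact p.Prime]

/-- Chains exist for a family meeting every class in a fully normalized member. -/
theorem chain_of_placed (S : Sylow p G) (𝓕 : Set (Subgroup G))
    (h𝓕 : ∀ U ∈ 𝓕, U ≤ (S : Subgroup G))
    (h : ∀ T : Subgroup G, T ≤ (S : Subgroup G) → ∃ U ∈ 𝓕, (∃ g : G, (T ⋆ g) = U) ∧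
      ¬ p ∣ ((S : Subgroup G) ⊓ 𝐍 U).relIndex (𝐍 U)) :
    ∀ (A : Set G) (g : G), A ⊆ (S : Subgroup G) → cjs g A ⊆ (S : Subgroup G) →
      Chain (CStep 𝓕) A g := by
  have hPlaced : PlacedFamily p (S : Subgroup G) {U | U ∈ 𝓕 ∧ ¬ p ∣ ((S : Subgroup G) ⊓ 𝐍 U).relIndex (𝐍 U)} := by
    refine ⟨fun T hT => h𝓕 T hT.1, fun T hT => hT.2, fun T hT => ?_⟩
    obtain ⟨U, hU, ⟨g, hg⟩, hs⟩ := h T hT
    exact ⟨g, by rw [hg]; exact ⟨hU, hs⟩⟩
  have hbot : (⊥ : Subgroup G) ∈ 𝓕 := by
    obtain ⟨U, hU, ⟨g, hg⟩, -⟩ := h ⊥ bot_le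
    rw [Subgroup.map_bot] at hg
    rwa [← hg] at hU
  have hC : CtlSys (Chain (CStep 𝓕)) := by
    refine chain_ctlSys (cStep_sys 𝓕) ?_
    intro A g hA
    refine ⟨⊥, hbot, ?_, ?_⟩
    · rw [Subgroup.mem_normalizer_iff]
      intro t
      simp only [Subgroup.mem_bot]
      constructor
      · rintro rfl; simp
      · intro ht
        have : g⁻¹ * (g * t * g⁻¹) * g = 1 := by rw [ht]; simp
        simpa [mul_assoc] using this
    · intro a ha
      simpa using hA ha
  exact engine_p1_only S hPlaced hC (fun U hU _ w hw =>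
    Chain.single ⟨U, hU.1, hw, subset_rfl⟩)

/-- A family meeting every class in a fully normalized member is a conjugation family. -/
theorem isConjugationFamily_of_placed (S : Sylow p G) (𝓕 : Set (Subgroup G))
    (h𝓕 : ∀ U ∈ 𝓕, U ≤ (S : Subgroup G))
    (h : ∀ T : Subgroup G, T ≤ (S : Subgroup G) → ∃ U ∈ 𝓕, (∃ g : G, (T ⋆ g) = U) ∧
      ¬ p ∣ ((S : Subgroup G) ⊓ 𝐍 U).relIndex (𝐍 U)) :
    IsConjugationFamily 𝓕 (S : Subgroup G) := by
  refine ⟨h𝓕, ?_⟩
  have hmain := chain_of_placed S 𝓕 h𝓕 h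
  intro A g _ hA hgA
  have hgA' : cjs g⁻¹ A ⊆ (S : Subgroup G) := by
    rintro _ ⟨a, ha, rfl⟩
    apply hgA
    exact ⟨a, ha, by simp⟩
  have hch := hmain A g⁻¹ hA hgA'
  have := chainR_of_chain hch
  rw [inv_inv] at this
  exact data_of_chainR this

end

end Cfsg.Agent.H09
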