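import Cfsg.Agent.Lib.H09.SchurSD2

/-! Reduction to stem extensions with kernel of prime order. -/

set_option autoImplicit false
set_option linter.unusedSectionVars false
set_option linter.unusedVariables false
set_option linter.style.haveILetI false

namespace Cfsg.Agent.H09

universe u

theorem exists_prime_stem {Q : Type u} [Group Q] : ∀ (n : ℕ) (Δ : Type u) [Group Δ] [Finite Δ] (τ : Δ →* Q),
    Cfsg.IsStemExtension τ → τ.ker ≠ ⊥ → Nat.card τ.ker ≤ n →
    ∃ (Δ₀ : Type u) (_ : Group Δ₀) (_ : Finite Δ₀) (τ₀ : Δ₀ →* Q) (r : ℕ), r.Prime ∧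
      Cfsg.IsStemExtension τ₀ ∧ Nat.card τ₀.ker = r := by
  intro n
  induction n with
  | zero =>
    intro Δ _ _ τ _ _ h
    have := Nat.card_pos (α := τ.ker)
    omega
  | succ n ih =>
    intro Δ _ _ τ hτ hne hcard
    by_cases hp : (Nat.card τ.ker).Prime
    · exact ⟨Δ, inferInstance, inferInstance, τ, _, hp, hτ, rfl⟩
    have h1 : Nat.card τ.ker ≠ 1 := by
      intro h
      apply hne
      exact (Subgroup.card_eq_one).1 h |> fun e => e
    obtain ⟨p, hpp, hpd⟩ := Nat.exists_prime_and_dvd h1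
    haveI := Fact.mk hpp
    obtain ⟨x, hx⟩ := exists_prime_orderOf_dvd_card' (G := τ.ker) p hpd
    have hx' : orderOf (x : Δ) = p := by rwa [Subgroup.orderOf_coe]
    set K₁ := Subgroup.zpowers (x : Δ) with hK₁
    have hK₁c : K₁ ≤ Subgroup.center Δ := by
      rw [hK₁, Subgroup.zpowers_le]
      exact hτ.2.1 x.2
    have hK₁k : K₁ ≤ τ.ker := by
      rw [hK₁, Subgroup.zpowers_le]
      exact x.2
    haveI hN : K₁.Normal := by
      constructor
      intro k hk g
      have := Subgroup.mem_center_iff.mp (hK₁c hk) g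
      rw [this]
      simpa using hk
    let τ₁ : (Δ ⧸ K₁) →* Q := QuotientGroup.lift K₁ τ (fun k hk => hK₁k hk)
    have hτ₁ : ∀ g, τ₁ (QuotientGroup.mk g) = τ g := fun g => rfl
    have hker : ∀ g, (QuotientGroup.mk g : Δ ⧸ K₁) ∈ τ₁.ker ↔ g ∈ τ.ker := by
      intro g
      rw [MonoidHom.mem_ker, MonoidHom.mem_ker, hτ₁]
    have hst : Cfsg.IsStemExtension τ₁ := by
      refine ⟨?_, ?_, ?_⟩
      · intro q
        obtain ⟨g, hg⟩ := hτ.1 q
        exact ⟨QuotientGroup.mk g, hg⟩
      · intro u hu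
        obtain ⟨g, rfl⟩ := QuotientGroup.mk_surjective u
        rw [hker] at hu
        rw [Subgroup.mem_center_iff]
        intro v
        obtain ⟨h, rfl⟩ := QuotientGroup.mk_surjective v
        have := Subgroup.mem_center_iff.mp (hτ.2.1 hu) h
        rw [← QuotientGroup.mk_mul, ← QuotientGroup.mk_mul, this]
      · intro u hu
        obtain ⟨g, rfl⟩ := QuotientGroup.mk_surjective u
        rw [hker] at hu
        have h2 : (commutator Δ).map (QuotientGroup.mk' K₁) ≤ commutator (Δ ⧸ K₁) := by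
          rw [commutator_def, commutator_def, Subgroup.map_commutator]
          exact Subgroup.commutator_mono le_top le_top
        exact h2 ⟨g, hτ.2.2 hu, rfl⟩
    -- the kernel is the image of the old kernel
    let f : τ.ker → τ₁.ker := fun k => ⟨QuotientGroup.mk k.1, (hker _).2 k.2⟩
    have hfs : Function.Surjective f := by
      rintro ⟨u, hu⟩
      obtain ⟨g, rfl⟩ := QuotientGroup.mk_surjective u
      exact ⟨⟨g, (hker g).1 hu⟩, rfl⟩
    have hfn : ¬ Function.Injective f := by
      intro hinj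
      have h3 : f x = f 1 := by
        apply Subtype.ext
        show (QuotientGroup.mk (x : Δ) : Δ ⧸ K₁) = QuotientGroup.mk 1
        rw [QuotientGroup.eq]
        rw [mul_one]
        exact K₁.inv_mem (Subgroup.mem_zpowers _)
      have h4 : x = 1 := hinj h3
      rw [h4, orderOf_one] at hx
      exact hpp.one_lt.ne hx
    have hlt : Nat.card τ₁.ker ≤ n := by
      have h5 : Nat.card τ₁.ker ≤ Nat.card τ.ker := Nat.card_le_card_of_surjective f hfs
      have h6 : Nat.card τ₁.ker ≠ Nat.card τ.ker := by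
        intro h
        exact hfn (hfs.bijective_of_nat_card_le (le_of_eq h.symm)).1
      omega
    have hne₁ : τ₁.ker ≠ ⊥ := by
      intro hb
      -- the old kernel would be cyclic of order `p`
      have h7 : τ.ker ≤ K₁ := by
        intro g hg
        have h8 : (QuotientGroup.mk g : Δ ⧸ K₁) ∈ τ₁.ker := (hker g).2 hg
        rw [hb, Subgroup.mem_bot] at h8
        exact (QuotientGroup.eq_one_iff g).1 h8
      have h9 : τ.ker = K₁ := le_antisymm h7 hK₁k
      apply hp
      rw [h9, hK₁, Nat.card_zpowers, hx']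
      exact hpp
    exact ih (Δ ⧸ K₁) τ₁ hst hne₁ hlt

/-- To prove triviality of stem kernels, kernels of prime order suffice. -/
theorem ker_eq_bot_of_prime {Q : Type u} [Group Q]
    (h : ∀ (Δ : Type u) [Group Δ] [Finite Δ] (τ : Δ →* Q), Cfsg.IsStemExtension τ → ∀ r : ℕ, r.Prime →
      Nat.card τ.ker = r → False)
    {Δ : Type u} [Group Δ] [Finite Δ] (τ : Δ →* Q) (hτ : Cfsg.IsStemExtension τ) : τ.ker = ⊥ := by
  by_contra hne
  obtain ⟨Δ₀, _, _, τ₀, r, hr, hs, hc⟩ := exists_prime_stem _ Δ τ hτ hne le_rfl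
  exact h Δ₀ τ₀ hs r hr hc

/-- A kernel of prime order consists of the powers of any non-trivial element; the case of the prime two. -/
theorem ker_two {Δ Q : Type*} [Group Δ] [Finite Δ] [Group Q] (τ : Δ →* Q) (hc : Nat.card τ.ker = 2) :
    ∃ z : Δ, τ z = 1 ∧ z ≠ 1 ∧ z ^ 2 = 1 ∧ orderOf z = 2 ∧ ∀ k, τ k = 1 → k = 1 ∨ k = z := by
  classical
  haveI : Fact (Nat.Prime 2) := ⟨Nat.prime_two⟩
  obtain ⟨x, hx⟩ := exists_prime_orderOf_dvd_card' (G := τ.ker) 2 (by rw [hc])
  have hx' : orderOf (x : Δ) = 2 := by rwa [Subgroup.orderOf_coe]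
  have hx1 : (x : Δ) ≠ 1 := by
    intro h
    rw [h, orderOf_one] at hx'
    omega
  refine ⟨x, x.2, hx1, ?_, hx', ?_⟩
  · rw [← hx', pow_orderOf_eq_one]
  · intro k hk
    by_contra hne
    simp only [not_or] at hne
    have h1 : (⟨k, hk⟩ : τ.ker) ≠ 1 := fun h => hne.1 (congrArg Subtype.val h)
    have h2 : (⟨k, hk⟩ : τ.ker) ≠ x := fun h => hne.2 (congrArg Subtype.val h)
    have h3 : x ≠ 1 := fun h => hx1 (congrArg Subtype.val h)
    have hc3 : 3 ≤ Nat.card τ.ker := by
      haveI : Fintype τ.ker := Fintype.ofFinite _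
      rw [Nat.card_eq_fintype_card]
      have := Finset.card_le_univ ({1, x, ⟨k, hk⟩} : Finset τ.ker)
      rw [Finset.card_insert_of_notMem, Finset.card_insert_of_notMem, Finset.card_singleton] at this
      · exact this
      · rw [Finset.mem_singleton]
        exact fun h => h2 h.symm
      · rw [Finset.mem_insert, Finset.mem_singleton]
        rintro (h | h)
        · exact h3 h.symm
        · exact h1 h.symm
    omega

end Cfsg.Agent.H09
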