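import Cfsg.Agent.Lib.H09.DoubleCover
import Cfsg.Agent.Lib.H09.StemPrime

/-! The case of a dihedral section: the double cover splits over a subgroup of odd index. -/

set_option autoImplicit false
set_option linter.unusedSectionVars false
set_option linter.unusedVariables false
set_option linter.style.haveILetI false

namespace Cfsg.Agent.H09.DC

open scoped commutatorElement
open Cfsg.Agent.H19

/-- Data on the elementary abelian subgroup. -/
structure VData {Q : Type*} [Group Q] (V : Subgroup Q) (e₁ e₂ e₃ : Q) : Prop where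
  sq : ∀ v ∈ V, v ^ 2 = 1
  cj : ∀ v ∈ V, v ≠ 1 → IsConj e₁ v
  m1 : e₁ ∈ V
  m2 : e₂ ∈ V
  m3 : e₃ ∈ V
  n1 : e₁ ≠ 1
  n2 : e₂ ≠ 1
  n3 : e₃ ≠ 1
  n12 : e₁ * e₂ ≠ 1
  n13 : e₁ * e₃ ≠ 1
  n23 : e₂ * e₃ ≠ 1
  n123 : e₁ * (e₂ * e₃) ≠ 1

section

variable {Δ Q : Type*} [Group Δ] [Group Q] {τ : Δ →* Q} {V : Subgroup Q} {e₁ e₂ e₃ : Q}

/-- The lifts of the involutions of `V` are involutions. -/
theorem I1_V (hd : VData V e₁ e₂ e₃) (hs : Function.Surjective τ) (hcen : τ.ker ≤ Subgroup.center Δ) {z : Δ}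
    (hzk : τ z = 1) (hz2 : z ^ 2 = 1) (hz1 : z ≠ 1) (hK : ∀ k, τ k = 1 → k = 1 ∨ k = z) :
    I1 τ e₁ ∧ ∀ v ∈ V, I1 τ v := by
  have hcomm : ∀ u ∈ V, ∀ v ∈ V, u * v = v * u := fun u hu v hv =>
    comm_of_sq (hd.sq u hu) (hd.sq v hv) (hd.sq _ (V.mul_mem hu hv))
  have h1 : I1 τ e₁ := I1_of_triple hs hcen hzk hz2 hz1 hK (hd.sq _ hd.m1)
    (hcomm _ hd.m1 _ hd.m2) (hcomm _ hd.m1 _ hd.m3) (hcomm _ hd.m2 _ hd.m3)
    (hd.cj _ hd.m2 hd.n2) (hd.cj _ hd.m3 hd.n3)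
    (hd.cj _ (V.mul_mem hd.m1 hd.m2) hd.n12) (hd.cj _ (V.mul_mem hd.m1 hd.m3) hd.n13)
    (hd.cj _ (V.mul_mem hd.m2 hd.m3) hd.n23)
    (hd.cj _ (V.mul_mem hd.m1 (V.mul_mem hd.m2 hd.m3)) hd.n123)
  refine ⟨h1, fun v hv => ?_⟩
  by_cases hv1 : v = 1
  · rw [hv1]
    exact I1_one hs hcen hz2 hK
  · exact I1_conj hs h1 (hd.cj v hv hv1)

end

/-- Elements of a subgroup generated by the images all have lifts normalizing. -/
theorem lifts_normalize {Δ Q : Type*} [Group Δ] [Group Q] {τ : Δ →* Q} (hs : Function.Surjective τ)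
    (N : Subgroup Δ) (hk : ∀ y, τ y = 1 → y ∈ N) {S : Set Q} (hS : ∀ x ∈ S, ∀ s, τ s = x → s ∈ N) {a : Q}
    (ha : a ∈ Subgroup.closure S) {A : Δ} (hA : τ A = a) : A ∈ N := by
  have hle : Subgroup.closure S ≤ N.map τ := by
    rw [Subgroup.closure_le]
    intro x hx
    obtain ⟨s, hs'⟩ := hs x
    exact ⟨s, hS x hx s hs', hs'⟩
  obtain ⟨n, hn, e⟩ := hle ha
  have h1 : n⁻¹ * A ∈ N := hk _ (by rw [map_mul, map_inv, hA, e, inv_mul_cancel])
  have h2 := N.mul_mem hn h1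
  rwa [mul_inv_cancel_left] at h2

theorem conj_mem_of_normalizer {G : Type*} [Group G] {W : Subgroup G} {g : G}
    (h : g ∈ Subgroup.normalizer (W : Set G)) : ∀ w ∈ W, g * w * g⁻¹ ∈ W := fun w hw =>
  (Subgroup.mem_normalizer_iff.1 h w).1 hw

/-- Dihedral case. -/
theorem two_part_D8 {Δ Q : Type*} [Group Δ] [Finite Δ] [Group Q] [Finite Q] (τ : Δ →* Q)
    (hτ : Cfsg.IsStemExtension τ) (hc : Nat.card τ.ker = 2) {V : Subgroup Q} {e₁ e₂ e₃ : Q}
    (hd : VData V e₁ e₂ e₃) (t : ℕ → Q) (n : ℕ) (hg : ∀ i ≤ n, Good V (t i))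
    (hch : ∀ i < n, t i * t (i + 1) = t (i + 1) * t i) {a b : Q} (ha : IsConj e₁ a) (hb : IsConj e₁ b)
    (hu : IsConj e₁ ((a * b) ^ 2)) (hNa : a ∈ Subgroup.closure (t '' {i | i ≤ n}))
    (hNb : b ∈ Subgroup.closure (t '' {i | i ≤ n})) (hV16 : Nat.card V = 16) {m : ℕ} (hQ : Nat.card Q = 128 * m)
    (hm : Odd m)
    (hP : 128 ≤ Nat.card ↥(V ⊔ Subgroup.zpowers ((a * b) ^ 2) ⊔ Subgroup.zpowers a ⊔ Subgroup.zpowers b)) :
    False := by
  obtain ⟨hs, hcen, hcom⟩ := hτ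
  obtain ⟨z, hzk, hz1, hz2, hzo, hK⟩ := Cfsg.Agent.H09.ker_two τ hc
  obtain ⟨hI, hVI⟩ := I1_V hd hs hcen hzk hz2 hz1 hK
  obtain ⟨W, hW1, hW2, hW3, hW4, hW5⟩ := exists_W hs hcen hVI hd.sq t n hg hch
  obtain ⟨A, hA⟩ := hs a
  obtain ⟨B, hB⟩ := hs b
  have hA2 : A ^ 2 = 1 := I1_conj hs hI ha A hA
  have hB2 : B ^ 2 = 1 := I1_conj hs hI hb B hB
  set U := (A * B) ^ 2 with hU
  have hτU : τ U = (a * b) ^ 2 := by rw [hU, map_pow, map_mul, hA, hB]
  have hU2 : U ^ 2 = 1 := I1_conj hs hI hu U hτU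
  have hNN : ∀ x ∈ t '' {i | i ≤ n}, ∀ s, τ s = x → s ∈ Subgroup.normalizer (W : Set Δ) := by
    rintro _ ⟨i, hi, rfl⟩ s hs'
    exact hW4 i hi s hs'
  have hone : (1 : Q) ∈ V := V.one_mem
  have hk : ∀ y, τ y = 1 → y ∈ Subgroup.normalizer (W : Set Δ) := fun y hy => hW5 y (by rw [hy]; exact hone)
  have hAN := lifts_normalize hs _ hk hNN hNa hA
  have hBN := lifts_normalize hs _ hk hNN hNb hB
  have hUN : U ∈ Subgroup.normalizer (W : Set Δ) := by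
    rw [hU]
    exact Subgroup.pow_mem _ (Subgroup.mul_mem _ hAN hBN) 2
  have hAi : A⁻¹ = A := by rw [inv_eq_iff_mul_eq_one, ← pow_two, hA2]
  have hBi : B⁻¹ = B := by rw [inv_eq_iff_mul_eq_one, ← pow_two, hB2]
  have hUi : U⁻¹ = U := by rw [inv_eq_iff_mul_eq_one, ← pow_two, hU2]
  set T₁ := W ⊔ Subgroup.zpowers U with hT₁
  set T₂ := T₁ ⊔ Subgroup.zpowers A with hT₂
  set T₃ := T₂ ⊔ Subgroup.zpowers B with hT₃
  have hWT₁ : W ≤ T₁ := le_sup_left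
  have hUT₁ : U ∈ T₁ := (le_sup_right : Subgroup.zpowers U ≤ T₁) (Subgroup.mem_zpowers U)
  have hT₁T₂ : T₁ ≤ T₂ := le_sup_left
  have hAT₂ : A ∈ T₂ := (le_sup_right : Subgroup.zpowers A ≤ T₂) (Subgroup.mem_zpowers A)
  have hT₂T₃ : T₂ ≤ T₃ := le_sup_left
  have hBT₃ : B ∈ T₃ := (le_sup_right : Subgroup.zpowers B ≤ T₃) (Subgroup.mem_zpowers B)
  have c1 : Nat.card T₁ ≤ 2 * Nat.card W :=
    card_step (conj_mem_of_normalizer hUN) (by rw [hU2]; exact W.one_mem)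
  -- conjugation of `U`
  have eAU : A * U * A⁻¹ = U⁻¹ := by
    rw [hU, hAi, pow_two, mul_inv_rev, mul_inv_rev, hAi, hBi]
    have h1 : A * A = 1 := by rw [← pow_two, hA2]
    calc A * (A * B * (A * B)) * A = (A * A) * B * A * B * A := by simp only [mul_assoc]
      _ = B * A * (B * A) := by rw [h1, one_mul]; simp only [mul_assoc]
  have eBU : B * U * B⁻¹ = U⁻¹ := by
    rw [hU, hBi, pow_two, mul_inv_rev, mul_inv_rev, hAi, hBi]
    have h1 : B * B = 1 := by rw [← pow_two, hB2]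
    calc B * (A * B * (A * B)) * B = B * A * B * A * (B * B) := by simp only [mul_assoc]
      _ = B * A * (B * A) := by rw [h1, mul_one]; simp only [mul_assoc]
  have c2 : Nat.card T₂ ≤ 2 * Nat.card T₁ := by
    refine card_step (conj_sup_mem (fun w hw => hWT₁ (conj_mem_of_normalizer hAN w hw)) ?_)
      (by rw [hA2]; exact T₁.one_mem)
    rw [eAU]
    exact T₁.inv_mem hUT₁
  have c3 : Nat.card T₃ ≤ 2 * Nat.card T₂ := by
    refine card_step (conj_sup_mem (conj_sup_mem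
      (fun w hw => hT₁T₂ (hWT₁ (conj_mem_of_normalizer hBN w hw))) ?_) ?_)
      (by rw [hB2]; exact T₂.one_mem)
    · rw [eBU]
      exact hT₁T₂ (T₁.inv_mem hUT₁)
    · have e : B * A * B⁻¹ = A * U := by
        rw [hU, hBi, pow_two]
        have h1 : A * A = 1 := by rw [← pow_two, hA2]
        calc B * A * B = (A * A) * (B * A * B) := by rw [h1, one_mul]
          _ = A * (A * B * (A * B)) * (B * B) := by
              have h2 : B * B = 1 := by rw [← pow_two, hB2]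
              rw [h2, mul_one]
              simp only [mul_assoc]
          _ = A * (A * B * (A * B)) := by
              have h2 : B * B = 1 := by rw [← pow_two, hB2]
              rw [h2, mul_one]
      rw [e]
      exact T₂.mul_mem hAT₂ (hT₁T₂ hUT₁)
  have hcard : Nat.card T₃ ≤ 128 := by
    rw [hV16] at hW1
    omega
  set P₀ := V ⊔ Subgroup.zpowers ((a * b) ^ 2) ⊔ Subgroup.zpowers a ⊔ Subgroup.zpowers b with hP₀
  have hVP : V ≤ P₀ := le_sup_left.trans (le_sup_left.trans le_sup_left)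
  have huP : (a * b) ^ 2 ∈ P₀ :=
    ((le_sup_right : _ ≤ V ⊔ Subgroup.zpowers ((a * b) ^ 2)).trans (le_sup_left.trans le_sup_left))
      (Subgroup.mem_zpowers _)
  have haP : a ∈ P₀ :=
    ((le_sup_right : _ ≤ V ⊔ Subgroup.zpowers ((a * b) ^ 2) ⊔ Subgroup.zpowers a).trans le_sup_left)
      (Subgroup.mem_zpowers _)
  have hbP : b ∈ P₀ := (le_sup_right : _ ≤ P₀) (Subgroup.mem_zpowers _)
  have h1 : P₀ ≤ T₃.map τ := by
    refine sup_le (sup_le (sup_le ?_ ?_) ?_) ?_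
    · intro x hx
      obtain ⟨w, hw, e⟩ := hW3 x hx
      exact ⟨w, hT₂T₃ (hT₁T₂ (hWT₁ hw)), e⟩
    · rw [Subgroup.zpowers_le]
      exact ⟨U, hT₂T₃ (hT₁T₂ hUT₁), hτU⟩
    · rw [Subgroup.zpowers_le]
      exact ⟨A, hT₂T₃ hAT₂, hA⟩
    · rw [Subgroup.zpowers_le]
      exact ⟨B, hBT₃, hB⟩
  have h2 : T₃ ≤ P₀.comap τ := by
    refine sup_le (sup_le (sup_le ?_ ?_) ?_) ?_
    · intro w hw
      exact hVP (hW2 w hw)
    · rw [Subgroup.zpowers_le, Subgroup.mem_comap, hτU]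
      exact huP
    · rw [Subgroup.zpowers_le, Subgroup.mem_comap, hA]
      exact haP
    · rw [Subgroup.zpowers_le, Subgroup.mem_comap, hB]
      exact hbP
  have hP₂ : Nat.card P₀ ≤ Nat.card T₃ := by
    let f : T₃ → P₀ := fun b => ⟨τ b.1, h2 b.2⟩
    refine Nat.card_le_card_of_surjective f ?_
    rintro ⟨x, hx⟩
    obtain ⟨b, hb, e⟩ := h1 hx
    exact ⟨⟨b, hb⟩, Subtype.ext e⟩
  have hPc : Nat.card P₀ = 128 := by omega
  have hidx : P₀.index = m := by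
    have h3 := Subgroup.card_mul_index P₀
    rw [hPc, hQ] at h3
    omega
  have hodd : ¬ 2 ∣ P₀.index := by
    rw [hidx]
    intro h
    obtain ⟨k, hk⟩ := hm
    omega
  have := finish hs hcen hzk (hcom (MonoidHom.mem_ker.mpr hzk)) hzo hodd (B := T₃) (by omega)
    (fun x hx => by
      obtain ⟨b, hb, e⟩ := h1 hx
      exact ⟨b, hb, e⟩) (fun b hb => h2 hb)
  exact hz1 this

end Cfsg.Agent.H09.DC
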