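import Cfsg.Agent.Lib.H09.DC2

/-! Odd primes in the reduction to kernels of prime order. -/

set_option autoImplicit false
set_option linter.unusedSectionVars false
set_option linter.unusedVariables false
set_option linter.style.haveILetI false

namespace Cfsg.Agent.H09.DC

open Cfsg.Agent.H19

variable {Δ Q : Type*} [Group Δ] [Finite Δ] [Group Q] [Finite Q]

theorem exists_of_card_prime (τ : Δ →* Q) {r : ℕ} (hr : r.Prime) (hc : Nat.card τ.ker = r) :
    ∃ z : Δ, τ z = 1 ∧ orderOf z = r := by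
  haveI := Fact.mk hr
  obtain ⟨x, hx⟩ := exists_prime_orderOf_dvd_card' (G := τ.ker) r (by rw [hc])
  exact ⟨x, x.2, by rwa [Subgroup.orderOf_coe]⟩

/-- A prime whose square does not divide the order does not divide the order of a stem kernel. -/
theorem odd_part (τ : Δ →* Q) (hτ : Cfsg.IsStemExtension τ) {r : ℕ} (hr : r.Prime) (hr2 : ¬ r ^ 2 ∣ Nat.card Q)
    {z : Δ} (hzk : τ z = 1) (hzo : orderOf z = r) : False := by
  haveI := Fact.mk hr
  have hzp : IsPGroup r (Subgroup.zpowers z) :=
    IsPGroup.of_card (n := 1) (by rw [Nat.card_zpowers, hzo, pow_one])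
  obtain ⟨R, hR⟩ := hzp.exists_le_sylow
  have hzR : z ∈ (R : Subgroup Δ) := hR (Subgroup.mem_zpowers z)
  have hk : z ∈ τ.ker := MonoidHom.mem_ker.mpr hzk
  have h1 := Cfsg.Agent.H09.mem_commutator_sylow R hzR (hτ.2.2 hk) (hτ.2.1 hk)
  have hP : IsPGroup r ((R : Subgroup Δ).map τ) := R.isPGroup'.map τ
  obtain ⟨k, hk'⟩ := IsPGroup.iff_card.mp hP
  have hdvd : r ^ k ∣ Nat.card Q := by
    rw [← hk']
    exact Subgroup.card_subgroup_dvd_card _
  have hc : IsCyclic ((R : Subgroup Δ).map τ) := by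
    rcases Nat.lt_or_ge k 2 with hk2 | hk2
    · have : k = 0 ∨ k = 1 := by omega
      rcases this with rfl | rfl
      · rw [pow_zero] at hk'
        haveI := (Nat.card_eq_one_iff_unique.mp hk').1
        exact isCyclic_of_subsingleton
      · rw [pow_one] at hk'
        exact isCyclic_of_prime_card hk'
    · exact absurd ((pow_dvd_pow r hk2).trans hdvd) hr2
  have h3 := Cfsg.Agent.H09.eq_one_of_cyclic_image τ hτ.2.1 hc hzR h1
  rw [h3, orderOf_one] at hzo
  exact hr.one_lt.ne hzo

/-- The prime three, when a Sylow subgroup is elementary abelian of order nine with an inverting element. -/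
theorem three_part (τ : Δ →* Q) (hτ : Cfsg.IsStemExtension τ) {a b g : Q} (ha : a ^ 3 = 1) (ha1 : a ≠ 1)
    (hb : b ^ 3 = 1) (hab : a * b = b * a) (hne : b ∉ Subgroup.zpowers a) (hga : g * a * g⁻¹ = a)
    (hgb : g * b * g⁻¹ = b⁻¹) {m : ℕ} (hQ : Nat.card Q = 9 * m) (hm : ¬ 3 ∣ m) {z : Δ} (hzk : τ z = 1)
    (hzo : orderOf z = 3) : False := by
  have hcard3 : Nat.card (Subgroup.closure ({a, b} : Set Q)) = 9 := by
    have ho : orderOf a = 3 := orderOf_eq_prime ha ha1
    haveI : Fact (Nat.Prime 3) := ⟨Nat.prime_three⟩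
    rw [Cfsg.Agent.H09.card_closure_pair a b 3 1 (by norm_num) hb, ho]
    · rw [pow_one, ← hab]
      group
    · intro j h0 hj
      have : j = 1 ∨ j = 2 := by omega
      rcases this with rfl | rfl
      · simpa using hne
      · intro h
        apply hne
        have h2 := Subgroup.pow_mem _ h 2
        have h3 : (b ^ 2) ^ 2 = b := by
          rw [← pow_mul]
          show b ^ (3 + 1) = b
          rw [pow_succ, hb, one_mul]
        rwa [h3] at h2
  have hi3 : (Subgroup.closure ({a, b} : Set Q)).index = m := by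
    have := Subgroup.card_mul_index (Subgroup.closure ({a, b} : Set Q))
    rw [hcard3, hQ] at this
    omega
  have h1 := Cfsg.Agent.H09.eq_one_of_preimage τ hτ.1 hτ.2.1 (Subgroup.closure ({a, b} : Set Q)) Nat.prime_three
    (by rw [hi3]; exact hm) (MonoidHom.mem_ker.mpr hzk) (hτ.2.2 (MonoidHom.mem_ker.mpr hzk)) hzo
    (fun w hw _ h => Cfsg.Agent.H09.ab_preimage τ hτ.1 hτ.2.1 ha hab hga hgb w hw h)
  rw [h1, orderOf_one] at hzo
  omega

end Cfsg.Agent.H09.DC
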