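import Cfsg.Agent.Lib.H09.DC3

/-! The case of a section isomorphic to the unitriangular group of degree four over the field with two
elements. -/

set_option autoImplicit false
set_option linter.unusedSectionVars false
set_option linter.unusedVariables false
set_option linter.style.haveILetI false

namespace Cfsg.Agent.H09.DC

open scoped commutatorElement
open Cfsg.Agent.H19

section

variable {Δ : Type*} [Group Δ] {A B C D E F : Δ}

theorem mul_self_of_sq {X : Δ} (h : X ^ 2 = 1) : X * X = 1 := by rw [← pow_two, h]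

theorem inv_of_sq {X : Δ} (h : X ^ 2 = 1) : X⁻¹ = X := by
  rw [inv_eq_iff_mul_eq_one, ← pow_two, h]

theorem ut_AE (hA : A ^ 2 = 1) (hB : B ^ 2 = 1) (hC : C ^ 2 = 1) (hDs : D ^ 2 = 1) (hAC : A * C = C * A)
    (hBD : B * D = D * B) (hBF : B * F = F * B) (hD : D = (A * B) ^ 2) (hEd : E = (B * C) ^ 2)
    (hF : F = (D * C) ^ 2) : A * E * A⁻¹ = F * E := by
  have a2 := mul_self_of_sq hA
  have b2 := mul_self_of_sq hB
  have c2 := mul_self_of_sq hC
  have d2 := mul_self_of_sq hDs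
  have h1 : A * B * A = D * B := by
    rw [hD, pow_two]
    calc A * B * A = A * B * A * (B * B) := by rw [b2, mul_one]
      _ = A * B * (A * B) * B := by simp only [mul_assoc]
  have h2 : C * D = D * F * C := by
    rw [hF, pow_two]
    calc C * D = (D * D) * (C * D) * (C * C) := by rw [d2, c2, one_mul, mul_one]
      _ = D * (D * C * (D * C)) * C := by simp only [mul_assoc]
  have h3 : A * E * A = (A * B * A) * C * (A * B * A) * C := by
    rw [hEd, pow_two]
    calc A * (B * C * (B * C)) * A = A * B * C * B * (C * A) := by simp only [mul_assoc]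
      _ = A * B * C * B * (A * C) := by rw [hAC]
      _ = A * B * (C * (A * A)) * B * A * C := by rw [a2, mul_one]; simp only [mul_assoc]
      _ = A * B * ((C * A) * A) * B * A * C := by simp only [mul_assoc]
      _ = A * B * ((A * C) * A) * B * A * C := by rw [hAC]
      _ = _ := by simp only [mul_assoc]
  rw [inv_of_sq hA, h3, h1]
  calc D * B * C * (D * B) * C = D * B * (C * D) * B * C := by simp only [mul_assoc]
    _ = D * B * (D * F * C) * B * C := by rw [h2]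
    _ = D * (B * D) * F * C * B * C := by simp only [mul_assoc]
    _ = D * (D * B) * F * C * B * C := by rw [hBD]
    _ = (D * D) * (B * F) * C * B * C := by simp only [mul_assoc]
    _ = (D * D) * (F * B) * C * B * C := by rw [hBF]
    _ = F * (B * C * (B * C)) := by rw [d2, one_mul]; simp only [mul_assoc]
    _ = F * E := by rw [hEd, pow_two]

theorem ut_CD (hC : C ^ 2 = 1) (hDs : D ^ 2 = 1) (hF : F = (D * C) ^ 2) : C * D * C⁻¹ = D * F := by
  have d2 := mul_self_of_sq hDs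
  rw [inv_of_sq hC, hF, pow_two]
  calc C * D * C = (D * D) * (C * D * C) := by rw [d2, one_mul]
    _ = _ := by simp only [mul_assoc]

theorem ut_BA (hA : A ^ 2 = 1) (hB : B ^ 2 = 1) (hD : D = (A * B) ^ 2) : B * A * B⁻¹ = A * D := by
  have a2 := mul_self_of_sq hA
  rw [inv_of_sq hB, hD, pow_two]
  calc B * A * B = (A * A) * (B * A * B) := by rw [a2, one_mul]
    _ = _ := by simp only [mul_assoc]

theorem ut_BC (hB : B ^ 2 = 1) (hC : C ^ 2 = 1) (hE : E = (B * C) ^ 2) : B * C * B⁻¹ = E * C := by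
  have c2 := mul_self_of_sq hC
  rw [inv_of_sq hB, hE, pow_two]
  calc B * C * B = B * C * B * (C * C) := by rw [c2, mul_one]
    _ = _ := by simp only [mul_assoc]

theorem conj_of_comm {X Y : Δ} (h : X * Y = Y * X) : X * Y * X⁻¹ = Y := by
  rw [h]
  group

end

/-- Lifts of commuting involutions commute. -/
theorem comm_lifts {Δ Q : Type*} [Group Δ] [Group Q] {τ : Δ →* Q} {x y : Q} (hx : I1 τ x) (hy : I1 τ y)
    (hxy : I1 τ (x * y)) {X Y : Δ} (hX : τ X = x) (hY : τ Y = y) : X * Y = Y * X :=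
  comm_of_sq (hx X hX) (hy Y hY) (hxy _ (by rw [map_mul, hX, hY]))

/-- Unitriangular case. -/
theorem two_part_UT4 {Δ Q : Type*} [Group Δ] [Finite Δ] [Group Q] [Finite Q] (τ : Δ →* Q)
    (hτ : Cfsg.IsStemExtension τ) (hc : Nat.card τ.ker = 2) {V : Subgroup Q} {e₁ e₂ e₃ : Q}
    (hd : VData V e₁ e₂ e₃) (t : ℕ → Q) (n : ℕ) (hg : ∀ i ≤ n, Good V (t i))
    (hch : ∀ i < n, t i * t (i + 1) = t (i + 1) * t i) {a b c d e f : Q}
    (hdd : d = (a * b) ^ 2) (hee : e = (b * c) ^ 2) (hff : f = (d * c) ^ 2)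
    (ca : IsConj e₁ a) (cb : IsConj e₁ b) (cc : IsConj e₁ c) (cd : IsConj e₁ d) (ce : IsConj e₁ e) (cf : IsConj e₁ f)
    (cac : IsConj e₁ (a * c)) (cad : IsConj e₁ (a * d)) (cbd : IsConj e₁ (b * d)) (cbe : IsConj e₁ (b * e))
    (cce : IsConj e₁ (c * e)) (cde : IsConj e₁ (d * e)) (caf : IsConj e₁ (a * f)) (cbf : IsConj e₁ (b * f))
    (ccf : IsConj e₁ (c * f)) (cdf : IsConj e₁ (d * f)) (cef : IsConj e₁ (e * f))
    (hNa : a ∈ Subgroup.closure (t '' {i | i ≤ n})) (hNb : b ∈ Subgroup.closure (t '' {i | i ≤ n}))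
    (hNc : c ∈ Subgroup.closure (t '' {i | i ≤ n})) (hV16 : Nat.card V = 16) {m : ℕ} (hQ : Nat.card Q = 1024 * m)
    (hm : Odd m)
    (hP : 1024 ≤ Nat.card ↥(V ⊔ Subgroup.zpowers f ⊔ Subgroup.zpowers e ⊔ Subgroup.zpowers d ⊔ Subgroup.zpowers a ⊔
      Subgroup.zpowers c ⊔ Subgroup.zpowers b)) :
    False := by
  obtain ⟨hs, hcen, hcom⟩ := hτ
  obtain ⟨z, hzk, hz1, hz2, hzo, hK⟩ := Cfsg.Agent.H09.ker_two τ hc
  obtain ⟨hI, hVI⟩ := I1_V hd hs hcen hzk hz2 hz1 hK
  obtain ⟨W, hW1, hW2, hW3, hW4, hW5⟩ := exists_W hs hcen hVI hd.sq t n hg hch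
  have I := fun {x : Q} (h : IsConj e₁ x) => I1_conj hs hI h
  obtain ⟨A, hA⟩ := hs a
  obtain ⟨B, hB⟩ := hs b
  obtain ⟨C, hC⟩ := hs c
  set D := (A * B) ^ 2 with hD
  set E := (B * C) ^ 2 with hE
  set F := (D * C) ^ 2 with hF
  have τD : τ D = d := by rw [hD, map_pow, map_mul, hA, hB, hdd]
  have τE : τ E = e := by rw [hE, map_pow, map_mul, hB, hC, hee]
  have τF : τ F = f := by rw [hF, map_pow, map_mul, τD, hC, hff]
  have A2 := I ca A hA
  have B2 := I cb B hB
  have C2 := I cc C hC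
  have D2 := I cd D τD
  have E2 := I ce E τE
  have F2 := I cf F τF
  have AC := comm_lifts (I ca) (I cc) (I cac) hA hC
  have AD := comm_lifts (I ca) (I cd) (I cad) hA τD
  have BD := comm_lifts (I cb) (I cd) (I cbd) hB τD
  have BE := comm_lifts (I cb) (I ce) (I cbe) hB τE
  have CE := comm_lifts (I cc) (I ce) (I cce) hC τE
  have DE := comm_lifts (I cd) (I ce) (I cde) τD τE
  have AF := comm_lifts (I ca) (I cf) (I caf) hA τF
  have BF := comm_lifts (I cb) (I cf) (I cbf) hB τF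
  have CF := comm_lifts (I cc) (I cf) (I ccf) hC τF
  have DF := comm_lifts (I cd) (I cf) (I cdf) τD τF
  have EF := comm_lifts (I ce) (I cf) (I cef) τE τF
  have hNN : ∀ x ∈ t '' {i | i ≤ n}, ∀ s, τ s = x → s ∈ Subgroup.normalizer (W : Set Δ) := by
    rintro _ ⟨i, hi, rfl⟩ s hs'
    exact hW4 i hi s hs'
  have hone : (1 : Q) ∈ V := V.one_mem
  have hk : ∀ y, τ y = 1 → y ∈ Subgroup.normalizer (W : Set Δ) := fun y hy => hW5 y (by rw [hy]; exact hone)
  have AN := lifts_normalize hs _ hk hNN hNa hA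
  have BN := lifts_normalize hs _ hk hNN hNb hB
  have CN := lifts_normalize hs _ hk hNN hNc hC
  have DN : D ∈ Subgroup.normalizer (W : Set Δ) := Subgroup.pow_mem _ (Subgroup.mul_mem _ AN BN) 2
  have EN : E ∈ Subgroup.normalizer (W : Set Δ) := Subgroup.pow_mem _ (Subgroup.mul_mem _ BN CN) 2
  have FN : F ∈ Subgroup.normalizer (W : Set Δ) := Subgroup.pow_mem _ (Subgroup.mul_mem _ DN CN) 2
  set T₁ := W ⊔ Subgroup.zpowers F with hT₁
  set T₂ := T₁ ⊔ Subgroup.zpowers E with hT₂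
  set T₃ := T₂ ⊔ Subgroup.zpowers D with hT₃
  set T₄ := T₃ ⊔ Subgroup.zpowers A with hT₄
  set T₅ := T₄ ⊔ Subgroup.zpowers C with hT₅
  set T₆ := T₅ ⊔ Subgroup.zpowers B with hT₆
  have l01 : W ≤ T₁ := le_sup_left
  have l12 : T₁ ≤ T₂ := le_sup_left
  have l23 : T₂ ≤ T₃ := le_sup_left
  have l34 : T₃ ≤ T₄ := le_sup_left
  have l45 : T₄ ≤ T₅ := le_sup_left
  have l56 : T₅ ≤ T₆ := le_sup_left
  have mF : F ∈ T₁ := (le_sup_right : Subgroup.zpowers F ≤ T₁) (Subgroup.mem_zpowers F)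
  have mE : E ∈ T₂ := (le_sup_right : Subgroup.zpowers E ≤ T₂) (Subgroup.mem_zpowers E)
  have mD : D ∈ T₃ := (le_sup_right : Subgroup.zpowers D ≤ T₃) (Subgroup.mem_zpowers D)
  have mA : A ∈ T₄ := (le_sup_right : Subgroup.zpowers A ≤ T₄) (Subgroup.mem_zpowers A)
  have mC : C ∈ T₅ := (le_sup_right : Subgroup.zpowers C ≤ T₅) (Subgroup.mem_zpowers C)
  have mB : B ∈ T₆ := (le_sup_right : Subgroup.zpowers B ≤ T₆) (Subgroup.mem_zpowers B)
  have c1 : Nat.card T₁ ≤ 2 * Nat.card W :=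
    card_step (conj_mem_of_normalizer FN) (by rw [F2]; exact W.one_mem)
  have c2 : Nat.card T₂ ≤ 2 * Nat.card T₁ := by
    refine card_step (conj_sup_mem (fun w hw => l01 (conj_mem_of_normalizer EN w hw)) ?_)
      (by rw [E2]; exact T₁.one_mem)
    rw [conj_of_comm EF]
    exact mF
  have c3 : Nat.card T₃ ≤ 2 * Nat.card T₂ := by
    refine card_step (conj_sup_mem (conj_sup_mem
      (fun w hw => l12 (l01 (conj_mem_of_normalizer DN w hw))) ?_) ?_)
      (by rw [D2]; exact T₂.one_mem)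
    · rw [conj_of_comm DF]
      exact l12 mF
    · rw [conj_of_comm DE]
      exact mE
  have eAE : A * E * A⁻¹ = F * E := ut_AE A2 B2 C2 D2 AC BD BF rfl rfl rfl
  have c4 : Nat.card T₄ ≤ 2 * Nat.card T₃ := by
    refine card_step (conj_sup_mem (conj_sup_mem (conj_sup_mem
      (fun w hw => l23 (l12 (l01 (conj_mem_of_normalizer AN w hw)))) ?_) ?_) ?_)
      (by rw [A2]; exact T₃.one_mem)
    · rw [conj_of_comm AF]
      exact l23 (l12 mF)
    · rw [eAE]
      exact l23 (T₂.mul_mem (l12 mF) mE)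
    · rw [conj_of_comm AD]
      exact mD
  have eCD : C * D * C⁻¹ = D * F := ut_CD C2 D2 rfl
  have c5 : Nat.card T₅ ≤ 2 * Nat.card T₄ := by
    refine card_step (conj_sup_mem (conj_sup_mem (conj_sup_mem (conj_sup_mem
      (fun w hw => l34 (l23 (l12 (l01 (conj_mem_of_normalizer CN w hw))))) ?_) ?_) ?_) ?_)
      (by rw [C2]; exact T₄.one_mem)
    · rw [conj_of_comm CF]
      exact l34 (l23 (l12 mF))
    · rw [conj_of_comm CE]
      exact l34 (l23 mE)
    · rw [eCD]
      exact l34 (T₃.mul_mem mD (l23 (l12 mF)))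
    · rw [conj_of_comm AC.symm]
      exact mA
  have eBA : B * A * B⁻¹ = A * D := ut_BA A2 B2 rfl
  have eBC : B * C * B⁻¹ = E * C := ut_BC B2 C2 rfl
  have c6 : Nat.card T₆ ≤ 2 * Nat.card T₅ := by
    refine card_step (conj_sup_mem (conj_sup_mem (conj_sup_mem (conj_sup_mem (conj_sup_mem
      (fun w hw => l45 (l34 (l23 (l12 (l01 (conj_mem_of_normalizer BN w hw)))))) ?_) ?_) ?_) ?_) ?_)
      (by rw [B2]; exact T₅.one_mem)
    · rw [conj_of_comm BF]
      exact l45 (l34 (l23 (l12 mF)))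
    · rw [conj_of_comm BE]
      exact l45 (l34 (l23 mE))
    · rw [conj_of_comm BD]
      exact l45 (l34 mD)
    · rw [eBA]
      exact l45 (T₄.mul_mem mA (l34 mD))
    · rw [eBC]
      exact T₅.mul_mem (l45 (l34 (l23 mE))) mC
  have hcard : Nat.card T₆ ≤ 1024 := by
    rw [hV16] at hW1
    omega
  set P₀ := V ⊔ Subgroup.zpowers f ⊔ Subgroup.zpowers e ⊔ Subgroup.zpowers d ⊔ Subgroup.zpowers a ⊔
      Subgroup.zpowers c ⊔ Subgroup.zpowers b with hP₀
  have h1 : P₀ ≤ T₆.map τ := by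
    refine sup_le (sup_le (sup_le (sup_le (sup_le (sup_le ?_ ?_) ?_) ?_) ?_) ?_) ?_
    · intro x hx
      obtain ⟨w, hw, e'⟩ := hW3 x hx
      exact ⟨w, l56 (l45 (l34 (l23 (l12 (l01 hw))))), e'⟩
    · rw [Subgroup.zpowers_le]
      exact ⟨F, l56 (l45 (l34 (l23 (l12 mF)))), τF⟩
    · rw [Subgroup.zpowers_le]
      exact ⟨E, l56 (l45 (l34 (l23 mE))), τE⟩
    · rw [Subgroup.zpowers_le]
      exact ⟨D, l56 (l45 (l34 mD)), τD⟩
    · rw [Subgroup.zpowers_le]
      exact ⟨A, l56 (l45 mA), hA⟩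
    · rw [Subgroup.zpowers_le]
      exact ⟨C, l56 mC, hC⟩
    · rw [Subgroup.zpowers_le]
      exact ⟨B, mB, hB⟩
  have mm1 : V ≤ P₀ := le_sup_left.trans (le_sup_left.trans (le_sup_left.trans (le_sup_left.trans (le_sup_left.trans le_sup_left))))
  have mm2 : Subgroup.zpowers f ≤ P₀ := le_sup_right.trans (le_sup_left.trans (le_sup_left.trans (le_sup_left.trans (le_sup_left.trans le_sup_left))))
  have mm3 : Subgroup.zpowers e ≤ P₀ := le_sup_right.trans (le_sup_left.trans (le_sup_left.trans (le_sup_left.trans le_sup_left)))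
  have mm4 : Subgroup.zpowers d ≤ P₀ := le_sup_right.trans (le_sup_left.trans (le_sup_left.trans le_sup_left))
  have mm5 : Subgroup.zpowers a ≤ P₀ := le_sup_right.trans (le_sup_left.trans le_sup_left)
  have mm6 : Subgroup.zpowers c ≤ P₀ := le_sup_right.trans le_sup_left
  have mm7 : Subgroup.zpowers b ≤ P₀ := le_sup_right
  have h2 : T₆ ≤ P₀.comap τ := by
    refine sup_le (sup_le (sup_le (sup_le (sup_le (sup_le ?_ ?_) ?_) ?_) ?_) ?_) ?_
    · intro w hw
      exact mm1 (hW2 w hw)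
    · rw [Subgroup.zpowers_le, Subgroup.mem_comap, τF]
      exact mm2 (Subgroup.mem_zpowers _)
    · rw [Subgroup.zpowers_le, Subgroup.mem_comap, τE]
      exact mm3 (Subgroup.mem_zpowers _)
    · rw [Subgroup.zpowers_le, Subgroup.mem_comap, τD]
      exact mm4 (Subgroup.mem_zpowers _)
    · rw [Subgroup.zpowers_le, Subgroup.mem_comap, hA]
      exact mm5 (Subgroup.mem_zpowers _)
    · rw [Subgroup.zpowers_le, Subgroup.mem_comap, hC]
      exact mm6 (Subgroup.mem_zpowers _)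
    · rw [Subgroup.zpowers_le, Subgroup.mem_comap, hB]
      exact mm7 (Subgroup.mem_zpowers _)
  have hP₂ : Nat.card P₀ ≤ Nat.card T₆ := by
    let f' : T₆ → P₀ := fun b => ⟨τ b.1, h2 b.2⟩
    refine Nat.card_le_card_of_surjective f' ?_
    rintro ⟨x, hx⟩
    obtain ⟨b, hb, e'⟩ := h1 hx
    exact ⟨⟨b, hb⟩, Subtype.ext e'⟩
  have hPc : Nat.card P₀ = 1024 := by omega
  have hidx : P₀.index = m := by
    have h3 := Subgroup.card_mul_index P₀
    rw [hPc, hQ] at h3
    omega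
  have hodd : ¬ 2 ∣ P₀.index := by
    rw [hidx]
    intro h
    obtain ⟨k, hk'⟩ := hm
    omega
  have := finish hs hcen hzk (hcom (MonoidHom.mem_ker.mpr hzk)) hzo hodd (B := T₆) (by omega)
    (fun x hx => by
      obtain ⟨b, hb, e'⟩ := h1 hx
      exact ⟨b, hb, e'⟩) (fun b hb => h2 hb)
  exact hz1 this

end Cfsg.Agent.H09.DC
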