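import Cfsg.Agent.Lib.H09.DC3

/-! The prime three, when a Sylow subgroup is extraspecial of order twenty-seven with the expected
normaliser. -/

set_option autoImplicit false
set_option linter.unusedSectionVars false
set_option linter.unusedVariables false
set_option linter.style.haveILetI false

namespace Cfsg.Agent.H09.DC

open scoped commutatorElement
open Cfsg.Agent.H19

/-- A computation with a central defect. -/
theorem comm_conj_aux {Δ : Type*} [Group Δ] {X Y G : Δ}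
    (h1 : ∀ g, g * (X⁻¹ * (G * X * G⁻¹)) = (X⁻¹ * (G * X * G⁻¹)) * g)
    (h2 : ∀ g, g * (Y * (G * Y * G⁻¹)) = (Y * (G * Y * G⁻¹)) * g)
    (h3 : ∀ g, g * ⁅⁅X, Y⁆, Y⁻¹⁆ = ⁅⁅X, Y⁆, Y⁻¹⁆ * g)
    (h4 : ∀ g, g * ⁅X, ⁅X, Y⁆⁆ = ⁅X, ⁅X, Y⁆⁆ * g) : ⁅X, ⁅X, Y⁆⁆ * ⁅X, ⁅X, Y⁆⁆ = 1 := by
  set W := ⁅X, Y⁆ with hW
  set κ₁ := X⁻¹ * (G * X * G⁻¹) with hκ₁
  set κ₂ := Y * (G * Y * G⁻¹) with hκ₂
  set c := ⁅W, Y⁻¹⁆ with hc
  have e1 : G * X * G⁻¹ = X * κ₁ := by rw [hκ₁]; group
  have e2 : G * Y * G⁻¹ = Y⁻¹ * κ₂ := by rw [hκ₂]; group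
  have cj : ∀ a b : Δ, G * ⁅a, b⁆ * G⁻¹ = ⁅G * a * G⁻¹, G * b * G⁻¹⁆ := by
    intro a b
    simp only [commutatorElement_def]
    group
  have e3 : G * W * G⁻¹ = W⁻¹ * c := by
    rw [hW, cj, e1, e2, Cfsg.Agent.H19.Hopf.comm_mul_central_left h1, Cfsg.Agent.H19.Hopf.comm_mul_central_right h2, hc, hW]
    simp only [commutatorElement_def]
    group
  have e4 : ⁅X, W⁆ = ⁅X, W⁻¹⁆ := by
    have e5 : G * ⁅X, W⁆ * G⁻¹ = ⁅X, W⁆ := by
      rw [h4 G]
      group
    rw [← e5, cj, e1, e3, Cfsg.Agent.H19.Hopf.comm_mul_central_left h1, Cfsg.Agent.H19.Hopf.comm_mul_central_right h3]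
  calc ⁅X, W⁆ * ⁅X, W⁆ = ⁅X, W⁆ * ⁅X, W⁻¹⁆ := by rw [← e4]
    _ = ⁅X, W⁆ * (X * W⁻¹ * X⁻¹) * W := by simp only [commutatorElement_def]; group
    _ = (X * W⁻¹ * X⁻¹) * ⁅X, W⁆ * W := by rw [h4 (X * W⁻¹ * X⁻¹)]
    _ = 1 := by simp only [commutatorElement_def]; group

/-- Core of the extraspecial case. -/
theorem extra_core {X Q : Type*} [Group X] [Group Q] (τ : X →* Q) (hcen : τ.ker ≤ Subgroup.center X)
    {x y w : Q} {A B : X} (hA : τ A = x) (hB : τ B = y)
    (hgen : Subgroup.closure (({A, B} : Set X) ∪ τ.ker) = ⊤) (hx3 : x ^ 3 = 1) (hw : w = ⁅x, y⁆) (hw1 : w ≠ 1)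
    (hw3 : w ^ 3 = 1) (hAW : A * ⁅A, B⁆ = ⁅A, B⁆ * A) (hBW : B * ⁅A, B⁆ = ⁅A, B⁆ * B) :
    ∀ z ∈ τ.ker, z ∈ commutator X → z = 1 := by
  have hc : ∀ k ∈ τ.ker, ∀ g : X, g * k = k * g := fun k hk g =>
    Subgroup.mem_center_iff.mp (hcen hk) g
  set W := ⁅A, B⁆ with hW
  have hcent : ∀ g : X, g * W = W * g := by
    intro g
    have hg : g ∈ Subgroup.closure (({A, B} : Set X) ∪ τ.ker) := hgen ▸ Subgroup.mem_top g
    induction hg using Subgroup.closure_induction with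
    | mem u hu =>
      rcases hu with (rfl | rfl) | hu
      · exact hAW
      · exact hBW
      · exact (hc u hu W).symm
    | one => simp
    | mul u v _ _ hu hv =>
      rw [mul_assoc, hv, ← mul_assoc, hu, mul_assoc]
    | inv u _ hu =>
      calc u⁻¹ * W = u⁻¹ * (W * u) * u⁻¹ := by group
        _ = u⁻¹ * (u * W) * u⁻¹ := by rw [hu]
        _ = W * u⁻¹ := by group
  haveI hN : (Subgroup.zpowers W).Normal := by
    constructor
    intro n hn g
    obtain ⟨t, rfl⟩ := Subgroup.mem_zpowers_iff.mp hn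
    rw [← conj_zpow]
    have : g * W * g⁻¹ = W := by rw [hcent g]; group
    rw [this]
    exact Subgroup.zpow_mem _ (Subgroup.mem_zpowers W) t
  have hcomm : commutator X ≤ Subgroup.zpowers W := by
    apply commutator_le_of_gens _ hgen
    have hcen1 : ∀ k ∈ τ.ker, ∀ g : X, ⁅k, g⁆ = 1 := by
      intro k hk g
      rw [commutatorElement_eq_one_iff_commute]
      exact (hc k hk g).symm
    have hcen2 : ∀ k ∈ τ.ker, ∀ g : X, ⁅g, k⁆ = 1 := by
      intro k hk g
      rw [commutatorElement_eq_one_iff_commute]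
      exact hc k hk g
    rintro u (hu | hu) v (hv | hv)
    · rcases hu with rfl | rfl <;> rcases hv with rfl | rfl
      · rw [commutatorElement_self]; exact Subgroup.one_mem _
      · exact Subgroup.mem_zpowers _
      · rw [← commutatorElement_inv]; exact Subgroup.inv_mem _ (Subgroup.mem_zpowers _)
      · rw [commutatorElement_self]; exact Subgroup.one_mem _
    · rw [hcen2 v hv]; exact Subgroup.one_mem _
    · rw [hcen1 u hu]; exact Subgroup.one_mem _
    · rw [hcen1 u hu]; exact Subgroup.one_mem _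
  have hτW : τ W = w := by
    rw [hW, map_commutatorElement, hA, hB, hw]
  -- the cube of the generator
  have hA3 : A ^ 3 ∈ τ.ker := by rw [MonoidHom.mem_ker, map_pow, hA, hx3]
  have hpow : ∀ n : ℕ, A ^ n * B * (A ^ n)⁻¹ = W ^ n * B := by
    intro n
    induction n with
    | zero => simp
    | succ n ih =>
      have e : A * B * A⁻¹ = W * B := by rw [hW]; simp only [commutatorElement_def]; group
      calc A ^ (n + 1) * B * (A ^ (n + 1))⁻¹ = A * (A ^ n * B * (A ^ n)⁻¹) * A⁻¹ := by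
            rw [pow_succ']; group
        _ = A * (W ^ n * B) * A⁻¹ := by rw [ih]
        _ = W ^ n * (A * B * A⁻¹) := by
            have : A * W ^ n = W ^ n * A := (Commute.pow_right (show Commute A W from hAW) n).eq
            rw [← mul_assoc A, this]
            group
        _ = W ^ n * (W * B) := by rw [e]
        _ = W ^ (n + 1) * B := by rw [pow_succ, mul_assoc]
  have hW3 : W ^ 3 = 1 := by
    have h1 := hpow 3
    have h2 : A ^ 3 * B * (A ^ 3)⁻¹ = B := by
      rw [← hc _ hA3 B]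
      group
    rw [h2] at h1
    have h3 : W ^ 3 * B = 1 * B := by rw [← h1, one_mul]
    exact mul_right_cancel h3
  intro z hz hzc
  obtain ⟨t, rfl⟩ := Subgroup.mem_zpowers_iff.mp (hcomm hzc)
  have h4 : w ^ t = 1 := by
    have := MonoidHom.mem_ker.mp hz
    rwa [map_zpow, hτW] at this
  have hord : orderOf w = 3 := orderOf_eq_prime hw3 hw1
  have h5 := orderOf_dvd_iff_zpow_eq_one.mpr h4
  rw [hord] at h5
  obtain ⟨s, hs⟩ := h5
  rw [hs, zpow_mul]
  have : W ^ ((3 : ℕ) : ℤ) = 1 := by rw [zpow_natCast]; exact hW3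
  rw [this, one_zpow]

/-- The preimage of an extraspecial subgroup with the expected normaliser. -/
theorem three_part_ext {Δ Q : Type*} [Group Δ] [Finite Δ] [Group Q] (τ : Δ →* Q)
    (hτ : Cfsg.IsStemExtension τ) (hc : Nat.card τ.ker = 3)
    {x y w g₁ g₂ : Q} (hx : x ^ 3 = 1) (hw : w = ⁅x, y⁆) (hw1 : w ≠ 1) (hw3 : w ^ 3 = 1)
    (hxw : x * w = w * x) (hyw : y * w = w * y)
    (h1x : g₁ * x * g₁⁻¹ = x) (h1y : g₁ * y * g₁⁻¹ = y⁻¹)
    (h2x : g₂ * x * g₂⁻¹ = x⁻¹) (h2y : g₂ * y * g₂⁻¹ = y)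
    (hi : ¬ 3 ∣ (Subgroup.closure ({x, y} : Set Q)).index) {z : Δ} (hzk : τ z = 1) (hzo : orderOf z = 3) :
    False := by
  obtain ⟨hs, hcen, hcom⟩ := hτ
  have hcc : ∀ k, τ k = 1 → ∀ g, g * k = k * g := fun k hk g =>
    Subgroup.mem_center_iff.mp (hcen (MonoidHom.mem_ker.mpr hk)) g
  obtain ⟨X, hX⟩ := hs x
  obtain ⟨Y, hY⟩ := hs y
  obtain ⟨G₁, hG₁⟩ := hs g₁
  obtain ⟨G₂, hG₂⟩ := hs g₂
  have hk3 : ∀ k, τ k = 1 → k ^ 3 = 1 := by
    intro k hk
    have h1 : (⟨k, hk⟩ : τ.ker) ^ Nat.card τ.ker = 1 := pow_card_eq_one'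
    rw [hc] at h1
    exact congrArg Subtype.val h1
  have hk1 : ∀ k, τ k = 1 → k * k = 1 → k = 1 := by
    intro k hk h
    have h3 := hk3 k hk
    rw [pow_succ, pow_two, h, one_mul] at h3
    exact h3
  have τW : τ ⁅X, Y⁆ = w := by rw [map_commutatorElement, hX, hY, hw]
  have comm1 : ∀ {a b : Q}, a * b = b * a → ⁅a, b⁆ = 1 := fun h =>
    commutatorElement_eq_one_iff_mul_comm.mpr h
  -- first commutator
  have hXW : X * ⁅X, Y⁆ = ⁅X, Y⁆ * X := by
    have t4 : τ ⁅X, ⁅X, Y⁆⁆ = 1 := by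
      rw [map_commutatorElement, hX, τW]
      exact comm1 hxw
    have := comm_conj_aux (X := X) (Y := Y) (G := G₁)
      (hcc _ (by rw [map_mul, map_inv, map_mul, map_mul, map_inv, hX, hG₁, h1x]; group))
      (hcc _ (by rw [map_mul, map_mul, map_mul, map_inv, hY, hG₁, h1y]; group))
      (hcc _ (by rw [map_commutatorElement, τW, map_inv, hY]; exact comm1 (by
        have : y⁻¹ * w = w * y⁻¹ := by
          calc y⁻¹ * w = y⁻¹ * (w * y) * y⁻¹ := by group
            _ = y⁻¹ * (y * w) * y⁻¹ := by rw [hyw]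
            _ = w * y⁻¹ := by group
        exact this.symm)))
      (hcc _ t4)
    exact commutatorElement_eq_one_iff_mul_comm.mp (hk1 _ t4 this)
  -- second commutator
  have hYW : Y * ⁅X, Y⁆ = ⁅X, Y⁆ * Y := by
    have e : ⁅Y, X⁆ = ⁅X, Y⁆⁻¹ := by rw [commutatorElement_inv]
    have τW' : τ ⁅Y, X⁆ = w⁻¹ := by rw [e, map_inv, τW]
    have yw' : y * w⁻¹ = w⁻¹ * y := by
      calc y * w⁻¹ = w⁻¹ * (w * y) * w⁻¹ := by group
        _ = w⁻¹ * (y * w) * w⁻¹ := by rw [hyw]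
        _ = w⁻¹ * y := by group
    have t4 : τ ⁅Y, ⁅Y, X⁆⁆ = 1 := by
      rw [map_commutatorElement, hY, τW']
      exact comm1 yw'
    have := comm_conj_aux (X := Y) (Y := X) (G := G₂)
      (hcc _ (by rw [map_mul, map_inv, map_mul, map_mul, map_inv, hY, hG₂, h2y]; group))
      (hcc _ (by rw [map_mul, map_mul, map_mul, map_inv, hX, hG₂, h2x]; group))
      (hcc _ (by rw [map_commutatorElement, τW', map_inv, hX]; exact comm1 (by
        have : x⁻¹ * w⁻¹ = w⁻¹ * x⁻¹ := by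
          calc x⁻¹ * w⁻¹ = (w * x)⁻¹ := by group
            _ = (x * w)⁻¹ := by rw [hxw]
            _ = w⁻¹ * x⁻¹ := by group
        exact this.symm)))
      (hcc _ t4)
    have h5 := commutatorElement_eq_one_iff_mul_comm.mp (hk1 _ t4 this)
    rw [e] at h5
    calc Y * ⁅X, Y⁆ = ⁅X, Y⁆ * (⁅X, Y⁆⁻¹ * Y) * ⁅X, Y⁆ := by group
      _ = ⁅X, Y⁆ * (Y * ⁅X, Y⁆⁻¹) * ⁅X, Y⁆ := by rw [h5]
      _ = ⁅X, Y⁆ * Y := by group
  have hXm : X ∈ (Subgroup.closure ({x, y} : Set Q)).comap τ := by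
    rw [Subgroup.mem_comap, hX]
    exact Subgroup.subset_closure (by simp)
  have hYm : Y ∈ (Subgroup.closure ({x, y} : Set Q)).comap τ := by
    rw [Subgroup.mem_comap, hY]
    exact Subgroup.subset_closure (by simp)
  have hgen := Cfsg.Agent.H09.closure_comap_gens τ hX hY hXm hYm
  have h1 := Cfsg.Agent.H09.eq_one_of_preimage τ hs hcen (Subgroup.closure ({x, y} : Set Q)) Nat.prime_three hi
    (MonoidHom.mem_ker.mpr hzk) (hcom (MonoidHom.mem_ker.mpr hzk)) hzo (by
      intro u hu hu1 hu2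
      have := extra_core (τ.comp ((Subgroup.closure ({x, y} : Set Q)).comap τ).subtype)
        (Cfsg.Agent.H09.ker_comp_subtype_le_center τ hcen _) (x := x) (y := y) (w := w)
        (A := ⟨X, hXm⟩) (B := ⟨Y, hYm⟩) hX hY hgen hx hw hw1 hw3 (Subtype.ext hXW) (Subtype.ext hYW)
        ⟨u, hu⟩ hu1 hu2
      exact congrArg Subtype.val this)
  rw [h1, orderOf_one] at hzo
  omega

/-- One step of prime index. -/
theorem card_sup_prime {Q : Type*} [Group Q] [Finite Q] {A : Subgroup Q} {x : Q} {p : ℕ} (hp : p.Prime)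
    (hxp : x ^ p = 1) (hn : ∀ a ∈ A, x * a * x⁻¹ ∈ A) (hx : x ∉ A) :
    Nat.card ↥(A ⊔ Subgroup.zpowers x) = p * Nat.card A := by
  classical
  have hx1 : x ≠ 1 := fun h => hx (h ▸ A.one_mem)
  haveI := Fact.mk hp
  have hord : orderOf x = p := orderOf_eq_prime hxp hx1
  have hconj : ∀ i : ℕ, ∀ a ∈ A, x ^ i * a * (x ^ i)⁻¹ ∈ A := by
    intro i
    induction i with
    | zero => intro a ha; simpa using ha
    | succ i ih =>
      intro a ha
      have e : x ^ (i + 1) * a * (x ^ (i + 1))⁻¹ = x ^ i * (x * a * x⁻¹) * (x ^ i)⁻¹ := by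
        rw [pow_succ]
        group
      rw [e]
      exact ih _ (hn a ha)
  have hpp : 0 < p := hp.pos
  have hinvp : ∀ i : ℕ, (x ^ i)⁻¹ = x ^ (i * (p - 1)) := by
    intro i
    rw [inv_eq_iff_mul_eq_one, ← pow_add]
    have : i + i * (p - 1) = p * i := by
      obtain ⟨q, rfl⟩ : ∃ q, p = q + 1 := ⟨p - 1, by omega⟩
      simp only [Nat.add_sub_cancel]
      ring
    rw [this, pow_mul, hxp, one_pow]
  let S : Subgroup Q :=
    { carrier := {y | ∃ a ∈ A, ∃ i : ℕ, y = a * x ^ i}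
      one_mem' := ⟨1, A.one_mem, 0, by simp⟩
      mul_mem' := by
        rintro _ _ ⟨a, ha, i, rfl⟩ ⟨b, hb, j, rfl⟩
        refine ⟨a * (x ^ i * b * (x ^ i)⁻¹), A.mul_mem ha (hconj i b hb), i + j, ?_⟩
        rw [pow_add]
        group
      inv_mem' := by
        rintro _ ⟨a, ha, i, rfl⟩
        refine ⟨x ^ (i * (p - 1)) * a⁻¹ * (x ^ (i * (p - 1)))⁻¹, hconj _ _ (A.inv_mem ha), i * (p - 1), ?_⟩
        rw [mul_inv_rev, hinvp]
        group }
  have hle : A ⊔ Subgroup.zpowers x ≤ S := by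
    refine sup_le (fun a ha => ⟨a, ha, 0, by simp⟩) ?_
    rw [Subgroup.zpowers_le]
    exact ⟨1, A.one_mem, 1, by simp⟩
  have hnot : ∀ i : ℕ, 0 < i → i < p → x ^ i ∉ A := by
    intro i h0 hi hm
    have hc : i.Coprime (orderOf x) := by
      rw [hord]
      exact ((Nat.Prime.coprime_iff_not_dvd hp).2 (Nat.not_dvd_of_pos_of_lt h0 hi)).symm
    obtain ⟨m, hm'⟩ := exists_pow_eq_self_of_coprime hc
    apply hx
    rw [← hm']
    exact A.pow_mem hm m
  haveI : NeZero p := ⟨hp.ne_zero⟩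
  let f : ↥A × Fin p → ↥(A ⊔ Subgroup.zpowers x) := fun q =>
    ⟨(q.1 : Q) * x ^ (q.2 : ℕ), Subgroup.mul_mem _ ((le_sup_left : A ≤ _) q.1.2)
      ((le_sup_right : Subgroup.zpowers x ≤ _) (Subgroup.pow_mem _ (Subgroup.mem_zpowers x) _))⟩
  have hf : Function.Bijective f := by
    constructor
    · have key : ∀ (a b : ↥A) (i j : Fin p), (i : ℕ) ≤ j → (a : Q) * x ^ (i : ℕ) = (b : Q) * x ^ (j : ℕ) → a = b ∧ i = j := by
        intro a b i j hij e
        have hj : x ^ ((j : ℕ) - i) ∈ A := by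
          have e1 : x ^ ((j : ℕ) - i) = (b : Q)⁻¹ * a := by
            have e2 : x ^ (j : ℕ) = x ^ (i : ℕ) * x ^ ((j : ℕ) - i) := by
              rw [← pow_add]
              congr 1
              omega
            rw [e2] at e
            have comm : x ^ (i : ℕ) * x ^ ((j : ℕ) - i) = x ^ ((j : ℕ) - i) * x ^ (i : ℕ) :=
              (Commute.pow_pow (Commute.refl x) _ _).eq
            rw [comm, ← mul_assoc] at e
            have e3 := mul_right_cancel e
            rw [e3]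
            group
          rw [e1]
          exact A.mul_mem (A.inv_mem b.2) a.2
        have hij' : (i : ℕ) = j := by
          by_contra hne
          exact hnot _ (by omega) (by have := j.2; omega) hj
        have hij2 : i = j := Fin.ext hij'
        subst hij2
        exact ⟨Subtype.ext (mul_right_cancel e), rfl⟩
      rintro ⟨a, i⟩ ⟨b, j⟩ e
      have e1 : (a : Q) * x ^ (i : ℕ) = (b : Q) * x ^ (j : ℕ) := congrArg Subtype.val e
      rcases le_total (i : ℕ) j with h | h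
      · obtain ⟨h1, h2⟩ := key a b i j h e1
        rw [h1, h2]
      · obtain ⟨h1, h2⟩ := key b a j i h e1.symm
        rw [h1, h2]
    · rintro ⟨y, hy⟩
      obtain ⟨a, ha, i, e⟩ := hle hy
      refine ⟨(⟨a, ha⟩, ⟨i % p, Nat.mod_lt _ hpp⟩), Subtype.ext ?_⟩
      show a * x ^ (i % p) = y
      rw [e, ← hord, pow_mod_orderOf]
  rw [← Nat.card_congr (Equiv.ofBijective f hf), Nat.card_prod, Nat.card_fin, mul_comm]

/-- The order of an extraspecial subgroup from non-memberships. -/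
theorem card_extra {Q : Type*} [Group Q] [Finite Q] {x y w : Q} (hx3 : x ^ 3 = 1) (hy3 : y ^ 3 = 1) (hw3 : w ^ 3 = 1)
    (hw1 : w ≠ 1) (hw : w = ⁅x, y⁆) (hxw : x * w = w * x) (hyw : y * w = w * y)
    (hnx : x ∉ Subgroup.zpowers w) (hny : y ∉ Subgroup.zpowers w ⊔ Subgroup.zpowers x) :
    Nat.card (Subgroup.closure ({x, y} : Set Q)) = 27 := by
  have h0 : Nat.card (Subgroup.zpowers w) = 3 := by
    rw [Nat.card_zpowers]
    haveI : Fact (Nat.Prime 3) := ⟨Nat.prime_three⟩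
    exact orderOf_eq_prime hw3 hw1
  have hnw : ∀ z : Q, z * w = w * z → ∀ a ∈ Subgroup.zpowers w, z * a * z⁻¹ ∈ Subgroup.zpowers w := by
    intro z hz a ha
    obtain ⟨t, rfl⟩ := Subgroup.mem_zpowers_iff.mp ha
    rw [← conj_zpow, hz]
    have : w * z * z⁻¹ = w := by group
    rw [this]
    exact Subgroup.zpow_mem _ (Subgroup.mem_zpowers w) t
  have h1 := card_sup_prime (A := Subgroup.zpowers w) (x := x) Nat.prime_three hx3 (hnw x hxw) hnx
  have hw' : y * x * y⁻¹ = w⁻¹ * x := by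
    rw [hw]
    simp only [commutatorElement_def]
    group
  have hn2 : ∀ a ∈ Subgroup.zpowers w ⊔ Subgroup.zpowers x, y * a * y⁻¹ ∈ Subgroup.zpowers w ⊔ Subgroup.zpowers x := by
    have hc : Subgroup.zpowers w ⊔ Subgroup.zpowers x ≤
        (Subgroup.zpowers w ⊔ Subgroup.zpowers x).comap (MulAut.conj y).toMonoidHom := by
      refine sup_le ?_ ?_
      · rw [Subgroup.zpowers_le, Subgroup.mem_comap]
        show y * w * y⁻¹ ∈ _
        rw [hyw]
        have : w * y * y⁻¹ = w := by group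
        rw [this]
        exact (le_sup_left : Subgroup.zpowers w ≤ _) (Subgroup.mem_zpowers w)
      · rw [Subgroup.zpowers_le, Subgroup.mem_comap]
        show y * x * y⁻¹ ∈ _
        rw [hw']
        exact Subgroup.mul_mem _ ((le_sup_left : Subgroup.zpowers w ≤ _) (Subgroup.inv_mem _ (Subgroup.mem_zpowers w)))
          ((le_sup_right : Subgroup.zpowers x ≤ _) (Subgroup.mem_zpowers x))
    intro a ha
    exact hc ha
  have h2 := card_sup_prime (x := y) Nat.prime_three hy3 hn2 hny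
  have e : Subgroup.closure ({x, y} : Set Q) = Subgroup.zpowers w ⊔ Subgroup.zpowers x ⊔ Subgroup.zpowers y := by
    apply le_antisymm
    · rw [Subgroup.closure_le]
      intro u hu
      rcases hu with hu | hu
      · rw [hu]
        exact (le_sup_left : Subgroup.zpowers w ⊔ Subgroup.zpowers x ≤ Subgroup.zpowers w ⊔ Subgroup.zpowers x ⊔ Subgroup.zpowers y)
          ((le_sup_right : Subgroup.zpowers x ≤ Subgroup.zpowers w ⊔ Subgroup.zpowers x) (Subgroup.mem_zpowers x))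
      · rw [Set.mem_singleton_iff] at hu
        rw [hu]
        exact (le_sup_right : Subgroup.zpowers y ≤ Subgroup.zpowers w ⊔ Subgroup.zpowers x ⊔ Subgroup.zpowers y) (Subgroup.mem_zpowers y)
    · have hx : x ∈ Subgroup.closure ({x, y} : Set Q) := Subgroup.subset_closure (by simp)
      have hy : y ∈ Subgroup.closure ({x, y} : Set Q) := Subgroup.subset_closure (by simp)
      refine sup_le (sup_le ?_ ?_) ?_
      · rw [Subgroup.zpowers_le]
        rw [hw, commutatorElement_def]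
        exact Subgroup.mul_mem _ (Subgroup.mul_mem _ (Subgroup.mul_mem _ hx hy) (Subgroup.inv_mem _ hx)) (Subgroup.inv_mem _ hy)
      · rwa [Subgroup.zpowers_le]
      · rwa [Subgroup.zpowers_le]
  rw [e, h2, h1, h0]

end Cfsg.Agent.H09.DC
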