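import Cfsg.Agent.Lib.H09.DC4
import Cfsg.Agent.Lib.H09.DC5

/-! Kernels of order at most two: a Sylow subgroup of order sixty-four containing an extraspecial subgroup of
order thirty-two, and reduction to kernels of odd prime order or of order four. -/

set_option autoImplicit false
set_option linter.unusedSectionVars false
set_option linter.unusedVariables false
set_option linter.style.haveILetI false

namespace Cfsg.Agent.H09.DC

open scoped commutatorElement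
open Cfsg.Agent.H19

universe u

section quot

variable {Δ Q : Type*} [Group Δ] [Group Q]

/-- The stem extension obtained by dividing by a subgroup of the kernel. -/
theorem stem_quot (τ : Δ →* Q) (hτ : Cfsg.IsStemExtension τ) (L : Subgroup Δ) [L.Normal] (hL : L ≤ τ.ker) :
    Cfsg.IsStemExtension (QuotientGroup.lift L τ (fun k hk => hL hk)) := by
  have hker : ∀ g, (QuotientGroup.mk g : Δ ⧸ L) ∈ (QuotientGroup.lift L τ (fun k hk => hL hk)).ker ↔ g ∈ τ.ker := by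
    intro g
    rw [MonoidHom.mem_ker, MonoidHom.mem_ker]
    rfl
  refine ⟨?_, ?_, ?_⟩
  · intro q
    obtain ⟨g, hg⟩ := hτ.1 q
    exact ⟨QuotientGroup.mk g, hg⟩
  · intro u hu
    obtain ⟨g, rfl⟩ := QuotientGroup.mk_surjective u
    rw [hker] at hu
    rw [Subgroup.mem_center_iff]
    intro v
    obtain ⟨h, rfl⟩ := QuotientGroup.mk_surjective v
    have := Subgroup.mem_center_iff.mp (hτ.2.1 hu) h
    rw [← QuotientGroup.mk_mul, ← QuotientGroup.mk_mul, this]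
  · intro u hu
    obtain ⟨g, rfl⟩ := QuotientGroup.mk_surjective u
    rw [hker] at hu
    have h2 : (commutator Δ).map (QuotientGroup.mk' L) ≤ commutator (Δ ⧸ L) := by
      rw [commutator_def, commutator_def, Subgroup.map_commutator]
      exact Subgroup.commutator_mono le_top le_top
    exact h2 ⟨g, hτ.2.2 hu, rfl⟩

/-- The order of the kernel of the quotient extension. -/
theorem card_ker_quot [Finite Δ] (τ : Δ →* Q) (L : Subgroup Δ) [L.Normal] (hL : L ≤ τ.ker) :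
    Nat.card (QuotientGroup.lift L τ (fun k hk => hL hk)).ker * Nat.card L = Nat.card τ.ker := by
  set τ₁ := QuotientGroup.lift L τ (fun k hk => hL hk) with hτ₁
  let φ : τ.ker →* τ₁.ker :=
    { toFun := fun k => ⟨QuotientGroup.mk k.1, by
        rw [MonoidHom.mem_ker]
        exact k.2⟩
      map_one' := rfl
      map_mul' := fun a b => rfl }
  have hs : Function.Surjective φ := by
    rintro ⟨u, hu⟩
    obtain ⟨g, rfl⟩ := QuotientGroup.mk_surjective u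
    exact ⟨⟨g, hu⟩, rfl⟩
  have h1 : Nat.card φ.ker = Nat.card L := by
    refine Nat.card_congr ⟨fun k => ⟨k.1.1, ?_⟩, fun l => ⟨⟨l.1, hL l.2⟩, ?_⟩, fun k => rfl, fun l => rfl⟩
    · have h2 : φ k.1 = 1 := k.2
      have h3 : (QuotientGroup.mk k.1.1 : Δ ⧸ L) = 1 := congrArg Subtype.val h2
      exact (QuotientGroup.eq_one_iff _).1 h3
    · rw [MonoidHom.mem_ker]
      apply Subtype.ext
      exact (QuotientGroup.eq_one_iff _).2 l.2
  have h2 : φ.ker.index = Nat.card τ₁.ker := by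
    rw [Subgroup.index_ker, MonoidHom.range_eq_top.2 hs]
    exact Nat.card_congr (Subgroup.topEquiv).toEquiv
  have h3 := Subgroup.card_mul_index φ.ker
  rw [h1, h2] at h3
  rw [mul_comm]
  exact h3

/-- The subgroup generated by a central element is normal. -/
theorem zpowers_normal_of_ker (τ : Δ →* Q) (hcen : τ.ker ≤ Subgroup.center Δ) {x : Δ} (hx : x ∈ τ.ker) :
    (Subgroup.zpowers x).Normal := by
  constructor
  intro k hk g
  have hk' : k ∈ τ.ker := (Subgroup.zpowers_le.2 hx) hk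
  have := Subgroup.mem_center_iff.mp (hcen hk') g
  rw [this]
  simpa using hk

end quot

/-- Descent to a kernel of odd prime order or of order four. -/
theorem exists_small_stem {Q : Type u} [Group Q] : ∀ (n : ℕ) (Δ : Type u) [Group Δ] [Finite Δ] (τ : Δ →* Q),
    Cfsg.IsStemExtension τ → 2 < Nat.card τ.ker → Nat.card τ.ker ≤ n →
    ∃ (Δ₀ : Type u) (_ : Group Δ₀) (_ : Finite Δ₀) (τ₀ : Δ₀ →* Q), Cfsg.IsStemExtension τ₀ ∧
      (Nat.card τ₀.ker = 4 ∨ ((Nat.card τ₀.ker).Prime ∧ Nat.card τ₀.ker ≠ 2)) := by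
  intro n
  induction n with
  | zero =>
    intro Δ _ _ τ _ h1 h2
    omega
  | succ n ih =>
    intro Δ _ _ τ hτ h2 hn
    set c := Nat.card τ.ker with hc
    by_cases h4 : c = 4
    · exact ⟨Δ, inferInstance, inferInstance, τ, hτ, Or.inl h4⟩
    by_cases hp : c.Prime
    · exact ⟨Δ, inferInstance, inferInstance, τ, hτ, Or.inr ⟨hp, by omega⟩⟩
    -- a prime factor with a large cofactor
    have hex : ∃ p, p.Prime ∧ p ∣ c ∧ 2 < c / p := by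
      by_cases he : 2 ∣ c
      · refine ⟨2, Nat.prime_two, he, ?_⟩
        obtain ⟨k, hk⟩ := he
        have : k ≠ 2 := by
          rintro rfl
          omega
        have hk1 : k ≠ 1 := by
          rintro rfl
          omega
        have hk0 : k ≠ 0 := by
          rintro rfl
          omega
        rw [hk, Nat.mul_div_cancel_left _ (by norm_num)]
        omega
      · refine ⟨c.minFac, Nat.minFac_prime (by omega), Nat.minFac_dvd c, ?_⟩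
        have hm := Nat.minFac_sq_le_self (by omega) hp
        have hfp := Nat.minFac_prime (show c ≠ 1 by omega)
        have hm3 : 3 ≤ c.minFac := by
          have h21 := hfp.two_le
          by_contra hlt
          have : c.minFac = 2 := by omega
          rw [← this] at he
          exact he (Nat.minFac_dvd c)
        have h5 : c.minFac ≤ c / c.minFac := by
          rw [Nat.le_div_iff_mul_le hfp.pos]
          rw [pow_two] at hm
          exact hm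
        omega
    obtain ⟨p, hpp, hpd, hbig⟩ := hex
    haveI := Fact.mk hpp
    obtain ⟨x, hx⟩ := exists_prime_orderOf_dvd_card' (G := τ.ker) p hpd
    have hx' : orderOf (x : Δ) = p := by rwa [Subgroup.orderOf_coe]
    haveI hN := zpowers_normal_of_ker τ hτ.2.1 x.2
    have hle : Subgroup.zpowers (x : Δ) ≤ τ.ker := Subgroup.zpowers_le.2 x.2
    have hst := stem_quot τ hτ (Subgroup.zpowers (x : Δ)) hle
    have hcd := card_ker_quot τ (Subgroup.zpowers (x : Δ)) hle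
    rw [Nat.card_zpowers, hx'] at hcd
    have hq : Nat.card (QuotientGroup.lift (Subgroup.zpowers (x : Δ)) τ (fun k hk => hle hk)).ker = c / p := by
      rw [← hc] at hcd
      rw [← hcd, Nat.mul_div_cancel _ hpp.pos]
    refine ih _ _ hst ?_ ?_
    · rw [hq]
      exact hbig
    · rw [hq]
      have : c / p < c := Nat.div_lt_self (by omega) hpp.one_lt
      omega

/-- The final shape of an upper bound. -/
theorem card_ker_le_two {Q : Type u} [Group Q]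
    (hodd : ∀ (Δ : Type u) [Group Δ] [Finite Δ] (τ : Δ →* Q), Cfsg.IsStemExtension τ → ∀ r : ℕ, r.Prime → r ≠ 2 →
      Nat.card τ.ker = r → False)
    (h4 : ∀ (Δ : Type u) [Group Δ] [Finite Δ] (τ : Δ →* Q), Cfsg.IsStemExtension τ → Nat.card τ.ker = 4 → False)
    {Γ : Type u} [Group Γ] [Finite Γ] (σ : Γ →* Q) (hσ : Cfsg.IsStemExtension σ) :
    ∃ π : Multiplicative (ZMod 2) →* σ.ker, Function.Surjective π := by
  by_cases h : 2 < Nat.card σ.ker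
  · exfalso
    obtain ⟨Δ₀, _, _, τ₀, hs, h1⟩ := exists_small_stem _ Γ σ hσ h le_rfl
    rcases h1 with h1 | ⟨h1, h2⟩
    · exact h4 Δ₀ τ₀ hs h1
    · exact hodd Δ₀ τ₀ hs _ h1 h2 rfl
  · have hpos := Nat.card_pos (α := σ.ker)
    have h12 : Nat.card σ.ker = 1 ∨ Nat.card σ.ker = 2 := by omega
    rcases h12 with h1 | h2
    · haveI := (Nat.card_eq_one_iff_unique.mp h1).1
      refine ⟨1, fun y => ⟨1, ?_⟩⟩
      exact Subsingleton.elim _ _
    · have h3 : Nat.card (Multiplicative (ZMod 2)) = 2 := by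
        simp [Nat.card_eq_fintype_card]
      haveI : Fact (Nat.Prime 2) := ⟨Nat.prime_two⟩
      let e2 := mulEquivOfPrimeCardEq h3 h2
      exact ⟨e2.toMonoidHom, e2.surjective⟩

/-- A double cover analysis forbids kernels of order four when a Klein subgroup has all its involutions in the
relevant class. -/
theorem no_four {Q : Type u} [Group Q] {e x y : Q} (he : e ^ 2 = 1) (hxy : x * y = y * x) (cx : IsConj e x)
    (cy : IsConj e y) (cxy : IsConj e (x * y))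
    (hD : ∀ (Δ : Type u) [Group Δ] [Finite Δ] (τ : Δ →* Q), Cfsg.IsStemExtension τ → Nat.card τ.ker = 2 → ¬ I1 τ e)
    {Δ : Type u} [Group Δ] [Finite Δ] (τ : Δ →* Q) (hτ : Cfsg.IsStemExtension τ) (hc : Nat.card τ.ker = 4) : False := by
  obtain ⟨X, hX⟩ := hτ.1 x
  obtain ⟨Y, hY⟩ := hτ.1 y
  have hcc : ∀ k, τ k = 1 → ∀ g, g * k = k * g := fun k hk g =>
    Subgroup.mem_center_iff.mp (hτ.2.1 (MonoidHom.mem_ker.mpr hk)) g
  set c := ⁅Y, X⁆ with hcdef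
  have τc : τ c = 1 := by
    rw [hcdef, map_commutatorElement, hX, hY, commutatorElement_eq_one_iff_mul_comm]
    exact hxy.symm
  have hy2 : y ^ 2 = 1 := by
    obtain ⟨k, hk⟩ := isConj_iff.1 cy
    rw [← hk, conj_pow, he]
    group
  have τY2 : τ (Y ^ 2) = 1 := by rw [map_pow, hY, hy2]
  have hc2 : c ^ 2 = 1 := by
    have e1 : Y * X * Y⁻¹ = c * X := by
      rw [hcdef]
      simp only [commutatorElement_def]
      group
    have e2 : Y ^ 2 * X * (Y ^ 2)⁻¹ = c ^ 2 * X := by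
      calc Y ^ 2 * X * (Y ^ 2)⁻¹ = Y * (Y * X * Y⁻¹) * Y⁻¹ := by rw [pow_two]; group
        _ = Y * (c * X) * Y⁻¹ := by rw [e1]
        _ = (Y * c) * (X * Y⁻¹) := by group
        _ = (c * Y) * (X * Y⁻¹) := by rw [hcc c τc Y]
        _ = c * (Y * X * Y⁻¹) := by group
        _ = c * (c * X) := by rw [e1]
        _ = c ^ 2 * X := by rw [pow_two]; group
    have e3 : Y ^ 2 * X * (Y ^ 2)⁻¹ = X := by
      rw [← hcc _ τY2 X]
      group
    rw [e3] at e2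
    have e4 : 1 * X = c ^ 2 * X := by rw [one_mul]; exact e2
    exact (mul_right_cancel e4).symm
  -- the subgroup to divide by
  obtain ⟨w, hwk, hwo, hcw⟩ : ∃ w : Δ, τ w = 1 ∧ orderOf w = 2 ∧ c ∈ Subgroup.zpowers w := by
    by_cases hc1 : c = 1
    · haveI : Fact (Nat.Prime 2) := ⟨Nat.prime_two⟩
      obtain ⟨u, hu⟩ := exists_prime_orderOf_dvd_card' (G := τ.ker) 2 (by rw [hc]; norm_num)
      refine ⟨u, u.2, by rwa [Subgroup.orderOf_coe], ?_⟩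
      rw [hc1]
      exact Subgroup.one_mem _
    · haveI : Fact (Nat.Prime 2) := ⟨Nat.prime_two⟩
      exact ⟨c, τc, orderOf_eq_prime hc2 hc1, Subgroup.mem_zpowers c⟩
  have hwker : w ∈ τ.ker := MonoidHom.mem_ker.mpr hwk
  haveI hN := zpowers_normal_of_ker τ hτ.2.1 hwker
  have hle : Subgroup.zpowers w ≤ τ.ker := Subgroup.zpowers_le.2 hwker
  have hst := stem_quot τ hτ (Subgroup.zpowers w) hle
  have hcd := card_ker_quot τ (Subgroup.zpowers w) hle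
  rw [Nat.card_zpowers, hwo, hc] at hcd
  set τ₁ := QuotientGroup.lift (Subgroup.zpowers w) τ (fun k hk => hle hk) with hτ₁
  have hq : Nat.card τ₁.ker = 2 := by omega
  have hnI := hD _ τ₁ hst hq
  obtain ⟨z, hzk, hz1, hz2, hzo, hK⟩ := Cfsg.Agent.H09.ker_two τ₁ hq
  have hJ : J1 τ₁ z e := (I1_or hst.1 hst.2.1 hz2 hK he).resolve_left hnI
  have jx := J1_conj hst.1 hst.2.1 hzk hJ cx
  have jy := J1_conj hst.1 hst.2.1 hzk hJ cy
  have jxy := J1_conj hst.1 hst.2.1 hzk hJ cxy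
  have ax : (QuotientGroup.mk X : Δ ⧸ Subgroup.zpowers w) ^ 2 = z := jx _ hX
  have ay : (QuotientGroup.mk Y : Δ ⧸ Subgroup.zpowers w) ^ 2 = z := jy _ hY
  have axy : (QuotientGroup.mk (X * Y) : Δ ⧸ Subgroup.zpowers w) ^ 2 = z := jxy _ (by
    show τ (X * Y) = _
    rw [map_mul, hX, hY])
  have hcen : ⁅Y, X⁆ ∈ Subgroup.center Δ := hτ.2.1 (MonoidHom.mem_ker.mpr τc)
  have hsq := sq_mul_of_central hcen
  have h5 : (QuotientGroup.mk (X * Y) : Δ ⧸ Subgroup.zpowers w) ^ 2 =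
      (QuotientGroup.mk c : Δ ⧸ Subgroup.zpowers w) * ((QuotientGroup.mk X) ^ 2 * (QuotientGroup.mk Y) ^ 2) := by
    rw [← QuotientGroup.mk_pow, ← QuotientGroup.mk_pow, ← QuotientGroup.mk_pow, ← QuotientGroup.mk_mul,
      ← QuotientGroup.mk_mul, hsq]
  have h6 : (QuotientGroup.mk c : Δ ⧸ Subgroup.zpowers w) = 1 := (QuotientGroup.eq_one_iff c).2 hcw
  rw [axy, ax, ay, h6, one_mul, ← pow_two, hz2] at h5
  exact hz1 h5

/-- The double cover case with an extraspecial subgroup. -/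
theorem two_part_E32 {Δ Q : Type*} [Group Δ] [Finite Δ] [Group Q] [Finite Q] (τ : Δ →* Q)
    (hτ : Cfsg.IsStemExtension τ) (hc : Nat.card τ.ker = 2) {q₁ q₃ g q₂ q₄ : Q}
    (e₂ : q₂ = g * q₁ * g⁻¹) (e₄ : q₄ = g * q₃ * g⁻¹)
    (hq1 : I1 τ q₁) (hq3 : I1 τ q₃) (hg : I1 τ g) (hz : I1 τ ((q₁ * q₂) ^ 2))
    (h13 : I1 τ (q₁ * q₃)) (h14 : I1 τ (q₁ * q₄)) (h23 : I1 τ (q₂ * q₃)) (h24 : I1 τ (q₂ * q₄))
    (h1234 : I1 τ (q₁ * q₂ * (q₃ * q₄))) {m : ℕ} (hQ : Nat.card Q = 64 * m) (hm : Odd m)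
    (hP : 64 ≤ Nat.card ↥(Subgroup.zpowers ((q₁ * q₂) ^ 2) ⊔ Subgroup.zpowers q₁ ⊔ Subgroup.zpowers q₂ ⊔
      Subgroup.zpowers q₃ ⊔ Subgroup.zpowers q₄ ⊔ Subgroup.zpowers g)) : False := by
  obtain ⟨hs, hcen, hcom⟩ := hτ
  obtain ⟨z, hzk, hz1, hz2, hzo, hK⟩ := Cfsg.Agent.H09.ker_two τ hc
  obtain ⟨Q₁, hQ₁⟩ := hs q₁
  obtain ⟨Q₃, hQ₃⟩ := hs q₃
  obtain ⟨G, hG⟩ := hs g
  set Q₂ := G * Q₁ * G⁻¹ with hQ₂def
  set Q₄ := G * Q₃ * G⁻¹ with hQ₄def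
  have hQ₂ : τ Q₂ = q₂ := by rw [hQ₂def, map_mul, map_mul, map_inv, hG, hQ₁, e₂]
  have hQ₄ : τ Q₄ = q₄ := by rw [hQ₄def, map_mul, map_mul, map_inv, hG, hQ₃, e₄]
  have a1 : Q₁ ^ 2 = 1 := hq1 _ hQ₁
  have a3 : Q₃ ^ 2 = 1 := hq3 _ hQ₃
  have ag : G ^ 2 = 1 := hg _ hG
  have a2 : Q₂ ^ 2 = 1 := by
    rw [hQ₂def, conj_pow, a1]
    group
  have a4 : Q₄ ^ 2 = 1 := by
    rw [hQ₄def, conj_pow, a3]
    group
  have mp : ∀ {a b : Δ} {u v : Q}, τ a = u → τ b = v → τ (a * b) = u * v := by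
    intro a b u v h1 h2
    rw [← h1, ← h2, ← map_mul]
  have c13 : Q₁ * Q₃ = Q₃ * Q₁ := comm_of_sq a1 a3 (h13 _ (mp hQ₁ hQ₃))
  have c14 : Q₁ * Q₄ = Q₄ * Q₁ := comm_of_sq a1 a4 (h14 _ (mp hQ₁ hQ₄))
  have c23 : Q₂ * Q₃ = Q₃ * Q₂ := comm_of_sq a2 a3 (h23 _ (mp hQ₂ hQ₃))
  have c24 : Q₂ * Q₄ = Q₄ * Q₂ := comm_of_sq a2 a4 (h24 _ (mp hQ₂ hQ₄))
  set Z := (Q₁ * Q₂) ^ 2 with hZ
  have τZ : τ Z = (q₁ * q₂) ^ 2 := by rw [hZ, map_pow, mp hQ₁ hQ₂]
  have z2 : Z ^ 2 = 1 := hz _ τZ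
  have inv1 : Q₁⁻¹ = Q₁ := inv_of_sq a1
  have inv2 : Q₂⁻¹ = Q₂ := inv_of_sq a2
  have inv3 : Q₃⁻¹ = Q₃ := inv_of_sq a3
  have inv4 : Q₄⁻¹ = Q₄ := inv_of_sq a4
  have invg : G⁻¹ = G := inv_of_sq ag
  have invz : Z⁻¹ = Z := inv_of_sq z2
  have sq21 : (Q₂ * Q₁) ^ 2 = Z := by
    rw [← invz, hZ]
    rw [pow_two, pow_two, mul_inv_rev, mul_inv_rev, inv1, inv2]
  have c34 : (Q₁ * Q₂) * (Q₃ * Q₄) = (Q₃ * Q₄) * (Q₁ * Q₂) := by
    calc (Q₁ * Q₂) * (Q₃ * Q₄) = Q₁ * (Q₂ * Q₃) * Q₄ := by simp only [mul_assoc]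
      _ = Q₁ * (Q₃ * Q₂) * Q₄ := by rw [c23]
      _ = (Q₁ * Q₃) * (Q₂ * Q₄) := by simp only [mul_assoc]
      _ = (Q₃ * Q₁) * (Q₄ * Q₂) := by rw [c13, c24]
      _ = Q₃ * (Q₁ * Q₄) * Q₂ := by simp only [mul_assoc]
      _ = Q₃ * (Q₄ * Q₁) * Q₂ := by rw [c14]
      _ = (Q₃ * Q₄) * (Q₁ * Q₂) := by simp only [mul_assoc]
  have sq34 : (Q₃ * Q₄) ^ 2 = Z := by
    have h5 : (Q₁ * Q₂ * (Q₃ * Q₄)) ^ 2 = 1 := h1234 _ (by
      have e : τ (Q₁ * Q₂ * (Q₃ * Q₄)) = τ Q₁ * τ Q₂ * (τ Q₃ * τ Q₄) := by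
        rw [← map_mul, ← map_mul, ← map_mul]
      rw [e, hQ₁, hQ₂, hQ₃, hQ₄])
    have hcm : Commute (Q₁ * Q₂) (Q₃ * Q₄) := c34
    rw [hcm.mul_pow, ← hZ] at h5
    have h6 : (Q₃ * Q₄) ^ 2 = Z⁻¹ := eq_inv_of_mul_eq_one_right h5
    rw [h6, invz]
  -- conjugation relations
  have conjz1 : Q₁ * Z * Q₁⁻¹ = Z := by
    have e : Q₁ * (Q₁ * Q₂) * Q₁⁻¹ = Q₂ * Q₁ := by
      rw [inv1]
      calc Q₁ * (Q₁ * Q₂) * Q₁ = (Q₁ * Q₁) * (Q₂ * Q₁) := by simp only [mul_assoc]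
        _ = Q₂ * Q₁ := by rw [mul_self_of_sq a1, one_mul]
    calc Q₁ * Z * Q₁⁻¹ = (Q₁ * (Q₁ * Q₂) * Q₁⁻¹) ^ 2 := by rw [hZ, conj_pow]
      _ = (Q₂ * Q₁) ^ 2 := by rw [e]
      _ = Z := sq21
  have conjz2 : Q₂ * Z * Q₂⁻¹ = Z := by
    have e : Q₂ * (Q₁ * Q₂) * Q₂⁻¹ = Q₂ * Q₁ := by
      rw [inv2]
      calc Q₂ * (Q₁ * Q₂) * Q₂ = (Q₂ * Q₁) * (Q₂ * Q₂) := by simp only [mul_assoc]
        _ = Q₂ * Q₁ := by rw [mul_self_of_sq a2, mul_one]
    calc Q₂ * Z * Q₂⁻¹ = (Q₂ * (Q₁ * Q₂) * Q₂⁻¹) ^ 2 := by rw [hZ, conj_pow]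
      _ = (Q₂ * Q₁) ^ 2 := by rw [e]
      _ = Z := sq21
  have conj_comm3 : Q₃ * Z * Q₃⁻¹ = Z := by
    have : Q₃ * (Q₁ * Q₂) = (Q₁ * Q₂) * Q₃ := by
      calc Q₃ * (Q₁ * Q₂) = (Q₃ * Q₁) * Q₂ := by simp only [mul_assoc]
        _ = (Q₁ * Q₃) * Q₂ := by rw [c13]
        _ = Q₁ * (Q₃ * Q₂) := by simp only [mul_assoc]
        _ = Q₁ * (Q₂ * Q₃) := by rw [c23]
        _ = (Q₁ * Q₂) * Q₃ := by simp only [mul_assoc]
    have hc3 : Commute Q₃ (Q₁ * Q₂) := this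
    rw [hZ, (hc3.pow_right 2).eq]
    group
  have conj_comm4 : Q₄ * Z * Q₄⁻¹ = Z := by
    have : Q₄ * (Q₁ * Q₂) = (Q₁ * Q₂) * Q₄ := by
      calc Q₄ * (Q₁ * Q₂) = (Q₄ * Q₁) * Q₂ := by simp only [mul_assoc]
        _ = (Q₁ * Q₄) * Q₂ := by rw [c14]
        _ = Q₁ * (Q₄ * Q₂) := by simp only [mul_assoc]
        _ = Q₁ * (Q₂ * Q₄) := by rw [c24]
        _ = (Q₁ * Q₂) * Q₄ := by simp only [mul_assoc]
    have hc4 : Commute Q₄ (Q₁ * Q₂) := this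
    rw [hZ, (hc4.pow_right 2).eq]
    group
  have g1 : G * Q₁ * G⁻¹ = Q₂ := rfl
  have g3 : G * Q₃ * G⁻¹ = Q₄ := rfl
  have g2 : G * Q₂ * G⁻¹ = Q₁ := by
    rw [hQ₂def, invg]
    calc G * (G * Q₁ * G) * G = (G * G) * Q₁ * (G * G) := by simp only [mul_assoc]
      _ = Q₁ := by rw [mul_self_of_sq ag, one_mul, mul_one]
  have g4 : G * Q₄ * G⁻¹ = Q₃ := by
    rw [hQ₄def, invg]
    calc G * (G * Q₃ * G) * G = (G * G) * Q₃ * (G * G) := by simp only [mul_assoc]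
      _ = Q₃ := by rw [mul_self_of_sq ag, one_mul, mul_one]
  have gz : G * Z * G⁻¹ = Z := by
    have e : G * (Q₁ * Q₂) * G⁻¹ = Q₂ * Q₁ := by
      calc G * (Q₁ * Q₂) * G⁻¹ = (G * Q₁ * G⁻¹) * (G * Q₂ * G⁻¹) := by group
        _ = Q₂ * Q₁ := by rw [g1, g2]
    calc G * Z * G⁻¹ = (G * (Q₁ * Q₂) * G⁻¹) ^ 2 := by rw [hZ, conj_pow]
      _ = (Q₂ * Q₁) ^ 2 := by rw [e]
      _ = Z := sq21
  set T₁ := Subgroup.zpowers Z with hT₁
  set T₂ := T₁ ⊔ Subgroup.zpowers Q₁ with hT₂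
  set T₃ := T₂ ⊔ Subgroup.zpowers Q₂ with hT₃
  set T₄ := T₃ ⊔ Subgroup.zpowers Q₃ with hT₄
  set T₅ := T₄ ⊔ Subgroup.zpowers Q₄ with hT₅
  set T₆ := T₅ ⊔ Subgroup.zpowers G with hT₆
  have l12 : T₁ ≤ T₂ := le_sup_left
  have l23 : T₂ ≤ T₃ := le_sup_left
  have l34 : T₃ ≤ T₄ := le_sup_left
  have l45 : T₄ ≤ T₅ := le_sup_left
  have l56 : T₅ ≤ T₆ := le_sup_left
  have mZ : Z ∈ T₁ := Subgroup.mem_zpowers Z
  have m1 : Q₁ ∈ T₂ := (le_sup_right : Subgroup.zpowers Q₁ ≤ T₂) (Subgroup.mem_zpowers Q₁)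
  have m2 : Q₂ ∈ T₃ := (le_sup_right : Subgroup.zpowers Q₂ ≤ T₃) (Subgroup.mem_zpowers Q₂)
  have m3 : Q₃ ∈ T₄ := (le_sup_right : Subgroup.zpowers Q₃ ≤ T₄) (Subgroup.mem_zpowers Q₃)
  have m4 : Q₄ ∈ T₅ := (le_sup_right : Subgroup.zpowers Q₄ ≤ T₅) (Subgroup.mem_zpowers Q₄)
  have mG : G ∈ T₆ := (le_sup_right : Subgroup.zpowers G ≤ T₆) (Subgroup.mem_zpowers G)
  have cz : ∀ {x : Δ} {A : Subgroup Δ}, x * Z * x⁻¹ = Z → Z ∈ A → ∀ t ∈ T₁, x * t * x⁻¹ ∈ A := by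
    intro x A hx hA t ht
    obtain ⟨k, rfl⟩ := Subgroup.mem_zpowers_iff.mp ht
    rw [← conj_zpow, hx]
    exact A.zpow_mem hA k
  have c1 : Nat.card T₁ ≤ 2 := by
    rw [hT₁, Nat.card_zpowers]
    exact Nat.le_of_dvd (by norm_num) (orderOf_dvd_of_pow_eq_one z2)
  have c2 : Nat.card T₂ ≤ 2 * Nat.card T₁ :=
    card_step (cz conjz1 mZ) (by rw [a1]; exact T₁.one_mem)
  have c3 : Nat.card T₃ ≤ 2 * Nat.card T₂ := by
    refine card_step (conj_sup_mem (cz conjz2 (l12 mZ)) ?_) (by rw [a2]; exact T₂.one_mem)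
    have e : Q₂ * Q₁ * Q₂⁻¹ = Q₁ * Z := by
      rw [inv2, ← sq21, pow_two]
      calc Q₂ * Q₁ * Q₂ = (Q₁ * Q₁) * (Q₂ * Q₁ * Q₂) := by rw [mul_self_of_sq a1, one_mul]
        _ = Q₁ * (Q₁ * Q₂ * (Q₁ * Q₂)) := by simp only [mul_assoc]
        _ = Q₁ * (Q₂ * Q₁ * (Q₂ * Q₁)) := by
            rw [← pow_two, ← pow_two, ← hZ, sq21]
    rw [e]
    exact T₂.mul_mem m1 (l12 mZ)
  have c4 : Nat.card T₄ ≤ 2 * Nat.card T₃ := by
    refine card_step (conj_sup_mem (conj_sup_mem (cz conj_comm3 (l23 (l12 mZ))) ?_) ?_)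
      (by rw [a3]; exact T₃.one_mem)
    · rw [conj_of_comm c13.symm]
      exact l23 m1
    · rw [conj_of_comm c23.symm]
      exact m2
  have c5 : Nat.card T₅ ≤ 2 * Nat.card T₄ := by
    refine card_step (conj_sup_mem (conj_sup_mem (conj_sup_mem (cz conj_comm4 (l34 (l23 (l12 mZ)))) ?_) ?_) ?_)
      (by rw [a4]; exact T₄.one_mem)
    · rw [conj_of_comm c14.symm]
      exact l34 (l23 m1)
    · rw [conj_of_comm c24.symm]
      exact l34 m2
    · have e : Q₄ * Q₃ * Q₄⁻¹ = Q₃ * Z := by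
        rw [inv4, ← sq34, pow_two]
        calc Q₄ * Q₃ * Q₄ = (Q₃ * Q₃) * (Q₄ * Q₃ * Q₄) := by rw [mul_self_of_sq a3, one_mul]
          _ = Q₃ * (Q₃ * Q₄ * Q₃ * Q₄) := by simp only [mul_assoc]
          _ = _ := by simp only [mul_assoc]
      rw [e]
      exact T₄.mul_mem m3 (l34 (l23 (l12 mZ)))
  have c6 : Nat.card T₆ ≤ 2 * Nat.card T₅ := by
    refine card_step (conj_sup_mem (conj_sup_mem (conj_sup_mem (conj_sup_mem (cz gz (l45 (l34 (l23 (l12 mZ))))) ?_) ?_) ?_) ?_)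
      (by rw [ag]; exact T₅.one_mem)
    · rw [g1]
      exact l45 (l34 m2)
    · rw [g2]
      exact l45 (l34 (l23 m1))
    · rw [g3]
      exact m4
    · rw [g4]
      exact l45 m3
  have hcard : Nat.card T₆ ≤ 64 := by omega
  set P₀ := Subgroup.zpowers ((q₁ * q₂) ^ 2) ⊔ Subgroup.zpowers q₁ ⊔ Subgroup.zpowers q₂ ⊔
      Subgroup.zpowers q₃ ⊔ Subgroup.zpowers q₄ ⊔ Subgroup.zpowers g with hP₀
  have h1 : P₀ ≤ T₆.map τ := by
    refine sup_le (sup_le (sup_le (sup_le (sup_le ?_ ?_) ?_) ?_) ?_) ?_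
    · rw [Subgroup.zpowers_le]
      exact ⟨Z, l56 (l45 (l34 (l23 (l12 mZ)))), τZ⟩
    · rw [Subgroup.zpowers_le]
      exact ⟨Q₁, l56 (l45 (l34 (l23 m1))), hQ₁⟩
    · rw [Subgroup.zpowers_le]
      exact ⟨Q₂, l56 (l45 (l34 m2)), hQ₂⟩
    · rw [Subgroup.zpowers_le]
      exact ⟨Q₃, l56 (l45 m3), hQ₃⟩
    · rw [Subgroup.zpowers_le]
      exact ⟨Q₄, l56 m4, hQ₄⟩
    · rw [Subgroup.zpowers_le]
      exact ⟨G, mG, hG⟩
  have mm1 : Subgroup.zpowers ((q₁ * q₂) ^ 2) ≤ P₀ :=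
    le_sup_of_le_left (le_sup_of_le_left (le_sup_of_le_left (le_sup_of_le_left le_sup_left)))
  have mm2 : Subgroup.zpowers q₁ ≤ P₀ :=
    le_sup_of_le_left (le_sup_of_le_left (le_sup_of_le_left (le_sup_of_le_left le_sup_right)))
  have mm3 : Subgroup.zpowers q₂ ≤ P₀ :=
    le_sup_of_le_left (le_sup_of_le_left (le_sup_of_le_left le_sup_right))
  have mm4 : Subgroup.zpowers q₃ ≤ P₀ := le_sup_of_le_left (le_sup_of_le_left le_sup_right)
  have mm5 : Subgroup.zpowers q₄ ≤ P₀ := le_sup_of_le_left le_sup_right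
  have mm6 : Subgroup.zpowers g ≤ P₀ := le_sup_right
  have h2 : T₆ ≤ P₀.comap τ := by
    refine sup_le (sup_le (sup_le (sup_le (sup_le ?_ ?_) ?_) ?_) ?_) ?_
    · rw [Subgroup.zpowers_le, Subgroup.mem_comap, τZ]
      exact mm1 (Subgroup.mem_zpowers _)
    · rw [Subgroup.zpowers_le, Subgroup.mem_comap, hQ₁]
      exact mm2 (Subgroup.mem_zpowers _)
    · rw [Subgroup.zpowers_le, Subgroup.mem_comap, hQ₂]
      exact mm3 (Subgroup.mem_zpowers _)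
    · rw [Subgroup.zpowers_le, Subgroup.mem_comap, hQ₃]
      exact mm4 (Subgroup.mem_zpowers _)
    · rw [Subgroup.zpowers_le, Subgroup.mem_comap, hQ₄]
      exact mm5 (Subgroup.mem_zpowers _)
    · rw [Subgroup.zpowers_le, Subgroup.mem_comap, hG]
      exact mm6 (Subgroup.mem_zpowers _)
  have hP₂ : Nat.card P₀ ≤ Nat.card T₆ := by
    let f' : T₆ → P₀ := fun b => ⟨τ b.1, h2 b.2⟩
    refine Nat.card_le_card_of_surjective f' ?_
    rintro ⟨x, hx⟩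
    obtain ⟨b, hb, e'⟩ := h1 hx
    exact ⟨⟨b, hb⟩, Subtype.ext e'⟩
  have hPc : Nat.card P₀ = 64 := by omega
  have hidx : P₀.index = m := by
    have h3 := Subgroup.card_mul_index P₀
    rw [hPc, hQ] at h3
    omega
  have hodd : ¬ 2 ∣ P₀.index := by
    rw [hidx]
    intro h
    obtain ⟨k, hk'⟩ := hm
    omega
  have := finish hs hcen hzk (hcom (MonoidHom.mem_ker.mpr hzk)) hzo hodd (B := T₆) (by omega)
    (fun x hx => by
      obtain ⟨b, hb, e'⟩ := h1 hx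
      exact ⟨b, hb, e'⟩) (fun b hb => h2 hb)
  exact hz1 this

end Cfsg.Agent.H09.DC
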