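import Cfsg.Agent.Lib.H09.SchurSD2

/-! Local analysis of double covers: a normal elementary abelian subgroup all of whose involutions
are conjugate lifts to a complement of the centre which is stable under suitable elements. -/

set_option autoImplicit false
set_option linter.unusedSectionVars false
set_option linter.unusedVariables false
set_option linter.style.haveILetI false

namespace Cfsg.Agent.H09.DC

open scoped commutatorElement
open Cfsg.Agent.H19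

section gen

variable {Δ : Type*} [Group Δ]

/-- One index-two step. -/
theorem card_step [Finite Δ] {T : Subgroup Δ} {x : Δ} (h : ∀ t ∈ T, x * t * x⁻¹ ∈ T) (hx : x ^ 2 ∈ T) :
    Nat.card ↥(T ⊔ Subgroup.zpowers x) ≤ 2 * Nat.card T := by
  classical
  have hinv : ∀ t ∈ T, x⁻¹ * t * x ∈ T := by
    intro t ht
    have e : x⁻¹ * t * x = (x ^ 2)⁻¹ * (x * t * x⁻¹) * x ^ 2 := by
      rw [pow_two]
      group
    rw [e]
    exact T.mul_mem (T.mul_mem (T.inv_mem hx) (h t ht)) hx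
  -- the carrier
  let S : Subgroup Δ :=
    { carrier := {y | y ∈ T ∨ x⁻¹ * y ∈ T}
      one_mem' := Or.inl T.one_mem
      mul_mem' := by
        rintro a b (ha | ha) (hb | hb)
        · exact Or.inl (T.mul_mem ha hb)
        · right
          have e : x⁻¹ * (a * b) = (x⁻¹ * a * x) * (x⁻¹ * b) := by group
          rw [e]
          exact T.mul_mem (hinv a ha) hb
        · right
          have e : x⁻¹ * (a * b) = (x⁻¹ * a) * b := by group
          rw [e]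
          exact T.mul_mem ha hb
        · left
          have e : a * b = x ^ 2 * (x⁻¹ * (x⁻¹ * a) * x) * (x⁻¹ * b) := by
            rw [pow_two]
            group
          rw [e]
          exact T.mul_mem (T.mul_mem hx (hinv _ ha)) hb
      inv_mem' := by
        rintro a (ha | ha)
        · exact Or.inl (T.inv_mem ha)
        · right
          have e : x⁻¹ * a⁻¹ = (x⁻¹ * (x⁻¹ * a)⁻¹ * x) * (x ^ 2)⁻¹ := by
            rw [pow_two]
            group
          rw [e]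
          exact T.mul_mem (hinv _ (T.inv_mem ha)) (T.inv_mem hx) }
  have hle : T ⊔ Subgroup.zpowers x ≤ S := by
    refine sup_le (fun t ht => Or.inl ht) ?_
    rw [Subgroup.zpowers_le]
    right
    rw [inv_mul_cancel]
    exact T.one_mem
  let f : ↥(T ⊔ Subgroup.zpowers x) → ↥T × Bool := fun y =>
    if hy : (y : Δ) ∈ T then (⟨y, hy⟩, false)
    else (⟨x⁻¹ * y, (hle y.2).resolve_left hy⟩, true)
  have hf : Function.Injective f := by
    intro a b hab
    by_cases ha : (a : Δ) ∈ T <;> by_cases hb : (b : Δ) ∈ T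
    · simp only [f, dif_pos ha, dif_pos hb, Prod.mk.injEq, Subtype.mk.injEq, and_true] at hab
      exact Subtype.ext hab
    · simp only [f, dif_pos ha, dif_neg hb, Prod.mk.injEq, Bool.false_eq_true, and_false] at hab
    · simp only [f, dif_neg ha, dif_pos hb, Prod.mk.injEq, Bool.true_eq_false, and_false] at hab
    · simp only [f, dif_neg ha, dif_neg hb, Prod.mk.injEq, Subtype.mk.injEq, and_true] at hab
      exact Subtype.ext (mul_left_cancel hab)
  have h2 := Nat.card_le_card_of_injective f hf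
  rw [Nat.card_prod] at h2
  have h3 : Nat.card Bool = 2 := by simp
  rw [h3] at h2
  linarith

/-- Conjugation on a join. -/
theorem conj_sup_mem {A C : Subgroup Δ} {x y : Δ} (h : ∀ t ∈ A, x * t * x⁻¹ ∈ C) (hy : x * y * x⁻¹ ∈ C) :
    ∀ t ∈ A ⊔ Subgroup.zpowers y, x * t * x⁻¹ ∈ C := by
  have hle : A ⊔ Subgroup.zpowers y ≤ C.comap (MulAut.conj x).toMonoidHom := by
    refine sup_le (fun t ht => ?_) ?_
    · exact h t ht
    · rw [Subgroup.zpowers_le]
      exact hy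
  intro t ht
  exact hle ht

/-- The square of a product when the commutator is central. -/
theorem sq_mul_of_central {X Y : Δ} (h : ⁅Y, X⁆ ∈ Subgroup.center Δ) :
    (X * Y) ^ 2 = ⁅Y, X⁆ * (X ^ 2 * Y ^ 2) := by
  have h1 := Subgroup.mem_center_iff.mp h X
  have e : Y * X = ⁅Y, X⁆ * (X * Y) := by
    simp only [commutatorElement_def]
    group
  calc (X * Y) ^ 2 = X * (Y * X) * Y := by rw [pow_two]; group
    _ = X * (⁅Y, X⁆ * (X * Y)) * Y := by rw [← e]
    _ = (X * ⁅Y, X⁆) * (X * Y) * Y := by group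
    _ = (⁅Y, X⁆ * X) * (X * Y) * Y := by rw [h1]
    _ = ⁅Y, X⁆ * (X ^ 2 * Y ^ 2) := by rw [pow_two, pow_two]; group

end gen

variable {Δ Q : Type*} [Group Δ] [Group Q] (τ : Δ →* Q)

/-- All lifts of `x` square to one. -/
def I1 (x : Q) : Prop := ∀ A, τ A = x → A ^ 2 = 1

/-- All lifts of `x` square to `z`. -/
def J1 (z : Δ) (x : Q) : Prop := ∀ A, τ A = x → A ^ 2 = z

section cover

variable {τ} (hs : Function.Surjective τ) (hcen : τ.ker ≤ Subgroup.center Δ) {z : Δ}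
  (hzk : τ z = 1) (hz2 : z ^ 2 = 1) (hz1 : z ≠ 1) (hK : ∀ k, τ k = 1 → k = 1 ∨ k = z)

include hs in
theorem I1_conj {x y : Q} (h : I1 τ x) (hc : IsConj x y) : I1 τ y := by
  obtain ⟨c, hc⟩ := isConj_iff.1 hc
  obtain ⟨C, rfl⟩ := hs c
  intro B hB
  have h1 := h (C⁻¹ * B * C) (by
    rw [map_mul, map_mul, map_inv, hB, ← hc]
    group)
  have h2 : (C⁻¹ * B * C) ^ 2 = C⁻¹ * B ^ 2 * C := by
    rw [pow_two, pow_two]
    group
  rw [h2] at h1
  have h3 : B ^ 2 = C * (C⁻¹ * B ^ 2 * C) * C⁻¹ := by group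
  rw [h3, h1]
  group

include hs hcen hzk in
theorem J1_conj {x y : Q} (h : J1 τ z x) (hc : IsConj x y) : J1 τ z y := by
  obtain ⟨c, hc⟩ := isConj_iff.1 hc
  obtain ⟨C, rfl⟩ := hs c
  intro B hB
  have h1 := h (C⁻¹ * B * C) (by
    rw [map_mul, map_mul, map_inv, hB, ← hc]
    group)
  have h2 : (C⁻¹ * B * C) ^ 2 = C⁻¹ * B ^ 2 * C := by
    rw [pow_two, pow_two]
    group
  rw [h2] at h1
  have h3 : B ^ 2 = C * (C⁻¹ * B ^ 2 * C) * C⁻¹ := by group
  rw [h3, h1]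
  have := Subgroup.mem_center_iff.mp (hcen (MonoidHom.mem_ker.mpr hzk)) C
  rw [this]
  group

include hs hcen hz2 hK in
theorem I1_or {x : Q} (hx : x ^ 2 = 1) : I1 τ x ∨ J1 τ z x := by
  obtain ⟨A₀, hA₀⟩ := hs x
  have hsq : ∀ k, τ k = 1 → k ^ 2 = 1 := by
    intro k hk
    rcases hK k hk with rfl | rfl
    · simp
    · exact hz2
  have hA : ∀ A, τ A = x → A ^ 2 = A₀ ^ 2 := by
    intro A hA
    have hk : τ (A₀⁻¹ * A) = 1 := by
      rw [map_mul, map_inv, hA₀, hA, inv_mul_cancel]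
    have hc := Subgroup.mem_center_iff.mp (hcen (MonoidHom.mem_ker.mpr hk))
    have e : A = A₀ * (A₀⁻¹ * A) := by group
    rw [e]
    set k := A₀⁻¹ * A
    have hcm : Commute A₀ k := hc A₀
    rw [hcm.mul_pow, hsq k hk, mul_one]
  have h0 : τ (A₀ ^ 2) = 1 := by rw [map_pow, hA₀, hx]
  rcases hK _ h0 with h1 | h1
  · left
    intro A hAx
    rw [hA A hAx, h1]
  · right
    intro A hAx
    rw [hA A hAx, h1]

include hs hcen hzk hz2 hz1 hK in
/-- Three commuting involutions whose products are all conjugate: the lifts are involutions. -/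
theorem I1_of_triple {e₁ e₂ e₃ : Q} (h1 : e₁ ^ 2 = 1) (h12 : e₁ * e₂ = e₂ * e₁) (h13 : e₁ * e₃ = e₃ * e₁)
    (h23 : e₂ * e₃ = e₃ * e₂) (c2 : IsConj e₁ e₂) (c3 : IsConj e₁ e₃) (c12 : IsConj e₁ (e₁ * e₂))
    (c13 : IsConj e₁ (e₁ * e₃)) (c23 : IsConj e₁ (e₂ * e₃)) (c123 : IsConj e₁ (e₁ * (e₂ * e₃))) :
    I1 τ e₁ := by
  rcases I1_or hs hcen hz2 hK h1 with h | hJ
  · exact h
  exfalso
  obtain ⟨A, hA⟩ := hs e₁
  obtain ⟨B, hB⟩ := hs e₂
  obtain ⟨C, hC⟩ := hs e₃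
  have J2 := J1_conj hs hcen hzk hJ c2 B hB
  have J3 := J1_conj hs hcen hzk hJ c3 C hC
  have J12 := J1_conj hs hcen hzk hJ c12 (A * B) (by rw [map_mul, hA, hB])
  have J13 := J1_conj hs hcen hzk hJ c13 (A * C) (by rw [map_mul, hA, hC])
  have J23 := J1_conj hs hcen hzk hJ c23 (B * C) (by rw [map_mul, hB, hC])
  have J123 := J1_conj hs hcen hzk hJ c123 (A * (B * C)) (by rw [map_mul, map_mul, hA, hB, hC])
  have J1' := hJ A hA
  have hzc := Subgroup.mem_center_iff.mp (hcen (MonoidHom.mem_ker.mpr hzk))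
  have cen : ∀ {X Y : Δ} {x y : Q}, τ X = x → τ Y = y → x * y = y * x → ⁅Y, X⁆ ∈ Subgroup.center Δ := by
    intro X Y x y hX hY hxy
    apply hcen
    rw [MonoidHom.mem_ker, map_commutatorElement, hX, hY, commutatorElement_eq_one_iff_mul_comm]
    exact hxy.symm
  have key : ∀ {X Y : Δ}, X ^ 2 = z → Y ^ 2 = z → (X * Y) ^ 2 = z → ⁅Y, X⁆ ∈ Subgroup.center Δ → ⁅Y, X⁆ = z := by
    intro X Y hX hY hXY hc
    rw [sq_mul_of_central hc, hX, hY, ← pow_two, hz2, mul_one] at hXY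
    exact hXY
  have k1 := key J1' J2 J12 (cen hA hB h12)
  have k2 := key J1' J3 J13 (cen hA hC h13)
  have k3 := key J1' J23 J123 (cen hA (by rw [map_mul, hB, hC]) (by
    rw [← mul_assoc, h12, mul_assoc, h13, mul_assoc]))
  have e : ⁅B * C, A⁆ = B * ⁅C, A⁆ * B⁻¹ * ⁅B, A⁆ := by
    simp only [commutatorElement_def]
    group
  rw [e, k1, k2] at k3
  have : B * z * B⁻¹ = z := by
    rw [hzc B]
    group
  rw [this, ← pow_two, hz2] at k3
  exact hz1 k3.symm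

include hs hcen hz2 hK in
/-- All lifts of the identity are involutions or trivial. -/
theorem I1_one : I1 τ (1 : Q) := by
  intro A hA
  rcases hK A hA with rfl | rfl
  · simp
  · exact hz2

theorem comm_of_sq {x y : Δ} (hx : x ^ 2 = 1) (hy : y ^ 2 = 1) (hxy : (x * y) ^ 2 = 1) : x * y = y * x := by
  have h1 : x⁻¹ = x := by
    rw [inv_eq_iff_mul_eq_one, ← pow_two, hx]
  have h2 : y⁻¹ = y := by
    rw [inv_eq_iff_mul_eq_one, ← pow_two, hy]
  have h3 : (x * y)⁻¹ = x * y := by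
    rw [inv_eq_iff_mul_eq_one, ← pow_two, hxy]
  rw [← h3, mul_inv_rev, h1, h2]

end cover

section W

variable {τ} (V : Subgroup Q)

/-- The preimage of `V`. -/
abbrev Vt (τ : Δ →* Q) (V : Subgroup Q) : Subgroup Δ := V.comap τ

/-- The subgroup generated by the commutators with `s`. -/
def WW (τ : Δ →* Q) (V : Subgroup Q) (s : Δ) : Subgroup Δ :=
  Subgroup.closure {g | ∃ v ∈ Vt τ V, g = ⁅v, s⁆}

/-- `t` normalizes `V` and has no non-trivial fixed point on `V`. -/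
def Good (t : Q) : Prop := (∀ v ∈ V, t * v * t⁻¹ ∈ V) ∧ ∀ v ∈ V, t * v * t⁻¹ = v → v = 1

variable {V} (hs : Function.Surjective τ) (hcen : τ.ker ≤ Subgroup.center Δ)
  (hV : ∀ v ∈ V, I1 τ v)

include hV in
theorem vt_sq {x : Δ} (hx : x ∈ Vt τ V) : x ^ 2 = 1 := hV _ hx x rfl

include hV in
theorem vt_comm {x y : Δ} (hx : x ∈ Vt τ V) (hy : y ∈ Vt τ V) : x * y = y * x :=
  comm_of_sq (vt_sq hV hx) (vt_sq hV hy) (vt_sq hV ((Vt τ V).mul_mem hx hy))

include hV in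
theorem vt_inv {x : Δ} (hx : x ∈ Vt τ V) : x⁻¹ = x := by
  rw [inv_eq_iff_mul_eq_one, ← pow_two, vt_sq hV hx]

include hV in
theorem comm_mul_comm {s u v : Δ} (hn : ∀ x ∈ Vt τ V, s * x * s⁻¹ ∈ Vt τ V) (hu : u ∈ Vt τ V)
    (hv : v ∈ Vt τ V) : ⁅u, s⁆ * ⁅v, s⁆ = ⁅u * v, s⁆ := by
  have hu' : s * u⁻¹ * s⁻¹ ∈ Vt τ V := hn _ ((Vt τ V).inv_mem hu)
  have hv' : s * v⁻¹ * s⁻¹ ∈ Vt τ V := hn _ ((Vt τ V).inv_mem hv)
  have e1 : ⁅u, s⁆ = u * (s * u⁻¹ * s⁻¹) := by
    simp only [commutatorElement_def]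
    group
  have e2 : ⁅v, s⁆ = v * (s * v⁻¹ * s⁻¹) := by
    simp only [commutatorElement_def]
    group
  have e3 : ⁅u * v, s⁆ = u * v * ((s * v⁻¹ * s⁻¹) * (s * u⁻¹ * s⁻¹)) := by
    simp only [commutatorElement_def]
    group
  rw [e1, e2, e3, vt_comm hV hv' hu']
  have := vt_comm hV hu' hv
  calc u * (s * u⁻¹ * s⁻¹) * (v * (s * v⁻¹ * s⁻¹)) = u * ((s * u⁻¹ * s⁻¹) * v) * (s * v⁻¹ * s⁻¹) := by
        simp only [mul_assoc]
    _ = u * (v * (s * u⁻¹ * s⁻¹)) * (s * v⁻¹ * s⁻¹) := by rw [this]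
    _ = _ := by simp only [mul_assoc]

include hV in
theorem mem_WW {s g : Δ} (hn : ∀ x ∈ Vt τ V, s * x * s⁻¹ ∈ Vt τ V) :
    g ∈ WW τ V s ↔ ∃ v ∈ Vt τ V, g = ⁅v, s⁆ := by
  constructor
  · intro hg
    induction hg using Subgroup.closure_induction with
    | mem x hx => exact hx
    | one => exact ⟨1, (Vt τ V).one_mem, by simp⟩
    | mul x y _ _ hx hy =>
      obtain ⟨u, hu, rfl⟩ := hx
      obtain ⟨v, hv, rfl⟩ := hy
      exact ⟨u * v, (Vt τ V).mul_mem hu hv, comm_mul_comm hV hn hu hv⟩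
    | inv x _ hx =>
      obtain ⟨u, hu, rfl⟩ := hx
      refine ⟨u, hu, ?_⟩
      have h1 : ⁅u, s⁆ ∈ Vt τ V := by
        have e : ⁅u, s⁆ = u * (s * u⁻¹ * s⁻¹) := by
          simp only [commutatorElement_def]
          group
        rw [e]
        exact (Vt τ V).mul_mem hu (hn _ ((Vt τ V).inv_mem hu))
      exact vt_inv hV h1
  · intro h
    exact Subgroup.subset_closure h

include hV in
theorem WW_le {s : Δ} (hn : ∀ x ∈ Vt τ V, s * x * s⁻¹ ∈ Vt τ V) : WW τ V s ≤ Vt τ V := by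
  intro g hg
  obtain ⟨u, hu, rfl⟩ := (mem_WW hV hn).1 hg
  have e : ⁅u, s⁆ = u * (s * u⁻¹ * s⁻¹) := by
    simp only [commutatorElement_def]
    group
  rw [e]
  exact (Vt τ V).mul_mem hu (hn _ ((Vt τ V).inv_mem hu))

theorem good_norm {t : Q} (ht : Good V t) {s : Δ} (hst : τ s = t) :
    ∀ x ∈ Vt τ V, s * x * s⁻¹ ∈ Vt τ V := by
  intro x hx
  rw [Subgroup.mem_comap, map_mul, map_mul, map_inv, hst]
  exact ht.1 _ hx

include hs hcen in
theorem card_WW_le [Finite Q] {s : Δ} (hn : ∀ x ∈ Vt τ V, s * x * s⁻¹ ∈ Vt τ V) (hV : ∀ v ∈ V, I1 τ v) :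
    Nat.card (WW τ V s) ≤ Nat.card V := by
  classical
  have hlift : ∀ x : V, Function.surjInv hs x.1 ∈ Vt τ V := by
    intro x
    rw [Subgroup.mem_comap, Function.surjInv_eq hs]
    exact x.2
  have hin : ∀ x : V, ⁅Function.surjInv hs x.1, s⁆ ∈ WW τ V s := fun x =>
    Subgroup.subset_closure ⟨_, hlift x, rfl⟩
  let f : V → WW τ V s := fun x => ⟨_, hin x⟩
  have hf : Function.Surjective f := by
    rintro ⟨w, hw⟩
    obtain ⟨v, hv, rfl⟩ := (mem_WW hV hn).1 hw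
    refine ⟨⟨τ v, hv⟩, Subtype.ext ?_⟩
    show ⁅Function.surjInv hs (τ v), s⁆ = ⁅v, s⁆
    have hk : v⁻¹ * Function.surjInv hs (τ v) ∈ τ.ker := by
      rw [MonoidHom.mem_ker, map_mul, map_inv, Function.surjInv_eq hs, inv_mul_cancel]
    have e : Function.surjInv hs (τ v) = v * (v⁻¹ * Function.surjInv hs (τ v)) := by group
    rw [e, Hopf.comm_mul_central_left (fun g => Subgroup.mem_center_iff.mp (hcen hk) g)]
  exact Nat.card_le_card_of_surjective f hf

include hs in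
theorem surj_WW [Finite Q] (hV2 : ∀ v ∈ V, v ^ 2 = 1) {t : Q} (ht : Good V t) {s : Δ} (hst : τ s = t) :
    ∀ x ∈ V, ∃ w ∈ WW τ V s, τ w = x := by
  have hcomm : ∀ u ∈ V, ∀ v ∈ V, u * v = v * u := fun u hu v hv =>
    comm_of_sq (hV2 u hu) (hV2 v hv) (hV2 _ (V.mul_mem hu hv))
  have hin : ∀ y : V, y.1 * (t * y.1⁻¹ * t⁻¹) ∈ V := fun y =>
    V.mul_mem y.2 (ht.1 _ (V.inv_mem y.2))
  let g : V → V := fun y => ⟨_, hin y⟩
  have hg : Function.Injective g := by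
    rintro ⟨y₁, h₁⟩ ⟨y₂, h₂⟩ h
    have h3 : y₁ * (t * y₁⁻¹ * t⁻¹) = y₂ * (t * y₂⁻¹ * t⁻¹) := congrArg Subtype.val h
    have hm : y₂⁻¹ * y₁ ∈ V := V.mul_mem (V.inv_mem h₂) h₁
    have h4 : t * (y₂⁻¹ * y₁) * t⁻¹ = y₂⁻¹ * y₁ := by
      have e1 : t * (y₂⁻¹ * y₁) * t⁻¹ = (t * y₂⁻¹ * t⁻¹) * (t * y₁ * t⁻¹) := by group
      have e2 : t * y₂⁻¹ * t⁻¹ = y₂⁻¹ * y₁ * (t * y₁⁻¹ * t⁻¹) := by
        rw [mul_assoc y₂⁻¹, h3]
        group
      rw [e1, e2]
      group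
    have h5 := ht.2 _ hm h4
    apply Subtype.ext
    show y₁ = y₂
    have : y₂ * (y₂⁻¹ * y₁) = y₂ * 1 := by rw [h5]
    simpa using this
  have hgs : Function.Surjective g := Finite.surjective_of_injective hg
  intro x hx
  obtain ⟨y, hy⟩ := hgs ⟨x, hx⟩
  obtain ⟨v, hv⟩ := hs y.1
  refine ⟨⁅v, s⁆, Subgroup.subset_closure ⟨v, ?_, rfl⟩, ?_⟩
  · rw [Subgroup.mem_comap, hv]
    exact y.2
  · have h6 : y.1 * (t * y.1⁻¹ * t⁻¹) = x := congrArg Subtype.val hy
    rw [map_commutatorElement, hv, hst, ← h6, commutatorElement_def]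
    group

/-- The projection from `WW` onto `V`. -/
def prWW {s : Δ} (hn : ∀ x ∈ Vt τ V, s * x * s⁻¹ ∈ Vt τ V) (hV : ∀ v ∈ V, I1 τ v) : WW τ V s → V :=
  fun w => ⟨τ w.1, WW_le hV hn w.2⟩

include hs in
theorem prWW_surj [Finite Q] (hV : ∀ v ∈ V, I1 τ v) (hV2 : ∀ v ∈ V, v ^ 2 = 1) {t : Q} (ht : Good V t) {s : Δ}
    (hst : τ s = t) : Function.Surjective (prWW (good_norm ht hst) hV) := by
  rintro ⟨x, hx⟩
  obtain ⟨w, hw, hwx⟩ := surj_WW hs hV2 ht hst x hx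
  exact ⟨⟨w, hw⟩, Subtype.ext hwx⟩

include hs hcen in
theorem inj_WW [Finite Δ] [Finite Q] (hV : ∀ v ∈ V, I1 τ v) (hV2 : ∀ v ∈ V, v ^ 2 = 1) {t : Q} (ht : Good V t)
    {s : Δ} (hst : τ s = t) : ∀ w ∈ WW τ V s, τ w = 1 → w = 1 := by
  have hn := good_norm ht hst
  have hb := (prWW_surj hs hV hV2 ht hst).bijective_of_nat_card_le (card_WW_le hs hcen hn hV)
  intro w hw h1
  have h2 : prWW hn hV ⟨w, hw⟩ = prWW hn hV ⟨1, Subgroup.one_mem _⟩ := by
    apply Subtype.ext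
    show τ w = τ 1
    rw [h1, map_one]
  exact congrArg Subtype.val (hb.1 h2)

include hs in
theorem card_V_le_WW [Finite Δ] [Finite Q] (hV : ∀ v ∈ V, I1 τ v) (hV2 : ∀ v ∈ V, v ^ 2 = 1) {t : Q} (ht : Good V t)
    {s : Δ} (hst : τ s = t) : Nat.card V ≤ Nat.card (WW τ V s) :=
  Nat.card_le_card_of_surjective _ (prWW_surj hs hV hV2 ht hst)

include hcen in
/-- An element commuting with `t` normalizes `WW`. -/
theorem WW_conj {t t' : Q} (hV : ∀ v ∈ V, I1 τ v) (ht : Good V t) (ht' : Good V t') (hc : t * t' = t' * t) {s s' : Δ}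
    (hst : τ s = t) (hst' : τ s' = t') : ∀ w ∈ WW τ V s, s' * w * s'⁻¹ ∈ WW τ V s := by
  have hn := good_norm ht hst
  have hn' := good_norm ht' hst'
  intro w hw
  obtain ⟨v, hv, rfl⟩ := (mem_WW hV hn).1 hw
  have hk : s⁻¹ * (s' * s * s'⁻¹) ∈ τ.ker := by
    rw [MonoidHom.mem_ker, map_mul, map_inv, map_mul, map_mul, map_inv, hst, hst', ← hc]
    group
  have e : s' * ⁅v, s⁆ * s'⁻¹ = ⁅s' * v * s'⁻¹, s * (s⁻¹ * (s' * s * s'⁻¹))⁆ := by
    simp only [commutatorElement_def]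
    group
  rw [e, Hopf.comm_mul_central_right (fun g => Subgroup.mem_center_iff.mp (hcen hk) g)]
  exact Subgroup.subset_closure ⟨_, hn' v hv, rfl⟩

include hs hcen in
theorem WW_le_WW [Finite Δ] [Finite Q] (hV : ∀ v ∈ V, I1 τ v) (hV2 : ∀ v ∈ V, v ^ 2 = 1) {t t' : Q} (ht : Good V t)
    (ht' : Good V t') (hc : t * t' = t' * t) {s s' : Δ} (hst : τ s = t) (hst' : τ s' = t') :
    WW τ V s ≤ WW τ V s' := by
  have hn := good_norm ht hst
  have hn' := good_norm ht' hst'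
  have hle := WW_le hV hn
  have hconj := WW_conj hcen hV ht ht' hc hst hst'
  have hin : ∀ w : WW τ V s, ⁅w.1, s'⁆ ∈ WW τ V s := by
    intro w
    have e : ⁅w.1, s'⁆ = w.1 * (s' * w.1⁻¹ * s'⁻¹) := by
      simp only [commutatorElement_def]
      group
    rw [e]
    exact Subgroup.mul_mem _ w.2 (hconj _ (Subgroup.inv_mem _ w.2))
  let h : WW τ V s → WW τ V s := fun w => ⟨_, hin w⟩
  have hinj : Function.Injective h := by
    rintro ⟨w₁, h₁⟩ ⟨w₂, h₂⟩ e
    have e1 : ⁅w₁, s'⁆ = ⁅w₂, s'⁆ := congrArg Subtype.val e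
    have e2 : ⁅w₁ * w₂, s'⁆ = 1 := by
      rw [← comm_mul_comm hV hn' (hle h₁) (hle h₂), e1, ← pow_two]
      exact vt_sq hV (hle (hin ⟨w₂, h₂⟩))
    have hm : w₁ * w₂ ∈ WW τ V s := Subgroup.mul_mem _ h₁ h₂
    have e3 : s' * (w₁ * w₂) = (w₁ * w₂) * s' := by
      rw [commutatorElement_eq_one_iff_mul_comm] at e2
      exact e2.symm
    have e4 : t' * τ (w₁ * w₂) * t'⁻¹ = τ (w₁ * w₂) := by
      have := congrArg τ e3
      rw [map_mul, map_mul τ (w₁ * w₂), hst'] at this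
      rw [this]
      group
    have e5 := ht'.2 _ (hle hm) e4
    have e6 := inj_WW hs hcen hV hV2 ht hst _ hm e5
    apply Subtype.ext
    show w₁ = w₂
    have e7 := vt_inv hV (hle h₂)
    rw [← e7]
    exact eq_inv_of_mul_eq_one_left e6
  have hsurj := Finite.surjective_of_injective hinj
  intro w hw
  obtain ⟨w₀, hw₀⟩ := hsurj ⟨w, hw⟩
  have e : ⁅w₀.1, s'⁆ = w := congrArg Subtype.val hw₀
  rw [← e]
  exact Subgroup.subset_closure ⟨w₀.1, hle w₀.2, rfl⟩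

include hs hcen in
theorem WW_eq [Finite Δ] [Finite Q] (hV : ∀ v ∈ V, I1 τ v) (hV2 : ∀ v ∈ V, v ^ 2 = 1) {t t' : Q} (ht : Good V t)
    (ht' : Good V t') (hc : t * t' = t' * t) {s s' : Δ} (hst : τ s = t) (hst' : τ s' = t') :
    WW τ V s = WW τ V s' := by
  refine Subgroup.eq_of_le_of_card_ge (WW_le_WW hs hcen hV hV2 ht ht' hc hst hst') ?_
  exact (card_WW_le hs hcen (good_norm ht' hst') hV).trans (card_V_le_WW hs hV hV2 ht hst)

/-- Membership in a normalizer from an inclusion, in a finite group. -/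
theorem mem_normalizer_of_conj_mem {G : Type*} [Group G] [Finite G] {W : Subgroup G} {g : G}
    (h : ∀ w ∈ W, g * w * g⁻¹ ∈ W) : g ∈ Subgroup.normalizer (W : Set G) := by
  have hle : W.map (MulAut.conj g).toMonoidHom ≤ W := by
    rintro _ ⟨w, hw, rfl⟩
    exact h w hw
  have hcard : Nat.card W ≤ Nat.card (W.map (MulAut.conj g).toMonoidHom) := by
    rw [Subgroup.card_map_of_injective (MulAut.conj g).injective]
  have heq := Subgroup.eq_of_le_of_card_ge hle hcard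
  rw [Subgroup.mem_normalizer_iff]
  intro w
  constructor
  · exact h w
  · intro hw
    rw [← heq] at hw
    obtain ⟨u, hu, e⟩ := hw
    have e2 : u = w := by
      have : g * u * g⁻¹ = g * w * g⁻¹ := e
      simpa using this
    rwa [← e2]

include hs hcen in
/-- The invariant complement. -/
theorem exists_W [Finite Δ] [Finite Q] (hV : ∀ v ∈ V, I1 τ v) (hV2 : ∀ v ∈ V, v ^ 2 = 1) (t : ℕ → Q) (n : ℕ)
    (hg : ∀ i ≤ n, Good V (t i)) (hc : ∀ i < n, t i * t (i + 1) = t (i + 1) * t i) :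
    ∃ W : Subgroup Δ, Nat.card W ≤ Nat.card V ∧ (∀ w ∈ W, τ w ∈ V) ∧ (∀ x ∈ V, ∃ w ∈ W, τ w = x) ∧
      (∀ i ≤ n, ∀ s, τ s = t i → s ∈ Subgroup.normalizer (W : Set Δ)) ∧
      (∀ y, τ y ∈ V → y ∈ Subgroup.normalizer (W : Set Δ)) := by
  obtain ⟨s₀, hs₀⟩ := hs (t 0)
  have hself : ∀ i ≤ n, ∀ s s', τ s = t i → τ s' = t i → WW τ V s = WW τ V s' := by
    intro i hi s s' h h'
    exact WW_eq hs hcen hV hV2 (hg i hi) (hg i hi) rfl h h'
  have hall : ∀ i ≤ n, ∀ s, τ s = t i → WW τ V s = WW τ V s₀ := by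
    intro i
    induction i with
    | zero => intro _ s h; exact hself 0 (Nat.zero_le n) s s₀ h hs₀
    | succ i ih =>
      intro hi s h
      obtain ⟨s', hs'⟩ := hs (t i)
      rw [← ih (by omega) s' hs']
      exact WW_eq hs hcen hV hV2 (hg _ hi) (hg i (by omega)) (hc i (by omega)).symm h hs'
  have hle := WW_le hV (good_norm (hg 0 (Nat.zero_le n)) hs₀)
  refine ⟨WW τ V s₀, card_WW_le hs hcen (good_norm (hg 0 (Nat.zero_le n)) hs₀) hV, fun w hw => hle hw,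
    surj_WW hs hV2 (hg 0 (Nat.zero_le n)) hs₀, ?_, ?_⟩
  · intro i hi s hst
    apply mem_normalizer_of_conj_mem
    intro w hw
    rw [← hall i hi s hst] at hw ⊢
    exact WW_conj hcen hV (hg i hi) (hg i hi) rfl hst hst w hw
  · intro y hy
    apply mem_normalizer_of_conj_mem
    intro w hw
    have := vt_comm hV (show y ∈ Vt τ V from hy) (hle hw)
    rw [this]
    simpa using hw

include hs hcen in
/-- The conclusion: a subgroup mapping onto a subgroup of odd index with at most as many elements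
as its image cannot contain the central involution. -/
theorem finish [Finite Δ] [Finite Q] {z : Δ} (hzk : τ z = 1) (hzC : z ∈ commutator Δ) (hz : orderOf z = 2)
    {P₀ : Subgroup Q} (hodd : ¬ 2 ∣ P₀.index) {B : Subgroup Δ} (hcard : Nat.card B ≤ Nat.card P₀)
    (h1 : ∀ x ∈ P₀, ∃ b ∈ B, τ b = x) (h2 : ∀ b ∈ B, τ b ∈ P₀) : z = 1 := by
  -- injectivity on `B`
  let f : B → P₀ := fun b => ⟨τ b.1, h2 _ b.2⟩
  have hf : Function.Surjective f := by
    rintro ⟨x, hx⟩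
    obtain ⟨b, hb, e⟩ := h1 x hx
    exact ⟨⟨b, hb⟩, Subtype.ext e⟩
  have hb := hf.bijective_of_nat_card_le hcard
  refine Cfsg.Agent.H09.eq_one_of_preimage τ hs hcen P₀ Nat.prime_two hodd (MonoidHom.mem_ker.mpr hzk) hzC hz ?_
  intro w hw hw1 hwc
  -- the commutator subgroup lies in `B`
  have hle : commutator (P₀.comap τ) ≤ B.subgroupOf (P₀.comap τ) := by
    rw [commutator_def, Subgroup.commutator_le]
    rintro ⟨x, hx⟩ - ⟨y, hy⟩ -
    obtain ⟨b₁, hb₁, e₁⟩ := h1 _ hx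
    obtain ⟨b₂, hb₂, e₂⟩ := h1 _ hy
    rw [Subgroup.mem_subgroupOf]
    show ⁅x, y⁆ ∈ B
    have k₁ : b₁⁻¹ * x ∈ τ.ker := by
      rw [MonoidHom.mem_ker, map_mul, map_inv, e₁, inv_mul_cancel]
    have k₂ : b₂⁻¹ * y ∈ τ.ker := by
      rw [MonoidHom.mem_ker, map_mul, map_inv, e₂, inv_mul_cancel]
    have e3 : x = b₁ * (b₁⁻¹ * x) := by group
    have e4 : y = b₂ * (b₂⁻¹ * y) := by group
    rw [e3, e4, Hopf.comm_mul_central_left (fun g => Subgroup.mem_center_iff.mp (hcen k₁) g),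
      Hopf.comm_mul_central_right (fun g => Subgroup.mem_center_iff.mp (hcen k₂) g)]
    rw [commutatorElement_def]
    exact B.mul_mem (B.mul_mem (B.mul_mem hb₁ hb₂) (B.inv_mem hb₁)) (B.inv_mem hb₂)
  have hwB : w ∈ B := hle hwc
  have h3 : f ⟨w, hwB⟩ = f ⟨1, B.one_mem⟩ := by
    apply Subtype.ext
    show τ w = τ 1
    rw [hw1, map_one]
  exact congrArg Subtype.val (hb.1 h3)

end W

end Cfsg.Agent.H09.DC
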