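import Cfsg.Agent.Lib.H09.DC2
import Cfsg.Agent.Lib.H07.GolayM11Gl

/-! Working with explicit codes inside subgroups of the permutation group of the 24 points. -/

set_option autoImplicit false
set_option linter.unusedSectionVars false
set_option linter.unusedVariables false
set_option linter.style.haveILetI false
set_option maxRecDepth 100000

namespace Cfsg.Agent.H09.DC

open Cfsg Cfsg.Agent.H27.Golay Cfsg.Agent.H07.Orb
open scoped Pointwise

/-- Conjugation of codes. -/
def pconj (t c : ℕ) : ℕ := pcomp (pcomp t c) (pinv t)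

theorem permOK_pconj {t c : ℕ} (ht : permOK t = true) (hc : permOK c = true) : permOK (pconj t c) = true :=
  permOK_pcomp (permOK_pcomp ht hc) (permOK_pinv ht)

theorem P_pconj {t c : ℕ} (ht : permOK t = true) (hc : permOK c = true) :
    P (pconj t c) = P t * P c * (P t)⁻¹ := by
  rw [pconj, P_pcomp (permOK_pcomp ht hc) (permOK_pinv ht), P_pcomp ht hc, P_pinv ht]

theorem idc_ok : permOK idCode = true := isM24_permOK idCode_spec

/-- A list of codes of a subgroup of a subgroup. -/
structure CodeSub (inG : ℕ → Bool) (cV : List ℕ) : Prop where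
  mem : allL inG cV = true
  one : cV.any (fun d => pEq d idCode) = true
  mul : allL (fun c => allL (fun c' => cV.any (fun d => pEq (pcomp c c') d)) cV) cV = true
  inv : allL (fun c => pEq (pcomp c c) idCode) cV = true

/-- Conjugators for a list. -/
def conjChk (inG : ℕ → Bool) (e : ℕ) (k c : ℕ) : Bool :=
  inG k && (pEq c idCode || pEq (pconj k e) c)

section

variable {G : Subgroup (Equiv.Perm GolayPt)} {inG : ℕ → Bool}
  (hin : ∀ c, inG c = true → P c ∈ G ∧ permOK c = true)

/-- An element from a code. -/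
noncomputable def mk (hin : ∀ c, inG c = true → P c ∈ G ∧ permOK c = true) (c : ℕ) (h : inG c = true) : ↥G :=
  ⟨P c, (hin c h).1⟩

@[simp] theorem coe_mk (c : ℕ) (h : inG c = true) : ((mk hin c h : ↥G) : Equiv.Perm GolayPt) = P c := rfl

/-- The subgroup of `G` attached to a list of codes. -/
noncomputable def Vs {cV : List ℕ} (hS : CodeSub inG cV) (hin : ∀ c, inG c = true → P c ∈ G ∧ permOK c = true) :
    Subgroup ↥G where
  carrier := {g | ∃ c ∈ cV, (g : Equiv.Perm GolayPt) = P c}
  mul_mem' := by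
    rintro a b ⟨c, hc, ea⟩ ⟨d, hd, eb⟩
    have hc' := (hin c (allL_spec hS.mem c hc)).2
    have hd' := (hin d (allL_spec hS.mem d hd)).2
    have h1 := allL_spec (allL_spec hS.mul c hc) d hd
    rw [List.any_eq_true] at h1
    obtain ⟨f, hf, h2⟩ := h1
    have hf' := (hin f (allL_spec hS.mem f hf)).2
    refine ⟨f, hf, ?_⟩
    have h3 := (pEq_iff (permOK_pcomp hc' hd') hf').1 h2
    rw [← h3, P_pcomp hc' hd']
    show (a : Equiv.Perm GolayPt) * b = _
    rw [ea, eb]
  one_mem' := by
    have h1 := hS.one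
    rw [List.any_eq_true] at h1
    obtain ⟨f, hf, h2⟩ := h1
    have hf' := (hin f (allL_spec hS.mem f hf)).2
    refine ⟨f, hf, ?_⟩
    rw [(pEq_iff hf' idc_ok).1 h2, P_idCode]
    rfl
  inv_mem' := by
    rintro a ⟨c, hc, ea⟩
    have hc' := (hin c (allL_spec hS.mem c hc)).2
    refine ⟨c, hc, ?_⟩
    have h2 := (pEq_iff (permOK_pcomp hc' hc') idc_ok).1 (allL_spec hS.inv c hc)
    rw [P_pcomp hc' hc', P_idCode] at h2
    show (a : Equiv.Perm GolayPt)⁻¹ = _
    rw [ea]
    exact inv_eq_of_mul_eq_one_right h2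

variable {cV : List ℕ} (hS : CodeSub inG cV)

theorem mem_Vs {g : ↥G} : g ∈ Vs hS hin ↔ ∃ c ∈ cV, (g : Equiv.Perm GolayPt) = P c := Iff.rfl

theorem Vs_sq : ∀ v ∈ Vs hS hin, v ^ 2 = 1 := by
  rintro v ⟨c, hc, e⟩
  have hc' := (hin c (allL_spec hS.mem c hc)).2
  have h2 := (pEq_iff (permOK_pcomp hc' hc') idc_ok).1 (allL_spec hS.inv c hc)
  rw [P_pcomp hc' hc', P_idCode] at h2
  apply Subtype.ext
  show (v : Equiv.Perm GolayPt) ^ 2 = 1
  rw [e, pow_two, h2]

theorem Vs_cj {e : ℕ} (he : inG e = true) {K : List ℕ} (hz : zipOK (fun c k => conjChk inG e k c) cV K = true) :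
    ∀ v ∈ Vs hS hin, v ≠ 1 → IsConj (mk hin e he) v := by
  rintro v ⟨c, hc, ev⟩ hv
  obtain ⟨k, -, hk⟩ := zipOK_spec hz c hc
  rw [conjChk, Bool.and_eq_true, Bool.or_eq_true] at hk
  obtain ⟨hk1, hk2⟩ := hk
  have hc' := (hin c (allL_spec hS.mem c hc)).2
  have hk' := (hin k hk1).2
  have he' := (hin e he).2
  rcases hk2 with h | h
  · exfalso
    apply hv
    apply Subtype.ext
    rw [ev, (pEq_iff hc' idc_ok).1 h, P_idCode]
    rfl
  · rw [isConj_iff]
    refine ⟨mk hin k hk1, Subtype.ext ?_⟩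
    have h3 := (pEq_iff (permOK_pconj hk' he') hc').1 h
    rw [P_pconj hk' he'] at h3
    show P k * P e * (P k)⁻¹ = _
    rw [h3, ev]

/-- The test for an element with no fixed points on the list, normalizing it. -/
def goodChk (cV : List ℕ) (t : ℕ) : Bool :=
  allL (fun c => cV.any (fun d => pEq (pconj t c) d)) cV &&
    allL (fun c => !pEq (pconj t c) c || pEq c idCode) cV

theorem good_of_chk {t : ℕ} (ht : inG t = true) (h : goodChk cV t = true) :
    Good (Vs hS hin) (mk hin t ht) := by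
  rw [goodChk, Bool.and_eq_true] at h
  have ht' := (hin t ht).2
  constructor
  · rintro v ⟨c, hc, ev⟩
    have hc' := (hin c (allL_spec hS.mem c hc)).2
    have h1 := allL_spec h.1 c hc
    rw [List.any_eq_true] at h1
    obtain ⟨d, hd, h2⟩ := h1
    have hd' := (hin d (allL_spec hS.mem d hd)).2
    refine ⟨d, hd, ?_⟩
    have h3 := (pEq_iff (permOK_pconj ht' hc') hd').1 h2
    rw [P_pconj ht' hc'] at h3
    rw [← h3, ← ev]
    rfl
  · rintro v ⟨c, hc, ev⟩ hfix
    have hc' := (hin c (allL_spec hS.mem c hc)).2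
    have h1 := allL_spec h.2 c hc
    have h2 : pEq (pconj t c) c = true := by
      refine (pEq_iff (permOK_pconj ht' hc') hc').2 ?_
      rw [P_pconj ht' hc', ← ev]
      exact congrArg Subtype.val hfix
    rw [h2, Bool.not_true, Bool.false_or] at h1
    apply Subtype.ext
    rw [ev, (pEq_iff hc' idc_ok).1 h1, P_idCode]
    rfl

/-- Codes of a list are distinct as permutations. -/
def sepChk (cV : List ℕ) : Bool :=
  allL (fun c => allL (fun d => Nat.beq c d || !pEq c d) cV) cV

theorem card_Vs (hn : cV.Nodup) (hsep : sepChk cV = true) : Nat.card (Vs hS hin) = cV.length := by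
  classical
  let f : {c // c ∈ cV} → Vs hS hin := fun c => ⟨⟨P c.1, (hin c.1 (allL_spec hS.mem c.1 c.2)).1⟩, c.1, c.2, rfl⟩
  have hf : Function.Bijective f := by
    constructor
    · rintro ⟨c, hc⟩ ⟨d, hd⟩ e
      have e1 : P c = P d := congrArg (fun x : Vs hS hin => ((x : ↥G) : Equiv.Perm GolayPt)) e
      have hc' := (hin c (allL_spec hS.mem c hc)).2
      have hd' := (hin d (allL_spec hS.mem d hd)).2
      have h1 := allL_spec (allL_spec hsep c hc) d hd
      rw [(pEq_iff hc' hd').2 e1, Bool.not_true, Bool.or_false] at h1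
      exact Subtype.ext (Nat.eq_of_beq_eq_true h1)
    · rintro ⟨⟨g, hg⟩, c, hc, e⟩
      refine ⟨⟨c, hc⟩, Subtype.ext (Subtype.ext ?_)⟩
      exact e.symm
  rw [← Nat.card_congr (Equiv.ofBijective f hf)]
  have e : {c // c ∈ cV} ≃ ↥cV.toFinset := Equiv.subtypeEquivRight (by simp)
  rw [Nat.card_congr e, Nat.card_eq_fintype_card, Fintype.card_coe, List.toFinset_card_of_nodup hn]

end

/-- A strictly larger subgroup has at least twice as many elements. -/
theorem strict_step {G : Type*} [Group G] [Finite G] {T : Subgroup G} {x : G} (h : x ∉ T) :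
    2 * Nat.card T ≤ Nat.card ↥(T ⊔ Subgroup.zpowers x) := by
  have hle : T ≤ T ⊔ Subgroup.zpowers x := le_sup_left
  have hd := Subgroup.card_dvd_of_le hle
  obtain ⟨k, hk⟩ := hd
  have hpos : 0 < Nat.card T := Nat.card_pos
  have hne : Nat.card ↥(T ⊔ Subgroup.zpowers x) ≠ Nat.card T := by
    intro e
    apply h
    have h2 := Subgroup.eq_of_le_of_card_ge hle (le_of_eq e)
    rw [h2]
    exact (le_sup_right : Subgroup.zpowers x ≤ T ⊔ Subgroup.zpowers x) (Subgroup.mem_zpowers x)
  have hk2 : k ≠ 0 := by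
    rintro rfl
    have := Nat.card_pos (α := ↥(T ⊔ Subgroup.zpowers x))
    omega
  have hk3 : k ≠ 1 := by
    rintro rfl
    omega
  rw [hk]
  nlinarith [show 2 ≤ k by omega]

section masks

variable {G : Subgroup (Equiv.Perm GolayPt)}

/-- The subgroup of `G` stabilising a set. -/
def maskSub (G : Subgroup (Equiv.Perm GolayPt)) (m : ℕ) : Subgroup ↥G :=
  (MulAction.stabilizer (Equiv.Perm GolayPt) (fs m)).comap G.subtype

theorem mem_maskSub {m : ℕ} {g : ↥G} : g ∈ maskSub G m ↔ (g : Equiv.Perm GolayPt) • fs m = fs m := Iff.rfl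

theorem mem_maskSub_code {m c : ℕ} {g : ↥G} (hg : (g : Equiv.Perm GolayPt) = P c) (hc : permOK c = true)
    (h : am c m = m) : g ∈ maskSub G m := by
  rw [mem_maskSub, hg, ← fs_am hc, h]

theorem not_mem_maskSub_code {m c : ℕ} {g : ↥G} (hg : (g : Equiv.Perm GolayPt) = P c) (hc : permOK c = true)
    (h : am c m ≠ m) (h1 : am c m < 2 ^ 24) (h2 : m < 2 ^ 24) : g ∉ maskSub G m := by
  rw [mem_maskSub, hg, ← fs_am hc]
  intro e
  exact h (fs_injOn h1 h2 e)

end masks

end Cfsg.Agent.H09.DC
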