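import Cfsg.Agent.Lib.H09.Thompson
import Cfsg.Agent.Lib.H09.KFinal

/-! An elementary form of the Hall--Higman argument for abelian groups of automorphisms. -/

set_option autoImplicit false
set_option linter.unusedSectionVars false
set_option linter.unusedVariables false

namespace Cfsg.Agent.H09

open Cfsg
open scoped commutatorElement

section Abstract
variable {p : ℕ} [hp : Fact p.Prime] {M : Type*} [CommGroup M] [Finite M]

/-- The twisted commutator. -/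
def twc (e c : MulAut M) : MulAut M := c⁻¹ * e * c * e⁻¹

theorem twc_mul {𝔸 : Subgroup (MulAut M)} (hcomm : ∀ a ∈ 𝔸, ∀ b ∈ 𝔸, a * b = b * a) {e : MulAut M}
    (he : ∀ a ∈ 𝔸, e * a * e⁻¹ ∈ 𝔸) {c a : MulAut M} (hc : c ∈ 𝔸) (ha : a ∈ 𝔸) :
    twc e c * twc e a = twc e (c * a) := by
  unfold twc
  have h1 := hcomm _ (𝔸.inv_mem hc) _ (𝔸.inv_mem ha)
  have h2 : e * c * e⁻¹ * a⁻¹ = a⁻¹ * (e * c * e⁻¹) := hcomm _ (he c hc) _ (𝔸.inv_mem ha)
  calc c⁻¹ * e * c * e⁻¹ * (a⁻¹ * e * a * e⁻¹)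
      = c⁻¹ * (e * c * e⁻¹ * a⁻¹) * (e * a * e⁻¹) := by group
    _ = c⁻¹ * (a⁻¹ * (e * c * e⁻¹)) * (e * a * e⁻¹) := by rw [h2]
    _ = (c⁻¹ * a⁻¹) * e * (c * a) * e⁻¹ := by group
    _ = (a⁻¹ * c⁻¹) * e * (c * a) * e⁻¹ := by rw [h1]
    _ = (c * a)⁻¹ * e * (c * a) * e⁻¹ := by group

/-- The twisted sum. -/
noncomputable def twB (𝔸 : Subgroup (MulAut M)) [Fintype 𝔸] (e : MulAut M) (y : M) : M :=
  ∏ a : 𝔸, twc e (a : MulAut M) y

theorem twc_fix {𝔸 : Subgroup (MulAut M)} [Fintype 𝔸] (hcomm : ∀ a ∈ 𝔸, ∀ b ∈ 𝔸, a * b = b * a)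
    {e : MulAut M} (he : ∀ a ∈ 𝔸, e * a * e⁻¹ ∈ 𝔸) {c : MulAut M} (hc : c ∈ 𝔸) (y : M) :
    twc e c (twB 𝔸 e y) = twB 𝔸 e y := by
  unfold twB
  rw [map_prod]
  have h1 : ∀ a : 𝔸, twc e c (twc e (a : MulAut M) y) = twc e ((⟨c, hc⟩ * a : 𝔸) : MulAut M) y := by
    intro a
    have := twc_mul hcomm he hc a.2
    rw [← MulAut.mul_apply, this]
    rfl
  simp only [h1]
  exact Fintype.prod_equiv (Equiv.mulLeft (⟨c, hc⟩ : 𝔸)) _ _ (fun _ => rfl)

theorem twc_pow_fix {𝔸 : Subgroup (MulAut M)} [Fintype 𝔸] (hcomm : ∀ a ∈ 𝔸, ∀ b ∈ 𝔸, a * b = b * a)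
    {e : MulAut M} (he : ∀ a ∈ 𝔸, e * a * e⁻¹ ∈ 𝔸) (k : ℕ) {c : MulAut M} (hc : c ∈ 𝔸) (y : M) :
    twc (e ^ k) c (twB 𝔸 e y) = twB 𝔸 e y := by
  induction k generalizing c with
  | zero =>
    have : twc (e ^ 0) c = 1 := by
      unfold twc
      simp
    rw [this]
    rfl
  | succ k ih =>
    -- `twc (e ^ (k+1)) c = twc (e^k) c * twc e (e^k c e^-k)`
    have hek : ∀ k : ℕ, e ^ k * c * (e ^ k)⁻¹ ∈ 𝔸 := by
      intro k
      induction k with
      | zero => simpa using hc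
      | succ k ih2 =>
        have h3 := he _ ih2
        have e3 : e * (e ^ k * c * (e ^ k)⁻¹) * e⁻¹ = e ^ (k + 1) * c * (e ^ (k + 1))⁻¹ := by
          rw [pow_succ']; group
        rwa [e3] at h3
    have e1 : twc (e ^ (k + 1)) c = twc (e ^ k) c * twc e (e ^ k * c * (e ^ k)⁻¹) := by
      unfold twc
      rw [pow_succ']
      group
    rw [e1, MulAut.mul_apply, twc_fix hcomm he (hek k), ih hc]

/-- The Hall--Higman type statement: an automorphism with vanishing norm normalizing an abelian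
group of automorphisms of order prime to `p` centralizes it. -/
theorem hh_abelian (hMp : ∀ v : M, v ^ p = 1) (𝔸 : Subgroup (MulAut M))
    (hcomm : ∀ a ∈ 𝔸, ∀ b ∈ 𝔸, a * b = b * a) (hcop : (Nat.card 𝔸).Coprime p) (γ : MulAut M)
    (hγ : ∀ a ∈ 𝔸, γ * a * γ⁻¹ ∈ 𝔸) (hτ : ∀ v : M, ∏ i ∈ Finset.range p, (γ ^ i) v = 1) :
    γ ^ p = 1 ∧ ∀ a ∈ 𝔸, γ * a * γ⁻¹ = a := by
  classical
  haveI : Fintype 𝔸 := Fintype.ofFinite _
  have hp' : p.Prime := hp.out
  have hγp : γ ^ p = 1 := by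
    ext v
    have h1 := hτ v
    have h2 : ∏ i ∈ Finset.range p, (γ ^ (i + 1)) v = 1 := by
      have h3 := congrArg γ (hτ v)
      rw [map_prod, map_one] at h3
      rw [← h3]
      refine Finset.prod_congr rfl (fun i _ => ?_)
      rw [pow_succ']
      rfl
    have h3 := Finset.prod_range_succ (fun i => (γ ^ i) v) p
    have h4 := Finset.prod_range_succ' (fun i => (γ ^ i) v) p
    rw [h1, one_mul] at h3
    rw [h2, one_mul, pow_zero] at h4
    rw [← h3, h4]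
  refine ⟨hγp, ?_⟩
  have hpow : ∀ (k : ℕ), ∀ a ∈ 𝔸, γ ^ k * a * (γ ^ k)⁻¹ ∈ 𝔸 := by
    intro k a ha
    induction k with
    | zero => simpa using ha
    | succ k ih =>
      have h3 := hγ _ ih
      have e3 : γ * (γ ^ k * a * (γ ^ k)⁻¹) * γ⁻¹ = γ ^ (k + 1) * a * (γ ^ (k + 1))⁻¹ := by
        rw [pow_succ']; group
      rwa [e3] at h3
  intro a₀ ha₀
  -- the basic identity
  have hbasic : ∀ (v : M), ∏ i ∈ Finset.range p, twB 𝔸 (γ ^ i) ((γ ^ i) v) = 1 := by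
    intro v
    unfold twB
    rw [Finset.prod_comm]
    refine Finset.prod_eq_one ?_
    intro a _
    have h1 : ∀ i, twc (γ ^ i) (a : MulAut M) ((γ ^ i) v) = (a : MulAut M)⁻¹ ((γ ^ i) ((a : MulAut M) v)) := by
      intro i
      unfold twc
      simp only [MulAut.mul_apply, MulAut.inv_apply_self]
    simp only [h1]
    rw [← map_prod, hτ, map_one]
  have hfix : ∀ (i : ℕ), i + 1 < p → ∀ y : M, twc γ a₀ (twB 𝔸 (γ ^ (i + 1)) y) = twB 𝔸 (γ ^ (i + 1)) y := by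
    intro i hi y
    have hcop2 : Nat.Coprime (i + 1) p :=
      ((Nat.Prime.coprime_iff_not_dvd hp').2 (Nat.not_dvd_of_pos_of_lt (by omega) hi)).symm
    obtain ⟨k, -, hk⟩ := Nat.exists_mul_mod_eq_one_of_coprime hcop2 hp'.one_lt
    have e1 : (γ ^ (i + 1)) ^ k = γ := by
      rw [← pow_mul]
      conv_lhs => rw [← Nat.mod_add_div ((i + 1) * k) p, hk, pow_add, pow_mul, hγp, one_pow, mul_one,
        pow_one]
    have h2 := twc_pow_fix (𝔸 := 𝔸) hcomm (e := γ ^ (i + 1)) (hpow (i + 1)) k ha₀ y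
    rwa [e1] at h2
  obtain ⟨q, hq⟩ : ∃ q, p = q + 1 := ⟨p - 1, by have := hp'.pos; omega⟩
  have hd : twc γ a₀ = 1 := by
    ext v
    have h1 := hbasic v
    have hsplit := Finset.prod_range_succ' (fun i => twB 𝔸 (γ ^ i) ((γ ^ i) v)) q
    rw [← hq, h1] at hsplit
    have h0 : twB 𝔸 (γ ^ 0) ((γ ^ 0) v) = v ^ Nat.card 𝔸 := by
      unfold twB
      have : ∀ a : 𝔸, twc (γ ^ 0) (a : MulAut M) ((γ ^ 0) v) = v := by
        intro a
        unfold twc
        simp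
      simp only [this]
      rw [Finset.prod_const, Finset.card_univ, Nat.card_eq_fintype_card]
    rw [h0] at hsplit
    have hF : twc γ a₀ (∏ i ∈ Finset.range q, twB 𝔸 (γ ^ (i + 1)) ((γ ^ (i + 1)) v)) =
        ∏ i ∈ Finset.range q, twB 𝔸 (γ ^ (i + 1)) ((γ ^ (i + 1)) v) := by
      rw [map_prod]
      refine Finset.prod_congr rfl (fun i hi => ?_)
      exact hfix i (by rw [Finset.mem_range] at hi; omega) _
    have h3 : twc γ a₀ (v ^ Nat.card 𝔸) = v ^ Nat.card 𝔸 := by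
      have h4 : v ^ Nat.card 𝔸 = (∏ i ∈ Finset.range q, twB 𝔸 (γ ^ (i + 1)) ((γ ^ (i + 1)) v))⁻¹ :=
        eq_inv_of_mul_eq_one_right hsplit.symm
      rw [h4, map_inv, hF]
    rw [map_pow] at h3
    have h5 : (twc γ a₀ v * v⁻¹) ^ Nat.card 𝔸 = 1 := by
      rw [mul_pow, h3, inv_pow, mul_inv_cancel]
    have h6 : (twc γ a₀ v * v⁻¹) ^ p ^ 1 = 1 := by
      rw [pow_one]
      exact hMp _
    have h7 := H14.eq_one_of_pow_of_coprime h6 h5 hcop
    exact mul_inv_eq_one.1 h7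
  unfold twc at hd
  have h8 : γ * a₀ * γ⁻¹ = a₀ := by
    calc γ * a₀ * γ⁻¹ = a₀ * (a₀⁻¹ * γ * a₀ * γ⁻¹) := by group
      _ = a₀ := by rw [hd, mul_one]
  exact h8

end Abstract

section Act
variable {p : ℕ} [hp : Fact p.Prime] {Γ : Type*} [Group Γ] [Finite Γ]

/-- A normal subgroup acting as a `p`-group on a minimal normal `p`-subgroup centralizes it. -/
theorem central_minimal (W : Subgroup Γ) (hWn : W.Normal) (hW : IsPGroup p W) (hne : W ≠ ⊥)
    (hmin : ∀ N : Subgroup Γ, N.Normal → N ≤ W → N = ⊥ ∨ N = W) (R : Subgroup Γ) (hRn : R.Normal)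
    (hR : ∀ r ∈ R, ∃ k : ℕ, ∀ w ∈ W, r ^ (p ^ k) * w * (r ^ (p ^ k))⁻¹ = w) :
    ∀ r ∈ R, ∀ w ∈ W, r * w * r⁻¹ = w := by
  classical
  haveI := hWn
  let Φ : Γ →* MulAut W := MulAut.conjNormal
  have hΦ : ∀ (g : Γ) (w : W), ((Φ g w : W) : Γ) = g * w * g⁻¹ := fun g w => MulAut.conjNormal_apply g w
  set 𝔸 : Subgroup (MulAut W) := R.map Φ with h𝔸
  have h𝔸p : IsPGroup p 𝔸 := by
    rintro ⟨_, r, hr, rfl⟩
    obtain ⟨k, hk⟩ := hR r hr
    refine ⟨k, Subtype.ext ?_⟩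
    show (Φ r) ^ (p ^ k) = 1
    ext w
    rw [← map_pow, hΦ]
    simpa using hk w w.2
  haveI : Nontrivial W := by
    rw [Subgroup.nontrivial_iff_ne_bot]; exact hne
  have hcard : p ∣ Nat.card W := by
    obtain ⟨n, hn0, hn⟩ := hW.nontrivial_iff_card.mp inferInstance
    rw [hn]
    exact dvd_pow_self _ (ne_of_gt hn0)
  have hone : (1 : W) ∈ MulAction.fixedPoints 𝔸 W := by
    intro o
    show (o : MulAut W) 1 = 1
    exact map_one _
  obtain ⟨b, hb, hb1⟩ := h𝔸p.exists_fixed_point_of_prime_dvd_card_of_fixed_point W hcard hone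
  have hbR : (b : Γ) ∈ Subgroup.centralizer (R : Set Γ) := by
    rw [Subgroup.mem_centralizer_iff]
    intro r hr
    have h1 : (⟨Φ r, r, hr, rfl⟩ : 𝔸) • b = b := hb _
    have h2 : Φ r b = b := h1
    have h3 := hΦ r b
    rw [h2] at h3
    have h4 : r * (b : Γ) = b * r := by
      rw [eq_mul_inv_iff_mul_eq] at h3
      exact h3.symm
    exact h4
  have hCn : (Subgroup.centralizer (R : Set Γ)).Normal := centralizer_normal_of_normal hRn
  have hFn : (W ⊓ Subgroup.centralizer (R : Set Γ)).Normal := by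
    haveI := hCn; infer_instance
  have hFW : W ⊓ Subgroup.centralizer (R : Set Γ) = W := by
    rcases hmin _ hFn inf_le_left with h | h
    · exfalso
      have : (b : Γ) ∈ W ⊓ Subgroup.centralizer (R : Set Γ) := ⟨b.2, hbR⟩
      rw [h, Subgroup.mem_bot] at this
      exact hb1 (Subtype.ext this.symm)
    · exact h
  intro r hr w hw
  have hw' : w ∈ W := hw
  rw [← hFW] at hw'
  have h5 := Subgroup.mem_centralizer_iff.1 hw'.2 r hr
  rw [h5]
  group

end Act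

section Chief
variable {p : ℕ} [hp : Fact p.Prime] {Y : Type*} [Group Y] [Finite Y]

/-- The image of a chief factor in the quotient is a minimal normal subgroup. -/
theorem chief_quot {U V : Subgroup Y} (hc : IsChiefFactor U V) [hV : V.Normal] :
    (U.map (QuotientGroup.mk' V)).Normal ∧ U.map (QuotientGroup.mk' V) ≠ ⊥ ∧
      ∀ N : Subgroup (Y ⧸ V), N.Normal → N ≤ U.map (QuotientGroup.mk' V) →
        N = ⊥ ∨ N = U.map (QuotientGroup.mk' V) := by
  obtain ⟨hlt, hUn, -, hmin⟩ := hc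
  let π := QuotientGroup.mk' V
  have hπ : Function.Surjective π := QuotientGroup.mk'_surjective V
  have hker : π.ker = V := QuotientGroup.ker_mk' V
  set W := U.map π with hW
  have hWn : W.Normal := hUn.map π hπ
  have hne : W ≠ ⊥ := by
    intro hb
    obtain ⟨u, hu, huV⟩ := SetLike.exists_of_lt hlt
    apply huV
    have : π u ∈ W := ⟨u, hu, rfl⟩
    rw [hb, Subgroup.mem_bot] at this
    rw [← hker]
    exact this
  refine ⟨hWn, hne, ?_⟩
  intro N hN hNW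
  have hVN : V ≤ N.comap π := by
    intro v hv
    have : π v = 1 := by
      have h3 : v ∈ π.ker := by rw [hker]; exact hv
      exact h3
    show π v ∈ N
    rw [this]; exact N.one_mem
  have hNU : N.comap π ≤ U := by
    intro x hx
    obtain ⟨u, hu, he⟩ := hNW hx
    have h3 : u⁻¹ * x ∈ π.ker := by
      show π (u⁻¹ * x) = 1
      rw [map_mul, map_inv, he, inv_mul_cancel]
    rw [hker] at h3
    have := U.mul_mem hu (hlt.le h3)
    simpa using this
  have hmp : (N.comap π).map π = N := Subgroup.map_comap_eq_self_of_surjective hπ N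
  rcases hmin _ (hN.comap π) hVN hNU with h3 | h3
  · left
    rw [← hmp, h3, Subgroup.map_eq_bot_iff, hker]
  · right
    rw [← hmp, h3]

/-- A normal subgroup acting as a `p`-group on a chief `p`-factor acts trivially. -/
theorem chief_trivial_of_p {U V : Subgroup Y} (hc : IsChiefFactor U V) (hUp : IsPGroup p U)
    (R : Subgroup Y) (hRn : R.Normal)
    (hR : ∀ r ∈ R, ∃ k : ℕ, ∀ u ∈ U, r ^ (p ^ k) * u * (r ^ (p ^ k))⁻¹ * u⁻¹ ∈ V) :
    ∀ r ∈ R, ∀ u ∈ U, r * u * r⁻¹ * u⁻¹ ∈ V := by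
  classical
  haveI hVn : V.Normal := hc.2.2.1
  obtain ⟨hWn, hne, hmin⟩ := chief_quot hc
  let π := QuotientGroup.mk' V
  have hπ : Function.Surjective π := QuotientGroup.mk'_surjective V
  have hπ1 : ∀ x : Y, π x = 1 ↔ x ∈ V := fun x => QuotientGroup.eq_one_iff x
  have key := central_minimal (p := p) (U.map π) hWn (hUp.map π) hne hmin (R.map π)
    (hRn.map π hπ) (by
      rintro _ ⟨r, hr, rfl⟩
      obtain ⟨k, hk⟩ := hR r hr
      refine ⟨k, ?_⟩
      rintro _ ⟨u, hu, rfl⟩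
      have h1 := (hπ1 _).2 (hk u hu)
      simp only [map_mul, map_inv, map_pow] at h1
      exact mul_inv_eq_one.1 h1)
  intro r hr u hu
  have h2 := key (π r) ⟨r, hr, rfl⟩ (π u) ⟨u, hu, rfl⟩
  rw [← hπ1]
  simp only [map_mul, map_inv]
  rw [h2]
  group

/-- The main local statement: on a chief `p`-factor an element with `p - 1` commutators acts on an
abelian section of order prime to `p` trivially, and has `p`-th power acting trivially. -/
theorem hh_chief {U V : Subgroup Y} (hc : IsChiefFactor U V) (hUp : IsPGroup p U)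
    {X Q : Subgroup Y} (hXn : X.Normal) (hQn : Q.Normal) (hQp : IsPGroup p Q)
    (hXQ : ∀ a ∈ X, ∀ b ∈ X, a * b * a⁻¹ * b⁻¹ ∈ Q)
    (hm : ∃ m : ℕ, m.Coprime p ∧ ∀ x ∈ X, x ^ m ∈ Q) {g : Y}
    (hg : iterCommutator U (Subgroup.zpowers g) (p - 1) ≤ V) :
    (∀ x ∈ X, ∀ u ∈ U, (g * x * g⁻¹ * x⁻¹) * u * (g * x * g⁻¹ * x⁻¹)⁻¹ * u⁻¹ ∈ V) ∧
      ∀ u ∈ U, g ^ p * u * (g ^ p)⁻¹ * u⁻¹ ∈ V := by
  classical
  have hUn : U.Normal := hc.2.1
  haveI hVn : V.Normal := hc.2.2.1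
  obtain ⟨hab, hexp⟩ := chief_elementary hc hUp
  have hQact : ∀ r ∈ Q, ∀ u ∈ U, r * u * r⁻¹ * u⁻¹ ∈ V := by
    refine chief_trivial_of_p hc hUp Q hQn ?_
    intro r hr
    obtain ⟨k, hk⟩ := hQp ⟨r, hr⟩
    have hk' : r ^ p ^ k = 1 := congrArg Subtype.val hk
    refine ⟨k, fun u hu => ?_⟩
    rw [hk']
    simp
  obtain ⟨hWn, hne, hmin⟩ := chief_quot hc
  let π := QuotientGroup.mk' V
  have hπ1 : ∀ x : Y, π x = 1 ↔ x ∈ V := fun x => QuotientGroup.eq_one_iff x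
  set W := U.map π with hW
  haveI := hWn
  letI instC : CommGroup W :=
    { (inferInstance : Group W) with
      mul_comm := by
        rintro ⟨_, a, ha, rfl⟩ ⟨_, b, hb, rfl⟩
        apply Subtype.ext
        show π a * π b = π b * π a
        have h1 := (hπ1 _).2 (hab a ha b hb)
        simp only [map_mul, map_inv] at h1
        calc π a * π b = (π a * π b * (π a)⁻¹ * (π b)⁻¹) * (π b * π a) := by group
          _ = π b * π a := by rw [h1, one_mul] }
  haveI : Finite W := inferInstance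
  let Φ : (Y ⧸ V) →* MulAut W := MulAut.conjNormal
  have hΦ : ∀ (g : Y ⧸ V) (w : W), ((Φ g w : W) : Y ⧸ V) = g * w * g⁻¹ :=
    fun g w => MulAut.conjNormal_apply g w
  let ρ : Y →* MulAut W := Φ.comp π
  have hρ : ∀ (y : Y) (u : Y) (hu : π u ∈ W), ((ρ y ⟨π u, hu⟩ : W) : Y ⧸ V) = π (y * u * y⁻¹) := by
    intro y u hu
    show ((Φ (π y) ⟨π u, hu⟩ : W) : Y ⧸ V) = _
    rw [hΦ]
    simp only [map_mul, map_inv]
  have hρ1 : ∀ y : Y, (∀ u ∈ U, y * u * y⁻¹ * u⁻¹ ∈ V) → ρ y = 1 := by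
    intro y hy
    ext ⟨_, u, hu, rfl⟩
    refine (hρ y u ⟨u, hu, rfl⟩).trans ?_
    have h1 := (hπ1 _).2 (hy u hu)
    rw [map_mul, map_inv] at h1
    exact mul_inv_eq_one.1 h1
  have hρ2 : ∀ y : Y, ρ y = 1 → ∀ u ∈ U, y * u * y⁻¹ * u⁻¹ ∈ V := by
    intro y hy u hu
    rw [← hπ1, map_mul, map_inv, mul_inv_eq_one]
    have h1 := hρ y u ⟨u, hu, rfl⟩
    rw [hy] at h1
    exact h1.symm
  have hρQ : ∀ r ∈ Q, ρ r = 1 := fun r hr => hρ1 r (hQact r hr)
  set 𝔸 : Subgroup (MulAut W) := X.map ρ with h𝔸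
  obtain ⟨m, hmc, hmX⟩ := hm
  have hcomm : ∀ a ∈ 𝔸, ∀ b ∈ 𝔸, a * b = b * a := by
    rintro _ ⟨a, ha, rfl⟩ _ ⟨b, hb, rfl⟩
    have h1 := hρQ _ (hXQ a ha b hb)
    simp only [map_mul, map_inv] at h1
    calc ρ a * ρ b = (ρ a * ρ b * (ρ a)⁻¹ * (ρ b)⁻¹) * (ρ b * ρ a) := by group
      _ = ρ b * ρ a := by rw [h1, one_mul]
  have hcop : (Nat.card 𝔸).Coprime p := by
    by_contra hn
    have hd : p ∣ Nat.card 𝔸 := by
      rw [Nat.coprime_comm, Nat.Prime.coprime_iff_not_dvd hp.out] at hn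
      exact not_not.1 hn
    obtain ⟨a, ha⟩ := exists_prime_orderOf_dvd_card' (G := 𝔸) p hd
    obtain ⟨x, hx, hxa⟩ := a.2
    have h1 : (ρ x) ^ m = 1 := by
      rw [← map_pow]
      exact hρQ _ (hmX x hx)
    have h2 : a ^ m = 1 := by
      apply Subtype.ext
      show (a : MulAut W) ^ m = 1
      rw [← hxa]
      exact h1
    have h3 : p ∣ m := by
      rw [← ha]
      exact orderOf_dvd_of_pow_eq_one h2
    have h4 := Nat.Coprime.eq_one_of_dvd hmc.symm h3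
    exact hp.out.one_lt.ne' h4
  have hγ : ∀ a ∈ 𝔸, ρ g * a * (ρ g)⁻¹ ∈ 𝔸 := by
    rintro _ ⟨x, hx, rfl⟩
    refine ⟨g * x * g⁻¹, hXn.conj_mem x hx g, ?_⟩
    simp only [map_mul, map_inv]
  -- the norm
  let ψ : U →* W := π.subgroupMap U
  have hψ : ∀ t : U, (t : Y) ∈ V → ψ t = 1 := by
    intro t ht
    apply Subtype.ext
    exact (hπ1 _).2 ht
  have hτ : ∀ v : W, ∏ i ∈ Finset.range p, ((ρ g) ^ i) v = 1 := by
    rintro ⟨_, u, hu, rfl⟩
    have h1 := chief_norm (p := p) (A' := W) hUn hVn hab hexp g hg (le_refl 1) ψ hψ ⟨u, hu⟩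
    rw [pow_one] at h1
    rw [← h1]
    refine Finset.prod_congr rfl (fun i _ => ?_)
    apply Subtype.ext
    rw [← map_pow]
    refine (hρ (g ^ i) u ⟨u, hu, rfl⟩).trans ?_
    rfl
  have hMp : ∀ v : W, v ^ p = 1 := by
    rintro ⟨_, u, hu, rfl⟩
    apply Subtype.ext
    show (π u) ^ p = 1
    rw [← map_pow]
    exact (hπ1 _).2 (hexp u hu)
  obtain ⟨hg1, hg2⟩ := hh_abelian (p := p) hMp 𝔸 hcomm hcop (ρ g) hγ hτ
  refine ⟨?_, ?_⟩
  · intro x hx u hu
    refine hρ2 _ ?_ u hu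
    have h1 := hg2 (ρ x) ⟨x, hx, rfl⟩
    simp only [map_mul, map_inv]
    rw [h1, mul_inv_cancel]
  · refine hρ2 _ ?_
    rw [map_pow, hg1]

end Chief

/-- The criterion for membership in `O_p`. -/
theorem mem_pCore_of_comm {B : Type*} [Group B] [Finite B] {p : ℕ} [hp : Fact p.Prime]
    (S : Sylow p B) (X : Subgroup B) (hX : X.Normal)
    (hXS : X ⊔ (S : Subgroup B) = ⊤) {z : B} (hz : z ∈ (S : Subgroup B))
    (hzX : ∀ x ∈ X, x * z * x⁻¹ * z⁻¹ ∈ pCore p B) : z ∈ pCore p B := by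
  classical
  set O := pCore p B with hO
  haveI hOn : O.Normal := H01.pCore_normal p
  have hOS : O ≤ S := H01.pCore_le_sylow p S
  let π := QuotientGroup.mk' O
  have hπ : Function.Surjective π := QuotientGroup.mk'_surjective O
  have hπ1 : ∀ x : B, π x = 1 ↔ x ∈ O := fun x => QuotientGroup.eq_one_iff x
  have hXb : (X.map π).Normal := hX.map π hπ
  let E : Subgroup B := (Subgroup.centralizer ((X.map π : Subgroup (B ⧸ O)) : Set (B ⧸ O))).comap π
  have hEn : E.Normal := (centralizer_normal_of_normal hXb).comap π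
  have hEmem : ∀ b : B, b ∈ E ↔ ∀ x ∈ X, x * b * x⁻¹ * b⁻¹ ∈ O := by
    intro b
    show π b ∈ Subgroup.centralizer _ ↔ _
    rw [Subgroup.mem_centralizer_iff]
    constructor
    · intro h x hx
      rw [← hπ1]
      simp only [map_mul, map_inv]
      rw [h (π x) ⟨x, hx, rfl⟩]
      group
    · rintro h _ ⟨x, hx, rfl⟩
      have h1 := (hπ1 _).2 (h x hx)
      simp only [map_mul, map_inv] at h1
      calc π x * π b = (π x * π b * (π x)⁻¹ * (π b)⁻¹) * (π b * π x) := by group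
        _ = π b * π x := by rw [h1, one_mul]
  let R : Subgroup B := (S : Subgroup B) ⊓ E
  have hRn : R.Normal := by
    refine ⟨?_⟩
    rintro r ⟨hr1, hr2⟩ y
    have hy : y ∈ ((S : Subgroup B) ⊔ X : Subgroup B) := by
      rw [sup_comm, hXS]; exact Subgroup.mem_top y
    rw [← SetLike.mem_coe, Subgroup.mul_normal (H := (S : Subgroup B)) (N := X)] at hy
    obtain ⟨s, hs, x, hx, rfl⟩ := Set.mem_mul.1 hy
    refine ⟨?_, hEn.conj_mem r hr2 _⟩
    have h1 := (hEmem r).1 hr2 x hx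
    have e : s * x * r * (s * x)⁻¹ = s * ((x * r * x⁻¹ * r⁻¹) * r) * s⁻¹ := by group
    show s * x * r * (s * x)⁻¹ ∈ (S : Subgroup B)
    rw [e]
    exact S.toSubgroup.mul_mem (S.toSubgroup.mul_mem hs (S.toSubgroup.mul_mem (hOS h1) hr1))
      (S.toSubgroup.inv_mem hs)
  have hRO : R ≤ O := H01.le_pCore hRn (S.isPGroup'.to_le inf_le_left)
  exact hRO ⟨hz, (hEmem z).2 hzX⟩

end Cfsg.Agent.H09
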