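import Mathlib
import Cfsg.Agent.Lib.H09.Dick13

/-! The `{2,3}`-part of a number and Hall `{2,3}`-subgroups of `PSL₂`. -/

set_option autoImplicit false
set_option linter.style.haveILetI false
set_option linter.unusedSectionVars false
set_option linter.unusedSimpArgs false
set_option linter.unusedVariables false

namespace Cfsg.Agent.H09.Dick

open Cfsg.Agent.H11.SL2X

/-- The `{2,3}`-part. -/
def part23 (m : ℕ) : ℕ := 2 ^ m.factorization 2 * 3 ^ m.factorization 3

lemma part23_mul {a b : ℕ} (ha : a ≠ 0) (hb : b ≠ 0) : part23 (a * b) = part23 a * part23 b := by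
  simp only [part23, Nat.factorization_mul ha hb, Finsupp.add_apply, pow_add]
  ring

lemma part23_of_not_dvd {b : ℕ} (h2 : ¬ 2 ∣ b) (h3 : ¬ 3 ∣ b) : part23 b = 1 := by
  simp [part23, Nat.factorization_eq_zero_of_not_dvd h2, Nat.factorization_eq_zero_of_not_dvd h3]

lemma part23_two : part23 2 = 2 := by
  have h1 : Nat.factorization 2 2 = 1 := Nat.prime_two.factorization_self
  have h2 : Nat.factorization 2 3 = 0 := Nat.factorization_eq_zero_of_not_dvd (by norm_num)
  simp [part23, h1, h2]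

lemma part23_dvd (m : ℕ) : part23 m ∣ m :=
  Nat.Coprime.mul_dvd_of_dvd_of_dvd (Nat.Coprime.pow _ _ (by norm_num)) (Nat.ordProj_dvd m 2) (Nat.ordProj_dvd m 3)

lemma part23_ne_zero (m : ℕ) : part23 m ≠ 0 := by
  unfold part23
  positivity

lemma exists_rest {m : ℕ} (hm : m ≠ 0) : ∃ b, m = part23 m * b ∧ ¬ 2 ∣ b ∧ ¬ 3 ∣ b := by
  obtain ⟨b, hb⟩ := part23_dvd m
  refine ⟨b, hb, ?_, ?_⟩
  · rintro ⟨c, rfl⟩
    apply Nat.pow_succ_factorization_not_dvd hm Nat.prime_two
    refine ⟨3 ^ m.factorization 3 * c, ?_⟩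
    conv_rhs => rw [mul_comm]
    conv_lhs => rw [hb]
    unfold part23
    ring_nf
  · rintro ⟨c, rfl⟩
    apply Nat.pow_succ_factorization_not_dvd hm Nat.prime_three
    refine ⟨2 ^ m.factorization 2 * c, ?_⟩
    conv_lhs => rw [hb]
    unfold part23
    ring_nf

lemma part23_of_primes {h : ℕ} (h0 : h ≠ 0) (hp : ∀ r : ℕ, r.Prime → r ∣ h → r = 2 ∨ r = 3) : part23 h = h := by
  obtain ⟨b, hb, h2, h3⟩ := exists_rest h0
  have hb1 : b = 1 := by
    by_contra hne
    obtain ⟨r, hr, hd⟩ := Nat.exists_prime_and_dvd hne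
    rcases hp r hr (hd.trans (Dvd.intro_left _ hb.symm)) with rfl | rfl
    · exact h2 hd
    · exact h3 hd
  rw [hb1, mul_one] at hb
  exact hb.symm

lemma primes_of_dvd_part {h m : ℕ} (hd : h ∣ part23 m) (r : ℕ) (hr : r.Prime) (hrh : r ∣ h) : r = 2 ∨ r = 3 := by
  have h1 : r ∣ part23 m := hrh.trans hd
  unfold part23 at h1
  rcases (Nat.Prime.dvd_mul hr).1 h1 with h2 | h2
  · left
    exact (Nat.prime_dvd_prime_iff_eq hr Nat.prime_two).1 (hr.dvd_of_dvd_pow h2)
  · right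
    exact (Nat.prime_dvd_prime_iff_eq hr Nat.prime_three).1 (hr.dvd_of_dvd_pow h2)

section hall

variable {F : Type*} [Field F] [Fintype F]

/-- Hall `{2,3}`-subgroups by order. -/
theorem hall_iff {q : ℕ} (hF : Fintype.card F = q) (h2 : ¬ 2 ∣ q) (h3 : ¬ 3 ∣ q) (h5 : 5 ≤ q) (H : Subgroup (PS2 F)) :
    Cfsg.IsPiHall ({2, 3} : Set ℕ) H ↔ 2 * Nat.card H = part23 (q ^ 2 - 1) := by
  have hq2 : 2 ≤ q := by omega
  have hN := card_PS2 F
  rw [hF] at hN
  have hd : Nat.gcd 2 (q - 1) = 2 := by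
    rcases gcd_two_cases hq2 with ⟨h4, ⟨r, hr⟩⟩ | ⟨h4, -⟩
    · exfalso
      exact h2 ⟨r, by omega⟩
    · exact h4
  rw [hd] at hN
  have hn0 : q ^ 2 - 1 ≠ 0 := by
    have : 25 ≤ q ^ 2 := by nlinarith
    omega
  obtain ⟨B, hB, hB2, hB3⟩ := exists_rest hn0
  obtain ⟨A, hA⟩ : ∃ A, A = part23 (q ^ 2 - 1) := ⟨_, rfl⟩
  rw [← hA] at hB ⊢
  have hA0 : A ≠ 0 := hA ▸ part23_ne_zero _
  have hc := Subgroup.card_mul_index H
  have hG : 2 * (Nat.card H * H.index) = q * (A * B) := by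
    rw [hc, ← hB, mul_comm]
    exact hN
  have hH0 : Nat.card H ≠ 0 := Nat.card_pos.ne'
  have hI0 : H.index ≠ 0 := Subgroup.index_ne_zero_of_finite
  have hB0 : B ≠ 0 := by
    rintro rfl
    exact hn0 (by rw [hB, mul_zero])
  constructor
  · rintro ⟨hp, hidx⟩
    have hp1 : part23 (Nat.card H) = Nat.card H := part23_of_primes hH0 (fun r hr hd => by
      simpa using hp r hr hd)
    have hp2 : part23 H.index = 1 := part23_of_not_dvd (hidx 2 Nat.prime_two (by simp)) (hidx 3 Nat.prime_three (by simp))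
    have hp3 : part23 q = 1 := part23_of_not_dvd h2 h3
    have hp4 : part23 B = 1 := part23_of_not_dvd hB2 hB3
    have hAp : part23 A = A := part23_of_primes hA0 (fun r hr hd => primes_of_dvd_part (h := A) (m := q ^ 2 - 1) (by rw [hA]) r hr hd)
    have e := congrArg part23 hG
    rw [part23_mul two_ne_zero (mul_ne_zero hH0 hI0), part23_mul hH0 hI0, part23_two, hp1, hp2,
      part23_mul (by omega) (mul_ne_zero hA0 hB0), part23_mul hA0 hB0, hp3, hp4, hAp] at e
    simpa using e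
  · intro h
    rw [← h] at hG
    have hG' : H.index = q * B := by
      have e : 2 * Nat.card H * H.index = 2 * Nat.card H * (q * B) := by
        calc 2 * Nat.card H * H.index = 2 * (Nat.card H * H.index) := by ring
          _ = q * (2 * Nat.card H * B) := hG
          _ = _ := by ring
      exact Nat.eq_of_mul_eq_mul_left (by positivity) e
    refine ⟨?_, ?_⟩
    · intro r hr hd
      have h4 : Nat.card H ∣ A := ⟨2, by rw [← h]; ring⟩
      have := primes_of_dvd_part (h := Nat.card H) (m := q ^ 2 - 1) (by rw [← hA]; exact h4) r hr hd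
      simpa using this
    · rintro r hr hm
      rw [hG']
      intro hd
      have hr23 : r = 2 ∨ r = 3 := by simpa using hm
      rcases hr23 with rfl | rfl
      · rcases (Nat.Prime.dvd_mul hr).1 hd with h4 | h4
        · exact h2 h4
        · exact hB2 h4
      · rcases (Nat.Prime.dvd_mul hr).1 hd with h4 | h4
        · exact h3 h4
        · exact hB3 h4

end hall

/-- A dihedral subgroup of the right order from a torus. -/
lemma tor_case {G : Type*} [Group G] [Finite G] {c W : G} (hW : W ∉ Subgroup.zpowers c) (hWW : W * W = 1)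
    (hinv : W * c * W⁻¹ = c⁻¹) {n o N : ℕ} (hn : orderOf c = n) (h3 : 3 ∣ n) (hN : N = (2 * n) * (2 * o)) (ho2 : ¬ 2 ∣ o)
    (ho3 : ¬ 3 ∣ o) (hn0 : n ≠ 0) (ho0 : o ≠ 0) : ∃ D : Subgroup G, 2 * Nat.card D = part23 N := by
  obtain ⟨n₀, hn₀⟩ : ∃ n₀, n₀ = part23 n := ⟨_, rfl⟩
  have hd : n₀ ∣ n := hn₀ ▸ part23_dvd n
  have hn₀0 : n₀ ≠ 0 := hn₀ ▸ part23_ne_zero n
  have hpos : 0 < n := Nat.pos_of_ne_zero hn0
  have hk0 : n / n₀ ≠ 0 := by
    intro h
    have := Nat.eq_zero_of_dvd_of_div_eq_zero hd h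
    omega
  have hk : orderOf (c ^ (n / n₀)) = n₀ := by
    rw [orderOf_pow_of_dvd hk0 (by rw [hn]; exact Nat.div_dvd_of_dvd hd), hn, Nat.div_div_self hd hn0]
  have h2n₀ : 2 ≤ n₀ := by
    rw [hn₀]
    unfold part23
    have h4 : 1 ≤ n.factorization 3 := Nat.Prime.factorization_pos_of_dvd Nat.prime_three hn0 h3
    have h5 : 3 ^ 1 ≤ 3 ^ n.factorization 3 := Nat.pow_le_pow_right (by norm_num) h4
    have h6 : 1 ≤ 2 ^ n.factorization 2 := Nat.one_le_two_pow
    nlinarith
  have hW' : W ∉ Subgroup.zpowers (c ^ (n / n₀)) := by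
    intro h
    apply hW
    have h1 : Subgroup.zpowers (c ^ (n / n₀)) ≤ Subgroup.zpowers c := by
      rw [Subgroup.zpowers_le]
      exact Subgroup.pow_mem _ (Subgroup.mem_zpowers c) _
    exact h1 h
  have hinv' : W * c ^ (n / n₀) * W⁻¹ = (c ^ (n / n₀))⁻¹ := by
    rw [← conj_pow, hinv, inv_pow]
  obtain ⟨D, -, -, h4, -⟩ := dihedral_sub' (c ^ (n / n₀)) W hW' hWW hinv' (by rw [hk]; exact h2n₀)
  refine ⟨D, ?_⟩
  rw [h4, hk, hN, part23_mul (by omega) (by omega), part23_mul (by omega) hn0, part23_mul (by omega) ho0, part23_two,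
    part23_of_not_dvd ho2 ho3, hn₀]
  ring

end Cfsg.Agent.H09.Dick
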