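import Cfsg.Agent.Lib.H09.SchurSD2
import Cfsg.Agent.Lib.H09.M11Iso
import Cfsg.Agent.Lib.H07.GolayM11Gl

/-! Explicit local data in the stabiliser of a dodecad and a point, and the triviality of its multiplier. -/

set_option autoImplicit false
set_option linter.unusedSectionVars false
set_option linter.unusedVariables false
set_option linter.style.haveILetI false
set_option maxRecDepth 100000

namespace Cfsg.Agent.H09.M11

open Cfsg Cfsg.Agent.H27.Golay Cfsg.Agent.H07.Orb
open scoped Pointwise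

def ca : ℕ := 974877308412125789383037728872648739
def cb : ℕ := 971834827933871968875123436327915552
def cx : ℕ := 561258644392912973609920990624075822
def cy : ℕ := 278640320416977940971909699466234932

theorem ca_M : isM24 ca = true := by decide +kernel
theorem cb_M : isM24 cb = true := by decide +kernel
theorem cx_M : isM24 cx = true := by decide +kernel
theorem cy_M : isM24 cy = true := by decide +kernel
theorem cg_M : isM24 x0Inv = true := by decide +kernel
theorem ca_D : tD1 ca = true := by decide +kernel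
theorem cb_D : tD1 cb = true := by decide +kernel
theorem cx_D : tD1 cx = true := by decide +kernel
theorem cy_D : tD1 cy = true := by decide +kernel
theorem cg_D : tD1 x0Inv = true := by decide +kernel
theorem ca_o : permOK ca = true := isM24_permOK ca_M
theorem cb_o : permOK cb = true := isM24_permOK cb_M
theorem cx_o : permOK cx = true := isM24_permOK cx_M
theorem cy_o : permOK cy = true := isM24_permOK cy_M
theorem cg_o : permOK x0Inv = true := isM24_permOK cg_M

noncomputable def eA : HD1 := ⟨P ca, hHD1 _ ca_M ca_D⟩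
noncomputable def eB : HD1 := ⟨P cb, hHD1 _ cb_M cb_D⟩
noncomputable def eX : HD1 := ⟨P cx, hHD1 _ cx_M cx_D⟩
noncomputable def eY : HD1 := ⟨P cy, hHD1 _ cy_M cy_D⟩
noncomputable def eG : HD1 := ⟨P x0Inv, hHD1 _ cg_M cg_D⟩

theorem pm {π σ : ℕ} (h1 : permOK π = true) (h2 : permOK σ = true) : P π * P σ = P (pcomp π σ) :=
  (P_pcomp h1 h2).symm

theorem rel_of_pEq {π σ : ℕ} (h1 : permOK π = true) (h2 : permOK σ = true) (h : pEq π σ = true) :
    P π = P σ := (pEq_iff h1 h2).1 h

theorem idc_o : permOK idCode = true := isM24_permOK idCode_spec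

theorem c3 (c : ℕ) (h : permOK c = true) (h3 : pEq (pcomp c (pcomp c c)) idCode = true) :
    P c ^ 3 = 1 := by
  have := rel_of_pEq (permOK_pcomp h (permOK_pcomp h h)) idc_o h3
  rw [P_pcomp h (permOK_pcomp h h), P_pcomp h h, P_idCode] at this
  rw [pow_succ', pow_two]
  exact this

theorem eA3 : eA ^ 3 = 1 := Subtype.ext (c3 ca ca_o (by decide +kernel))
theorem eB3 : eB ^ 3 = 1 := Subtype.ext (c3 cb cb_o (by decide +kernel))
theorem eA_ne : eA ≠ 1 := by
  intro h
  have h2 : P ca = 1 := congrArg Subtype.val h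
  rw [← P_idCode] at h2
  have h3 := (pEq_iff ca_o idc_o).2 h2
  have h4 : pEq ca idCode = false := by decide +kernel
  rw [h4] at h3
  cases h3

theorem eAB : eA * eB = eB * eA := by
  apply Subtype.ext
  show P ca * P cb = P cb * P ca
  rw [pm ca_o cb_o, pm cb_o ca_o]
  exact rel_of_pEq (permOK_pcomp ca_o cb_o) (permOK_pcomp cb_o ca_o) (by decide +kernel)

theorem eGA : eG * eA * eG⁻¹ = eA := by
  rw [mul_inv_eq_iff_eq_mul]
  apply Subtype.ext
  show P x0Inv * P ca = P ca * P x0Inv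
  rw [pm cg_o ca_o, pm ca_o cg_o]
  exact rel_of_pEq (permOK_pcomp cg_o ca_o) (permOK_pcomp ca_o cg_o) (by decide +kernel)

theorem eGB : eG * eB * eG⁻¹ = eB⁻¹ := by
  rw [mul_inv_eq_iff_eq_mul, eq_inv_mul_iff_mul_eq, ← mul_assoc]
  apply Subtype.ext
  show P cb * P x0Inv * P cb = P x0Inv
  rw [pm cb_o cg_o, pm (permOK_pcomp cb_o cg_o) cb_o]
  exact rel_of_pEq (permOK_pcomp (permOK_pcomp cb_o cg_o) cb_o) cg_o (by decide +kernel)

theorem eY2 : eY ^ 2 = 1 := by
  apply Subtype.ext
  show P cy ^ 2 = 1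
  rw [pow_two, pm cy_o cy_o, ← P_idCode]
  exact rel_of_pEq (permOK_pcomp cy_o cy_o) idc_o (by decide +kernel)

theorem eXY : eY * eX * eY⁻¹ = eX ^ 3 := by
  rw [mul_inv_eq_iff_eq_mul, pow_succ, pow_two]
  apply Subtype.ext
  show P cy * P cx = P cx * P cx * P cx * P cy
  rw [pm cy_o cx_o, pm cx_o cx_o, pm (permOK_pcomp cx_o cx_o) cx_o,
    pm (permOK_pcomp (permOK_pcomp cx_o cx_o) cx_o) cy_o]
  exact rel_of_pEq (permOK_pcomp cy_o cx_o)
    (permOK_pcomp (permOK_pcomp (permOK_pcomp cx_o cx_o) cx_o) cy_o) (by decide +kernel)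

theorem eX8 : orderOf eX = 8 := by
  have ox2 := permOK_pcomp cx_o cx_o
  have ox4 := permOK_pcomp ox2 ox2
  have e4 : ((eX ^ 4 : HD1) : Equiv.Perm GolayPt) = P (pcomp (pcomp cx cx) (pcomp cx cx)) := by
    show P cx ^ 4 = _
    rw [P_pcomp ox2 ox2, P_pcomp cx_o cx_o]
    simp only [pow_succ, pow_zero, one_mul, mul_assoc]
  have hn : ¬ eX ^ 2 ^ 2 = 1 := by
    intro h
    have h2 : ((eX ^ 4 : HD1) : Equiv.Perm GolayPt) = 1 := congrArg Subtype.val h
    rw [e4, ← P_idCode] at h2
    have h3 := (pEq_iff ox4 idc_o).2 h2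
    have h5 : pEq (pcomp (pcomp cx cx) (pcomp cx cx)) idCode = false := by decide +kernel
    rw [h5] at h3
    cases h3
  have hf : eX ^ 2 ^ (2 + 1) = 1 := by
    apply Subtype.ext
    have e8 : ((eX ^ 8 : HD1) : Equiv.Perm GolayPt) = P (pcomp (pcomp (pcomp cx cx) (pcomp cx cx)) (pcomp (pcomp cx cx) (pcomp cx cx))) := by
      show P cx ^ 8 = _
      rw [P_pcomp ox4 ox4, P_pcomp ox2 ox2, P_pcomp cx_o cx_o]
      simp only [pow_succ, pow_zero, one_mul, mul_assoc]
    show ((eX ^ 8 : HD1) : Equiv.Perm GolayPt) = 1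
    rw [e8, ← P_idCode]
    exact rel_of_pEq (permOK_pcomp ox4 ox4) idc_o (by decide +kernel)
  exact orderOf_eq_prime_pow hn hf

theorem eB_not : eB ∉ Subgroup.zpowers eA := by
  intro h
  obtain ⟨k, hk⟩ := Subgroup.mem_zpowers_iff.mp h
  have h1 : ((eA ^ k : HD1) : Equiv.Perm GolayPt) = P cb := congrArg Subtype.val hk
  have h2 : (P ca) ^ k = P cb := by
    rw [← h1]
    rfl
  have hf : P ca (pt 14) = pt 14 := by
    rw [P_pt ca_o (by norm_num)]
    have : pa ca 14 = 14 := by decide +kernel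
    rw [this]
  have h3 := Equiv.Perm.zpow_apply_eq_self_of_apply_eq_self hf k
  rw [h2, P_pt cb_o (by norm_num)] at h3
  have h4 := congrArg idx h3
  rw [idx_pt' (pa_lt cb_o (by norm_num)), idx_pt' (by norm_num)] at h4
  have h5 : pa cb 14 ≠ 14 := by decide +kernel
  exact h5 h4

/-- The multiplier of the standard stabiliser is trivial. -/
theorem HD1_mult : Cfsg.HasCyclicSchurMultiplier HD1 1 := by
  have hcard : Nat.card HD1 = 7920 := by
    have h1 := card_S1 (d := fs D0) (p := pt 1) (fs_mem_dodecads (by decide +kernel)) (by decide +kernel)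
    rw [← h1]
    refine Nat.card_congr ⟨fun x => ⟨⟨x.1, x.2.1.1⟩, ⟨x.2.1.2, x.2.2⟩⟩, fun y => ⟨y.1.1, ⟨⟨y.1.2, y.2.1⟩, y.2.2⟩⟩,
      fun x => rfl, fun y => rfl⟩
  exact H09.mult_trivial_of_data hcard eX8 eY2 eXY eA3 eA_ne eB3 eAB eB_not eGA eGB

end Cfsg.Agent.H09.M11
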