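import Cfsg.Agent.Lib.H09.GolayLoc

/-! Explicit local data in the stabiliser of a dodecad. -/

set_option autoImplicit false
set_option maxRecDepth 100000

namespace Cfsg.Agent.H09.M12D

def cQ1 : ℕ := 891431355351520746042493516821612646
def cQ3 : ℕ := 609698512867675794569127683645718529
def cG : ℕ := 470774319203086706725259168901701664
def cV1 : ℕ := 943922561094339879383119455137772576
def cV2 : ℕ := 984162663276221444552740466076092417
def cV3 : ℕ := 430534216247492985936816798932608001
def cXA : ℕ := 891431355351520746042493516821612646
def cYA : ℕ := 609698512867675794569127683645718529
def kq1 : ℕ := 984818244535754528103549039458486304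
def kq3 : ℕ := 819505265097970026922864603706724368
def kg : ℕ := 487371928496002448630415533958963201
def kz : ℕ := 606634880097824706456606202271281184
def k13 : ℕ := 887177355146390634269150029788941362
def k14 : ℕ := 645983793456082773653449618920508802
def k23 : ℕ := 310693044107334772438845642959357197
def k24 : ℕ := 475530248397204224753710336834536648
def k1234 : ℕ := 715874919010165466063360663584179496
def kv2 : ℕ := 715874919010165466063360663584179496
def kv3 : ℕ := 929065490641283855830450758941226372
def kv12 : ℕ := 944002249294201491332929806906041746
def kv13 : ℕ := 444881464951023614838906674630396112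
def kv23 : ℕ := 606634880097824706456606202271281184
def kv123 : ℕ := 487371928496002448630415533958963201
def kyA : ℕ := 819505265097970026922864603706724368
def kxy : ℕ := 887177355146390634269150029788941362

end Cfsg.Agent.H09.M12D
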