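import Cfsg.Agent.Lib.H09.M12Up
import Cfsg.Agent.Lib.H07.Ternary3
import Cfsg.Agent.Lib.H07.GolayQuart
import Cfsg.Agent.Lib.H02.Gol9

/-! A stem extension with kernel of order two of the stabiliser of the dodecad of squares: the monomial
automorphism group of the length-12 ternary code. -/

set_option autoImplicit false
set_option linter.unusedSectionVars false
set_option linter.unusedVariables false
set_option linter.style.haveILetI false
set_option maxRecDepth 100000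
open Cfsg

namespace Cfsg.Agent.H09.M12E

open Cfsg.Agent.H09 Cfsg.Agent.H27.Golay Cfsg.Agent.H07.Ternary
open Cfsg.Agent.H09.M11 (Dq dq_eq sq_mem)
open Equiv
open scoped Pointwise commutatorElement

abbrev Q := ↥Cfsg.Spor.M12

def psiL : List ℕ := [0, 1, 2, 3, 4, 12, 13, 8, 9, 18, 6, 16]
def betaL : List ℕ := [0, 1, 2, 3, 4, 0, 10, 0, 7, 8, 0, 0, 5, 6, 0, 0, 11, 0, 9, 0, 0, 0, 0, 0]

def psi (p : ArrayPt) : GolayPt := Cfsg.Agent.H27.Golay.pt (psiL.getD (Cfsg.Agent.H07.Ternary.idx p) 0)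
def beta (q : GolayPt) : ArrayPt := Cfsg.Agent.H07.Ternary.pt (betaL.getD (Cfsg.Agent.H27.Golay.idx q) 0)

theorem beta_psi : ∀ p, beta (psi p) = p := by decide +kernel
theorem psi_mem : ∀ p, psi p ∈ fs Dq := by decide +kernel
theorem psi_beta : ∀ q : GolayPt, q ∈ fs Dq → psi (beta q) = q := by decide +kernel

theorem hD (g : Q) {q : GolayPt} (hq : q ∈ fs Dq) : (g : Perm GolayPt) q ∈ fs Dq := by
  have h1 : (g : Perm GolayPt) • fs Dq = fs Dq := by
    rw [← dq_eq]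
    exact g.2.2
  have h2 : (g : Perm GolayPt) • q ∈ (g : Perm GolayPt) • fs Dq := Finset.smul_mem_smul_finset hq
  rw [h1] at h2
  exact h2

/-- The action of an element of the stabiliser on the array. -/
def Jperm (g : Q) : Perm ArrayPt where
  toFun p := beta ((g : Perm GolayPt) (psi p))
  invFun p := beta ((g : Perm GolayPt)⁻¹ (psi p))
  left_inv p := by
    show beta ((g : Perm GolayPt)⁻¹ (psi (beta ((g : Perm GolayPt) (psi p))))) = p
    have e : (g : Perm GolayPt)⁻¹ ((g : Perm GolayPt) (psi p)) = psi p := by simp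
    rw [psi_beta _ (hD g (psi_mem p)), e, beta_psi]
  right_inv p := by
    show beta ((g : Perm GolayPt) (psi (beta ((g : Perm GolayPt)⁻¹ (psi p))))) = p
    have h : ((g⁻¹ : Q) : Perm GolayPt) (psi p) ∈ fs Dq := hD g⁻¹ (psi_mem p)
    have h' : (g : Perm GolayPt)⁻¹ (psi p) ∈ fs Dq := h
    have e : (g : Perm GolayPt) ((g : Perm GolayPt)⁻¹ (psi p)) = psi p := by simp
    rw [psi_beta _ h', e, beta_psi]

theorem Jperm_apply (g : Q) (p : ArrayPt) : Jperm g p = beta ((g : Perm GolayPt) (psi p)) := rfl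

theorem Jperm_mul (g h : Q) : Jperm (g * h) = Jperm g * Jperm h := by
  apply Equiv.ext
  intro p
  show beta (((g : Perm GolayPt) * (h : Perm GolayPt)) (psi p)) =
    beta ((g : Perm GolayPt) (psi (beta ((h : Perm GolayPt) (psi p)))))
  rw [psi_beta _ (hD h (psi_mem p))]
  rfl

theorem Jperm_inj (g : Q) (h : Jperm g = 1) : g = 1 := by
  apply Subtype.ext
  refine Cfsg.Agent.H02.Gol.eq_one_of_fix_dodecad (d := fs Dq) (by rw [← dq_eq]; exact sq_mem) g.2.1 ?_
  intro x hx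
  have h1 : Jperm g (beta x) = beta x := by rw [h]; rfl
  rw [Jperm_apply, psi_beta _ hx] at h1
  have h2 := congrArg psi h1
  rwa [psi_beta _ hx, psi_beta _ (hD g hx)] at h2

/-! ### Hexads -/

def hT : List (ℕ × ℕ × T) := [(591, 270351, (0,0,0,0,0,1)), (2589, 327709, (0,0,0,0,1,0)), (2650, 335898, (0,0,0,0,1,1)), (2135, 73751, (0,0,0,0,1,2)), (1566, 262238, (0,0,0,1,0,0)), (1619, 270419, (0,0,0,1,0,1)), (1117, 8285, (0,0,0,1,0,2)), (3591, 327751, (0,0,0,1,1,0)), (3150, 73806, (0,0,0,1,1,1)), (3657, 335945, (0,0,0,1,1,2)), (3099, 65627, (0,0,0,1,2,0)), (3668, 335956, (0,0,0,1,2,2)), (347, 8731, (0,0,1,0,0,0)), (860, 270876, (0,0,1,0,0,1)), (791, 262679, (0,0,1,0,0,2)), (2897, 336401, (0,0,1,0,1,1)), (2334, 66078, (0,0,1,0,1,2)), (2886, 336390, (0,0,1,0,2,0)), (2381, 74253, (0,0,1,0,2,1)), (2827, 328203, (0,0,1,0,2,2)), (1861, 270917, (0,0,1,1,0,0)), (1866, 270922, (0,0,1,1,0,1)), (1295, 591, (0,0,1,1,0,2)), (3858,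 328274, (0,0,1,1,1,2)), (3416, 74328, (0,0,1,1,2,0)), (1366, 8790, (0,0,1,2,0,1)), (1817, 262745, (0,0,1,2,0,2)), (3395, 74307, (0,0,1,2,1,0)), (3852, 328268, (0,0,1,2,1,2)), (3349, 66133, (0,0,1,2,2,2)), (222, 8478, (0,1,0,0,0,0)), (725, 270613, (0,1,0,0,0,1)), (667, 262427, (0,1,0,0,0,2)), (2755, 336131, (0,1,0,0,1,0)), (2764, 336140, (0,1,0,0,1,1)), (2191, 65807, (0,1,0,0,1,2)), (2265, 74009, (0,1,0,0,2,1)), (2710, 327958, (0,1,0,0,2,2)), (1752, 270680, (0,1,0,1,0,0)), (1175, 343, (0,1,0,1,0,2)), (3282, 74066, (0,1,0,1,1,1)), (3269, 74053, (0,1,0,1,2,0)), (3722, 328010, (0,1,0,1,2,2)), (1734, 270662, (0,1,0,2,0,0)), (1227, 8523, (0,1,0,2,0,1)), (1677, 262477, (0,1,0,2,0,2)), (3729, 328017, (0,1,0,2,1,2)), (3228, 65884, (0,1,0,2,2,2)), (455, 8967, (0,1,1,0,0,0)), (910, 262926, (0,1,1,0,0,1)), (969, 271113, (0,1,1,0,0,2)), (2516, 74516, (0,1,1,0,1,2)), (2451, 66323, (0,1,1,0,2,1)), (1940, 262996, (0,1,1,1,0,1)), (3465,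 66377, (0,1,1,1,1,1)), (1434, 858, (0,1,1,2,0,1)), (4032, 336704, (0,1,1,2,2,0)), (413, 797, (0,1,2,0,0,0)), (978, 271122, (0,1,2,0,0,2)), (2968, 328472, (0,1,2,0,1,0)), (2949, 328453, (0,1,2,0,2,0)), (2506, 74506, (0,1,2,0,2,1)), (1923, 262979, (0,1,2,1,0,0)), (1484, 9036, (0,1,2,1,0,2)), (1489, 9041, (0,1,2,2,0,1)), (3462, 66374, (0,1,2,2,1,0)), (63, 4127, (1,0,0,0,0,0)), (630, 274454, (1,0,0,0,0,1)), (633, 274457, (1,0,0,0,0,2)), (2611, 331795, (1,0,0,0,1,0)), (2172, 77852, (1,0,0,0,1,2)), (2606, 331790, (1,0,0,0,2,0)), (2155, 77835, (1,0,0,0,2,1)), (2661, 339973, (1,0,0,0,2,2)), (1579, 266315, (1,0,0,1,0,0)), (1644, 274508, (1,0,0,1,0,1)), (1127, 12359, (1,0,0,1,0,2)), (3185, 77905, (1,0,0,1,1,1)), (3126, 69718, (1,0,0,1,2,0)), (1589, 266325, (1,0,0,2,0,0)), (1146, 12378, (1,0,0,2,0,1)), (3117, 69709, (1,0,0,2,1,0)), (3682, 340034, (1,0,0,2,1,2)), (3640, 331864, (1,0,0,2,2,0)), (373, 12821, (1,0,1,0,0,0)), (826,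 266778, (1,0,1,0,0,2)), (2920, 340488, (1,0,1,0,1,0)), (2343, 70151, (1,0,1,0,1,2)), (2418, 78354, (1,0,1,0,2,1)), (1340, 4700, (1,0,1,1,0,2)), (3873, 332353, (1,0,1,1,2,2)), (1385, 12873, (1,0,1,2,0,1)), (1830, 266822, (1,0,1,2,0,2)), (366, 12814, (1,0,2,0,0,0)), (813, 266765, (1,0,2,0,0,1)), (867, 274947, (1,0,2,0,0,2)), (2868, 332308, (1,0,2,0,1,1)), (2361, 70169, (1,0,2,0,2,1)), (1904, 275024, (1,0,2,1,0,0)), (3370, 70218, (1,0,2,1,1,1)), (1331, 4691, (1,0,2,2,0,1)), (3428, 78404, (1,0,2,2,2,2)), (237, 12557, (1,1,0,0,0,0)), (746, 274698, (1,1,0,0,0,1)), (679, 266503, (1,1,0,0,0,2)), (2234, 69914, (1,1,0,0,1,2)), (2800, 340240, (1,1,0,0,2,0)), (1209, 4441, (1,1,0,1,0,2)), (3748, 332100, (1,1,0,1,1,2)), (1268, 12628, (1,1,0,2,0,1)), (3235, 69955, (1,1,0,2,2,2)), (945, 267025, (1,1,1,0,0,1)), (2476, 70412, (1,1,1,0,2,1)), (1506, 13122, (1,1,1,1,0,2)), (438, 4886, (1,1,2,0,0,0)), (2529, 78593, (1,1,2,0,1,2)), (1960,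 267080, (1,1,2,2,0,0)), (243, 12563, (1,2,0,0,0,0)), (700, 266524, (1,2,0,0,0,1)), (2729, 332041, (1,2,0,0,1,1)), (2278, 78086, (1,2,0,0,1,2)), (2229, 69909, (1,2,0,0,2,1)), (1714, 266578, (1,2,0,1,0,1)), (3304, 78152, (1,2,0,1,2,0)), (1198, 4430, (1,2,0,2,0,1)), (1761, 274753, (1,2,0,2,0,2)), (427, 4875, (1,2,1,0,0,0)), (996, 275204, (1,2,1,0,0,2)), (3504, 70480, (1,2,1,2,1,0)), (504, 13080, (1,2,2,0,0,0)), (2978, 332546, (1,2,2,0,2,2)), (1445, 4933, (1,2,2,1,0,2))]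

def fA (m : ℕ) : Finset ArrayPt := Finset.univ.filter fun p => Nat.testBit m (Cfsg.Agent.H07.Ternary.idx p) = true

def agree (c : T) (m : ℕ) : Bool :=
  decide (ternarySupport (enc c) = fA m)

theorem chk1 : ∀ c : T, wt c = 6 → hT.any (fun e => agree c e.1) = true := by decide +kernel
theorem chk2 : ∀ e ∈ hT, agree e.2.2 e.1 = true ∧ wt e.2.2 = 6 := by decide +kernel
theorem chk3 : ∀ e ∈ hT, (fA e.1).image psi = fs e.2.1 := by decide +kernel
theorem chk4 : ∀ e ∈ hT, (fs e.2.1).image beta = fA e.1 := by decide +kernel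
theorem chk5 : ∀ e ∈ hT, popc e.2.1 = 6 ∧ e.2.1 < 2 ^ 24 ∧ octadL.any (fun a => Nat.beq (Nat.land a Dq) e.2.1) = true := by
  decide +kernel
theorem chk6 : ∀ a ∈ octadL, popc (Nat.land a Dq) = 6 → hT.any (fun e => Nat.beq e.2.1 (Nat.land a Dq)) = true := by
  decide +kernel

theorem inter_fs (a b : ℕ) : fs a ∩ fs b = fs (Nat.land a b) := by
  ext p
  show _ ↔ p ∈ fs (a &&& b)
  simp [mem_fs, Nat.testBit_and]

theorem L1 {b : Finset ArrayPt} (hb : b ∈ hexads) : b.image psi ∈ hexadsOn (fs Dq) := by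
  obtain ⟨x, hx, rfl, hc⟩ := (mem_hexads b).1 hb
  obtain ⟨c, rfl⟩ := exists_enc hx
  obtain ⟨e, he, h1⟩ := List.any_eq_true.1 (chk1 c hc)
  have h2 : ternarySupport (enc c) = fA e.1 := of_decide_eq_true h1
  rw [h2, chk3 e he]
  obtain ⟨h5, h6, h7⟩ := chk5 e he
  obtain ⟨a, ha, h8⟩ := List.any_eq_true.1 h7
  refine ⟨?_, fs a, fs_mem_octads ha, ?_⟩
  · rw [card_fs h6]
    exact h5
  · rw [inter_fs, Nat.eq_of_beq_eq_true h8]

theorem L2 {h : Finset GolayPt} (hh : h ∈ hexadsOn (fs Dq)) : h.image beta ∈ hexads := by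
  obtain ⟨h1, o, ho, rfl⟩ := hh
  obtain ⟨a, ha, rfl⟩ := (mem_octads_iff_list o).1 ho
  have ha' := octadL_lt ha
  rw [card_inter_fs ha'] at h1
  obtain ⟨e, he, h2⟩ := List.any_eq_true.1 (chk6 a ha h1)
  rw [inter_fs, ← Nat.eq_of_beq_eq_true h2, chk4 e he]
  obtain ⟨h3, h4⟩ := chk2 e he
  have h5 : ternarySupport (enc e.2.2) = fA e.1 := of_decide_eq_true h3
  rw [mem_hexads]
  refine ⟨enc e.2.2, enc_mem _, h5, ?_⟩
  rw [← h5]
  exact h4

theorem Jperm_smul (g : Q) (b : Finset ArrayPt) :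
    Jperm g • b = ((g : Perm GolayPt) • (b.image psi)).image beta := by
  ext p
  simp only [Finset.mem_image, Finset.mem_smul_finset]
  constructor
  · rintro ⟨q, hq, rfl⟩
    exact ⟨(g : Perm GolayPt) • psi q, ⟨psi q, ⟨q, hq, rfl⟩, rfl⟩, rfl⟩
  · rintro ⟨_, ⟨_, ⟨q, hq, rfl⟩, rfl⟩, rfl⟩
    exact ⟨q, hq, rfl⟩

theorem Jperm_mem (g : Q) : Jperm g ∈ monoG := by
  rw [monoG_eq]
  apply mem_aut_of_maps
  intro b hb
  rw [Jperm_smul]
  apply L2
  have h1 := Cfsg.Agent.H07.Orb.smul_mem_hexadsOn g.2.1 (L1 hb)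
  have h2 : (g : Perm GolayPt) • fs Dq = fs Dq := by
    rw [← dq_eq]
    exact g.2.2
  rwa [h2] at h1

/-- The homomorphism to the permutation parts. -/
noncomputable def J : Q →* ↥monoG :=
  MonoidHom.mk' (fun g => ⟨Jperm g, Jperm_mem g⟩) (fun a b => Subtype.ext (Jperm_mul a b))

theorem J_inj : Function.Injective J := by
  rw [injective_iff_map_eq_one]
  intro g hg
  exact Jperm_inj g (congrArg Subtype.val hg)

theorem card_monoG : Nat.card ↥monoG = 95040 := by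
  rw [monoG_eq]
  exact card_aut

theorem J_bij : Function.Bijective J :=
  J_inj.bijective_of_nat_card_le (by rw [card_monoG, M12U.hcard])

/-- The isomorphism. -/
noncomputable def E : Q ≃* ↥monoG := MulEquiv.ofBijective J J_bij

/-! ### The monomial group -/

abbrev V := ArrayPt → ZMod 3

/-- The monomial map as a permutation. -/
def monoEquiv (σ : Perm ArrayPt) (c : ArrayPt → (ZMod 3)ˣ) : Perm V where
  toFun := monomialMap σ c
  invFun := monomialMap σ⁻¹ (fun i => (c (σ i))⁻¹)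
  left_inv x := by
    funext i
    show (((c (σ i))⁻¹ : (ZMod 3)ˣ) : ZMod 3) * (((c (σ i)) : ZMod 3) * x (σ.symm (σ i))) = x i
    rw [Equiv.symm_apply_apply, ← mul_assoc, Units.inv_mul, one_mul]
  right_inv y := by
    funext i
    show ((c i : (ZMod 3)ˣ) : ZMod 3) * ((((c (σ (σ.symm i)))⁻¹ : (ZMod 3)ˣ) : ZMod 3) * y (σ⁻¹.symm (σ.symm i))) = y i
    have e1 : σ (σ.symm i) = i := Equiv.apply_symm_apply σ i
    have e2 : σ⁻¹.symm (σ.symm i) = i := Equiv.apply_symm_apply σ i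
    rw [e1, e2, ← mul_assoc, Units.mul_inv, one_mul]

theorem monoEquiv_apply (σ : Perm ArrayPt) (c : ArrayPt → (ZMod 3)ˣ) (x : V) (i : ArrayPt) :
    monoEquiv σ c x i = (c i : ZMod 3) * x (σ.symm i) := rfl

/-- The monomial automorphism group of the code. -/
def G₀ : Subgroup (Perm V × Perm ArrayPt) where
  carrier := {a | ∃ c, IsMono a.2 c ∧ a.1 = monoEquiv a.2 c}
  mul_mem' := by
    rintro a b ⟨c, hc, hT⟩ ⟨d, hd, hU⟩
    refine ⟨_, mono_mul hc hd, ?_⟩
    show a.1 * b.1 = _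
    rw [hT, hU]
    apply Equiv.ext
    intro x
    funext i
    show (monoEquiv a.2 c (monoEquiv b.2 d x)) i = _
    simp only [monoEquiv_apply]
    simp [mul_assoc]
    rfl
  one_mem' := ⟨_, mono_one, by
    apply Equiv.ext
    intro x
    funext i
    show x i = _
    simp [monoEquiv_apply]
    rfl⟩
  inv_mem' := by
    rintro a ⟨c, hc, hT⟩
    refine ⟨_, mono_inv hc, ?_⟩
    show a.1⁻¹ = _
    rw [hT]
    apply Equiv.ext
    intro x
    rfl

instance : Finite ↥G₀ := inferInstance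

/-- The projection onto the permutation parts. -/
def pr : ↥G₀ →* ↥monoG where
  toFun x := ⟨x.1.2, by
    obtain ⟨c, hc, _⟩ := x.2
    exact ⟨c, hc⟩⟩
  map_one' := rfl
  map_mul' a b := rfl

theorem pr_surj : Function.Surjective pr := by
  rintro ⟨σ, c, hc⟩
  exact ⟨⟨(monoEquiv σ c, σ), c, hc, rfl⟩, rfl⟩

/-- The stem extension. -/
noncomputable def sig : ↥G₀ →* Q := E.symm.toMonoidHom.comp pr

theorem sig_surj : Function.Surjective sig :=
  E.symm.surjective.comp pr_surj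

theorem sig_ker {x : ↥G₀} : x ∈ sig.ker ↔ x.1.2 = 1 := by
  rw [MonoidHom.mem_ker]
  constructor
  · intro h
    have h1 : E.symm (pr x) = 1 := h
    have h2 : pr x = 1 := by
      have := congrArg E h1
      rwa [MulEquiv.apply_symm_apply, map_one] at this
    exact congrArg Subtype.val h2
  · intro h
    have h2 : pr x = 1 := Subtype.ext h
    show E.symm (pr x) = 1
    rw [h2, map_one]

theorem neg_mono : IsMono (1 : Perm ArrayPt) (fun _ => -1) := by
  intro x hx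
  have : monomialMap (1 : Perm ArrayPt) (fun _ => (-1 : (ZMod 3)ˣ)) x = -x := by
    funext i
    show ((-1 : (ZMod 3)ˣ) : ZMod 3) * x i = - x i
    simp
  rw [this]
  exact ternaryGolayCode.neg_mem hx

/-- The central involution. -/
def z₀ : ↥G₀ := ⟨(monoEquiv 1 (fun _ => -1), 1), _, neg_mono, rfl⟩

theorem z₀_ne : z₀ ≠ 1 := by
  intro h
  have h1 : monoEquiv 1 (fun _ => -1) = 1 := congrArg (fun x : ↥G₀ => x.1.1) h
  have h2 := congrFun (congrArg (fun T : Perm V => T (fun _ => 1)) h1) (0, 0)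
  have h3 : ((-1 : (ZMod 3)ˣ) : ZMod 3) * 1 = 1 := h2
  revert h3
  decide

theorem ker_cases {x : ↥G₀} (hx : x ∈ sig.ker) : x = 1 ∨ x = z₀ := by
  have h1 := sig_ker.1 hx
  obtain ⟨⟨T, σ⟩, c, hc, hT⟩ := x
  simp only at h1 hT hc
  subst h1
  subst hT
  rcases Cfsg.Agent.S1593.result c hc with h | h
  · left
    apply Subtype.ext
    apply Prod.ext
    · apply Equiv.ext
      intro y
      funext i
      show (c i : ZMod 3) * y i = y i
      rw [h i]
      simp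
    · rfl
  · right
    apply Subtype.ext
    apply Prod.ext
    · apply Equiv.ext
      intro y
      funext i
      show (c i : ZMod 3) * y i = ((-1 : (ZMod 3)ˣ) : ZMod 3) * y i
      rw [h i]
    · rfl

theorem z₀_ker : z₀ ∈ sig.ker := sig_ker.2 rfl

theorem z₀_comm (a : ↥G₀) : a * z₀ = z₀ * a := by
  obtain ⟨⟨T, σ⟩, c, hc, hT⟩ := a
  simp only at hT hc
  subst hT
  apply Subtype.ext
  apply Prod.ext
  · apply Equiv.ext
    intro y
    funext i
    show (c i : ZMod 3) * (((-1 : (ZMod 3)ˣ) : ZMod 3) * y (σ.symm i)) =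
      ((-1 : (ZMod 3)ˣ) : ZMod 3) * ((c i : ZMod 3) * y (σ.symm i))
    ring
  · show σ * 1 = 1 * σ
    simp

theorem ker_center : sig.ker ≤ Subgroup.center ↥G₀ := by
  intro x hx
  rw [Subgroup.mem_center_iff]
  intro g
  rcases ker_cases hx with rfl | rfl
  · simp
  · exact z₀_comm g

theorem card_ker : Nat.card sig.ker = 2 := by
  rw [Nat.card_eq_two_iff]
  refine ⟨1, ⟨z₀, z₀_ker⟩, ?_, ?_⟩
  · intro h
    exact z₀_ne (congrArg Subtype.val h).symm
  · ext x
    simp only [Set.mem_insert_iff, Set.mem_singleton_iff, Set.mem_univ, iff_true]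
    rcases ker_cases x.2 with h | h
    · left
      exact Subtype.ext h
    · right
      exact Subtype.ext h

/-! ### Two explicit elements whose commutator is the central involution -/

def wa : ℕ := 270855726734288490
def wb : ℕ := 75704439705267713

theorem wOK : ∀ w ∈ [wa, wb], (∀ p q, fw w p = fw w q → p = q) ∧ ∀ e ∈ basisT, ∀ p,
    ((sw w p : (ZMod 3)ˣ) : ZMod 3) * enc e (fw w p) =
      enc (decW fun r => ((sw w r : (ZMod 3)ˣ) : ZMod 3) * enc e (fw w r)) p := by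
  decide +kernel

/-- The permutation attached to a word. -/
noncomputable def pW (w : ℕ) (hw : w ∈ [wa, wb]) : Perm ArrayPt :=
  Equiv.ofBijective (fw w) (Finite.injective_iff_bijective.mp fun p q h => (wOK w hw).1 p q h)

theorem pW_apply (w : ℕ) (hw : w ∈ [wa, wb]) (p : ArrayPt) : pW w hw p = fw w p := rfl

theorem pW_mono (w : ℕ) (hw : w ∈ [wa, wb]) : IsMono (pW w hw).symm (sw w) := by
  intro x hx
  obtain ⟨d, rfl⟩ := exists_enc hx
  have hok := (wOK w hw).2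
  have hmem : ∀ e ∈ basisT, (fun p => ((sw w p : (ZMod 3)ˣ) : ZMod 3) * enc e (fw w p)) ∈ ternaryGolayCode := by
    intro e he
    have : (fun p => ((sw w p : (ZMod 3)ˣ) : ZMod 3) * enc e (fw w p)) = enc (decW fun r => ((sw w r : (ZMod 3)ˣ) : ZMod 3) * enc e (fw w r)) :=
      funext (hok e he)
    rw [this]
    exact enc_mem _
  have h0 := hmem (1,0,0,0,0,0) (by decide)
  have h1 := hmem (0,1,0,0,0,0) (by decide)
  have h2 := hmem (0,0,1,0,0,0) (by decide)
  have h3 := hmem (0,0,0,1,0,0) (by decide)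
  have h4 := hmem (0,0,0,0,1,0) (by decide)
  have h5 := hmem (0,0,0,0,0,1) (by decide)
  have hsum := ternaryGolayCode.add_mem (ternaryGolayCode.add_mem (ternaryGolayCode.add_mem (ternaryGolayCode.add_mem (ternaryGolayCode.add_mem
    (ternaryGolayCode.smul_mem d.1 h0) (ternaryGolayCode.smul_mem d.2.1 h1)) (ternaryGolayCode.smul_mem d.2.2.1 h2))
    (ternaryGolayCode.smul_mem d.2.2.2.1 h3)) (ternaryGolayCode.smul_mem d.2.2.2.2.1 h4)) (ternaryGolayCode.smul_mem d.2.2.2.2.2 h5)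
  convert hsum using 1
  funext p
  simp only [monomialMap, Equiv.symm_symm, pW_apply, Pi.add_apply, Pi.smul_apply, smul_eq_mul]
  rw [enc_lin d (fw w p)]
  ring

/-- The element attached to a word. -/
noncomputable def eW (w : ℕ) (hw : w ∈ [wa, wb]) : ↥G₀ :=
  ⟨(monoEquiv (pW w hw).symm (sw w), (pW w hw).symm), _, pW_mono w hw, rfl⟩

theorem eW_apply (w : ℕ) (hw : w ∈ [wa, wb]) (x : V) (i : ArrayPt) :
    (eW w hw).1.1 x i = (sw w i : ZMod 3) * x (fw w i) := rfl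

theorem chk_fw : ∀ p, fw wa (fw wb p) = fw wb (fw wa p) := by decide +kernel

theorem chk_sw : ∀ p, ((sw wa p : (ZMod 3)ˣ) : ZMod 3) * (sw wb (fw wa p) : (ZMod 3)ˣ) =
    ((-1 : (ZMod 3)ˣ) : ZMod 3) * ((sw wb p : (ZMod 3)ˣ) * (sw wa (fw wb p) : (ZMod 3)ˣ)) := by decide +kernel

theorem anti : eW wa (by simp) * eW wb (by simp) = z₀ * (eW wb (by simp) * eW wa (by simp)) := by
  apply Subtype.ext
  apply Prod.ext
  · apply Equiv.ext
    intro x
    funext i
    show (eW wa (by simp)).1.1 ((eW wb (by simp)).1.1 x) i =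
      monoEquiv 1 (fun _ => -1) ((eW wb (by simp)).1.1 ((eW wa (by simp)).1.1 x)) i
    rw [monoEquiv_apply, eW_apply, eW_apply, eW_apply, eW_apply, chk_fw]
    show (sw wa i : ZMod 3) * ((sw wb (fw wa i) : ZMod 3) * x (fw wb (fw wa i))) =
      ((-1 : (ZMod 3)ˣ) : ZMod 3) * ((sw wb i : ZMod 3) * ((sw wa (fw wb i) : ZMod 3) * x (fw wb (fw wa i))))
    rw [← mul_assoc, chk_sw i]
    ring
  · show (pW wa (by simp)).symm * (pW wb (by simp)).symm = 1 * ((pW wb (by simp)).symm * (pW wa (by simp)).symm)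
    rw [one_mul]
    have e : (pW wb (by simp)) * (pW wa (by simp)) = (pW wa (by simp)) * (pW wb (by simp)) := by
      apply Equiv.ext
      intro p
      show fw wb (fw wa p) = fw wa (fw wb p)
      exact (chk_fw p).symm
    have e2 := congrArg (fun s : Perm ArrayPt => s⁻¹) e
    simp only [mul_inv_rev] at e2
    exact e2

theorem z₀_mem_comm : z₀ ∈ commutator ↥G₀ := by
  have h : ⁅eW wa (by simp), eW wb (by simp)⁆ = z₀ := by
    rw [commutatorElement_def, anti]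
    group
  rw [← h]
  exact Subgroup.commutator_mem_commutator (Subgroup.mem_top _) (Subgroup.mem_top _)

theorem sig_stem : Cfsg.IsStemExtension sig := by
  refine ⟨sig_surj, ker_center, ?_⟩
  intro x hx
  rcases ker_cases hx with rfl | rfl
  · exact Subgroup.one_mem _
  · exact z₀_mem_comm

theorem exists_stem : ∃ (Γ : Type) (_ : Group Γ) (_ : Finite Γ) (σ : Γ →* Q),
    Cfsg.IsStemExtension σ ∧ Nonempty (σ.ker ≃* Multiplicative (ZMod 2)) := by
  refine ⟨↥G₀, inferInstance, inferInstance, sig, sig_stem, ?_⟩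
  have h3 : Nat.card (Multiplicative (ZMod 2)) = 2 := by
    simp [Nat.card_eq_fintype_card]
  haveI : Fact (Nat.Prime 2) := ⟨Nat.prime_two⟩
  exact ⟨mulEquivOfPrimeCardEq card_ker h3⟩

end Cfsg.Agent.H09.M12E
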