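import Cfsg.Agent.Lib.H09.GolayLoc

/-! Explicit local data in the big group on twenty-four points. -/

set_option autoImplicit false
set_option maxRecDepth 100000

namespace Cfsg.Agent.H09.M24D

def cTc : List ℕ := [984596427564789721387544112480526880, 984231365539902711112212272294332544, 973036525332090237402986095811451392, 444735544762391657954875948457658592, 984082731748332854518575770205561056, 984123375989239305931250489838176864, 966277386469639599726426255640463968, 485705893435069122084451151149238944, 958042450292245703606664848834240672, 984231365539902711112212272294332544, 111820927002523462079650804811866496, 984123375989239305931250489838176864]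
def cA : ℕ := 460395533903735532087025966946310752
def cB : ℕ := 552275577327758723414770886862021088
def cC : ℕ := 335394384947214407292418412679682272
def kA : ℕ := 609433270059769348840678552665391272
def kB : ℕ := 229031834264802492899682846847238822
def kC : ℕ := 711495851100825622877846855179389577
def kD : ℕ := 504061430990462361432152408552817926
def kE : ℕ := 852405910682606603519450776922637702
def kF : ℕ := 502818332666586078433597145823383827
def kAC : ℕ := 586979875804656714184444293520140884
def kAD : ℕ := 143570629005896977938556917477888487
def kBD : ℕ := 850981102743717425094936349194748429
def kBE : ℕ := 234126369606640105112256053467499799
def kCE : ℕ := 734309992757955783082287154180718963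
def kDE : ℕ := 415900217970095682139052677145404086
def kAF : ℕ := 890731939620100360343723355713999023
def kBF : ℕ := 566047053754302592339425538775112053
def kCF : ℕ := 724754086972368273936755768769024712
def kDF : ℕ := 597208397593462630381870784139463955
def kEF : ℕ := 726500078036519381350873684883178902
def cX3 : ℕ := 438350542942938067458632115701268514
def cY3 : ℕ := 320207710395522978360192688820848740
def cW3 : ℕ := 610953358302031734799413185710495780
def cG1 : ℕ := 237119890994380351541602798876596484
def cG2 : ℕ := 610791590635658079030142033220180009

end Cfsg.Agent.H09.M24D
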