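import Cfsg.Agent.Lib.H09.DC6
import Cfsg.Agent.Lib.H09.GolayLoc
import Cfsg.Agent.Lib.H09.M24Data
import Cfsg.Agent.Lib.H09.M12Data
import Cfsg.Agent.Lib.H09.M11Iso

/-! The upper bound for the kernels of stem extensions of the stabiliser of the dodecad of squares. -/

set_option autoImplicit false
set_option linter.unusedSectionVars false
set_option linter.unusedVariables false
set_option linter.style.haveILetI false
set_option maxRecDepth 100000
open Cfsg

namespace Cfsg.Agent.H09.M12U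

open Cfsg.Agent.H09 Cfsg.Agent.H09.DC Cfsg.Agent.H09.M12D Cfsg.Agent.H27.Golay Cfsg.Agent.H07.Orb
open Cfsg.Agent.H09.M24D (cX3 cY3 cW3 cG1 cG2)
open Cfsg.Agent.H09.M11 (Dq dq_eq sq_mem)
open scoped Pointwise commutatorElement

universe u

abbrev Q := ↥Cfsg.Spor.M12

def is12 (c : ℕ) : Bool := isM24 c && Nat.beq (am c Dq) Dq

theorem hin : ∀ c, is12 c = true → P c ∈ Cfsg.Spor.M12 ∧ permOK c = true := by
  intro c h
  rw [is12, Bool.and_eq_true] at h
  have hok := isM24_permOK h.1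
  refine ⟨⟨P_mem_M24 h.1, ?_⟩, hok⟩
  show P c • Cfsg.Spor.squareDodecad = Cfsg.Spor.squareDodecad
  rw [dq_eq, ← fs_am hok, Nat.eq_of_beq_eq_true h.2]

theorem hcard : Nat.card Q = 95040 := by
  have h1 := Cfsg.Agent.H07.Orb.card_S0 sq_mem
  rw [← h1]
  exact Nat.card_congr ⟨fun x => ⟨⟨x.1, x.2.1⟩, x.2.2⟩, fun y => ⟨y.1.1, ⟨y.1.2, y.2⟩⟩, fun x => rfl, fun y => rfl⟩

theorem mk_ne {c : ℕ} (hc : permOK c = true) (h : pEq c idCode = false) : P c ≠ 1 := by
  intro e
  rw [← P_idCode] at e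
  rw [(pEq_iff hc idc_ok).2 e] at h
  cases h

theorem isConj_of_code {e x k : ℕ} (he : is12 e = true) (hk : is12 k = true) (g : Q)
    (hg : (g : Equiv.Perm GolayPt) = P x) (hx : permOK x = true) (h : pEq (pconj k e) x = true) :
    IsConj (mk hin e he) g := by
  have hk' := (hin k hk).2
  have he' := (hin e he).2
  rw [isConj_iff]
  refine ⟨mk hin k hk, Subtype.ext ?_⟩
  have h3 := (pEq_iff (permOK_pconj hk' he') hx).1 h
  rw [P_pconj hk' he'] at h3
  show P k * P e * (P k)⁻¹ = _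
  rw [h3, hg]

theorem comm_code {c d : ℕ} (hc : permOK c = true) (hd : permOK d = true)
    (h : pEq (pcomp c d) (pcomp d c) = true) : P c * P d = P d * P c := by
  rw [← P_pcomp hc hd, ← P_pcomp hd hc]
  exact (pEq_iff (permOK_pcomp hc hd) (permOK_pcomp hd hc)).1 h

theorem sq_code {c : ℕ} (hc : permOK c = true) (h : pEq (pcomp c c) idCode = true) : P c ^ 2 = 1 := by
  have h1 := (pEq_iff (permOK_pcomp hc hc) idc_ok).1 h
  rw [P_pcomp hc hc, P_idCode] at h1
  rw [pow_two]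
  exact h1

theorem cube_of_code {c : ℕ} (hc : permOK c = true) (h : pEq (pcomp c (pcomp c c)) idCode = true) : P c ^ 3 = 1 := by
  have h1 := (pEq_iff (permOK_pcomp hc (permOK_pcomp hc hc)) idc_ok).1 h
  rw [P_pcomp hc (permOK_pcomp hc hc), P_pcomp hc hc, P_idCode] at h1
  rw [pow_succ', pow_two]
  exact h1

/-! ### Elements -/

theorem h_q1 : is12 cQ1 = true := by decide +kernel
theorem h_q3 : is12 cQ3 = true := by decide +kernel
theorem h_g : is12 cG = true := by decide +kernel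
theorem h_v1 : is12 cV1 = true := by decide +kernel
theorem h_v2 : is12 cV2 = true := by decide +kernel
theorem h_v3 : is12 cV3 = true := by decide +kernel
theorem h_xA : is12 cXA = true := by decide +kernel
theorem h_yA : is12 cYA = true := by decide +kernel

theorem ok_q1 : permOK cQ1 = true := (hin _ h_q1).2
theorem ok_q3 : permOK cQ3 = true := (hin _ h_q3).2
theorem ok_g : permOK cG = true := (hin _ h_g).2
theorem ok_v1 : permOK cV1 = true := (hin _ h_v1).2
theorem ok_v2 : permOK cV2 = true := (hin _ h_v2).2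
theorem ok_v3 : permOK cV3 = true := (hin _ h_v3).2
theorem ok_xA : permOK cXA = true := (hin _ h_xA).2
theorem ok_yA : permOK cYA = true := (hin _ h_yA).2

noncomputable abbrev q1 : Q := mk hin cQ1 h_q1
noncomputable abbrev q3 : Q := mk hin cQ3 h_q3
noncomputable abbrev gg : Q := mk hin cG h_g
noncomputable abbrev v1 : Q := mk hin cV1 h_v1
noncomputable abbrev v2 : Q := mk hin cV2 h_v2
noncomputable abbrev v3 : Q := mk hin cV3 h_v3
noncomputable abbrev xA : Q := mk hin cXA h_xA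
noncomputable abbrev yA : Q := mk hin cYA h_yA

noncomputable abbrev q2 : Q := gg * q1 * gg⁻¹
noncomputable abbrev q4 : Q := gg * q3 * gg⁻¹

def cQ2 : ℕ := pconj cG cQ1
def cQ4 : ℕ := pconj cG cQ3

theorem ok_q2 : permOK cQ2 = true := permOK_pconj ok_g ok_q1
theorem ok_q4 : permOK cQ4 = true := permOK_pconj ok_g ok_q3

theorem coe_q2 : (q2 : Equiv.Perm GolayPt) = P cQ2 := by
  rw [cQ2, P_pconj ok_g ok_q1]
  rfl

theorem coe_q4 : (q4 : Equiv.Perm GolayPt) = P cQ4 := by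
  rw [cQ4, P_pconj ok_g ok_q3]
  rfl

def cZ : ℕ := pcomp (pcomp cQ1 cQ2) (pcomp cQ1 cQ2)

theorem ok_z : permOK cZ = true := permOK_pcomp (permOK_pcomp ok_q1 ok_q2) (permOK_pcomp ok_q1 ok_q2)

theorem coe_z : (((q1 * q2) ^ 2 : Q) : Equiv.Perm GolayPt) = P cZ := by
  rw [cZ, P_pcomp (permOK_pcomp ok_q1 ok_q2) (permOK_pcomp ok_q1 ok_q2), P_pcomp ok_q1 ok_q2, pow_two]
  show ((q1 : Equiv.Perm GolayPt) * (q2 : Equiv.Perm GolayPt)) * ((q1 : Equiv.Perm GolayPt) * (q2 : Equiv.Perm GolayPt)) = _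
  rw [coe_q2]
  rfl

theorem mul_coe {a b : Q} {c d : ℕ} (hc : permOK c = true) (hd : permOK d = true)
    (h1 : (a : Equiv.Perm GolayPt) = P c) (h2 : (b : Equiv.Perm GolayPt) = P d) :
    ((a * b : Q) : Equiv.Perm GolayPt) = P (pcomp c d) := by
  rw [P_pcomp hc hd, ← h1, ← h2]
  rfl

/-! ### The class of fixed point free involutions and the other class -/

noncomputable abbrev eA : Q := xA
noncomputable abbrev eB : Q := v1

theorem c_q1 : IsConj eA q1 := isConj_of_code h_xA (k := kq1) (by decide +kernel) q1 rfl ok_q1 (by decide +kernel)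
theorem c_q3 : IsConj eA q3 := isConj_of_code h_xA (k := kq3) (by decide +kernel) q3 rfl ok_q3 (by decide +kernel)
theorem c_g : IsConj eB gg := isConj_of_code h_v1 (k := kg) (by decide +kernel) gg rfl ok_g (by decide +kernel)
theorem c_z : IsConj eB ((q1 * q2) ^ 2) :=
  isConj_of_code h_v1 (k := kz) (by decide +kernel) _ coe_z ok_z (by decide +kernel)
theorem c_13 : IsConj eA (q1 * q3) :=
  isConj_of_code h_xA (k := k13) (by decide +kernel) _ (mul_coe ok_q1 ok_q3 rfl rfl) (permOK_pcomp ok_q1 ok_q3)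
    (by decide +kernel)
theorem c_14 : IsConj eB (q1 * q4) :=
  isConj_of_code h_v1 (k := k14) (by decide +kernel) _ (mul_coe ok_q1 ok_q4 rfl coe_q4) (permOK_pcomp ok_q1 ok_q4)
    (by decide +kernel)
theorem c_23 : IsConj eB (q2 * q3) :=
  isConj_of_code h_v1 (k := k23) (by decide +kernel) _ (mul_coe ok_q2 ok_q3 coe_q2 rfl) (permOK_pcomp ok_q2 ok_q3)
    (by decide +kernel)
theorem c_24 : IsConj eA (q2 * q4) :=
  isConj_of_code h_xA (k := k24) (by decide +kernel) _ (mul_coe ok_q2 ok_q4 coe_q2 coe_q4) (permOK_pcomp ok_q2 ok_q4)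
    (by decide +kernel)
theorem c_1234 : IsConj eB (q1 * q2 * (q3 * q4)) :=
  isConj_of_code h_v1 (k := k1234) (by decide +kernel) _
    (mul_coe (permOK_pcomp ok_q1 ok_q2) (permOK_pcomp ok_q3 ok_q4) (mul_coe ok_q1 ok_q2 rfl coe_q2)
      (mul_coe ok_q3 ok_q4 rfl coe_q4))
    (permOK_pcomp (permOK_pcomp ok_q1 ok_q2) (permOK_pcomp ok_q3 ok_q4)) (by decide +kernel)

theorem c_v2 : IsConj eB v2 := isConj_of_code h_v1 (k := kv2) (by decide +kernel) v2 rfl ok_v2 (by decide +kernel)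
theorem c_v3 : IsConj eB v3 := isConj_of_code h_v1 (k := kv3) (by decide +kernel) v3 rfl ok_v3 (by decide +kernel)
theorem c_v12 : IsConj eB (v1 * v2) :=
  isConj_of_code h_v1 (k := kv12) (by decide +kernel) _ (mul_coe ok_v1 ok_v2 rfl rfl) (permOK_pcomp ok_v1 ok_v2)
    (by decide +kernel)
theorem c_v13 : IsConj eB (v1 * v3) :=
  isConj_of_code h_v1 (k := kv13) (by decide +kernel) _ (mul_coe ok_v1 ok_v3 rfl rfl) (permOK_pcomp ok_v1 ok_v3)
    (by decide +kernel)
theorem c_v23 : IsConj eB (v2 * v3) :=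
  isConj_of_code h_v1 (k := kv23) (by decide +kernel) _ (mul_coe ok_v2 ok_v3 rfl rfl) (permOK_pcomp ok_v2 ok_v3)
    (by decide +kernel)
theorem c_v123 : IsConj eB (v1 * (v2 * v3)) :=
  isConj_of_code h_v1 (k := kv123) (by decide +kernel) _
    (mul_coe ok_v1 (permOK_pcomp ok_v2 ok_v3) rfl (mul_coe ok_v2 ok_v3 rfl rfl))
    (permOK_pcomp ok_v1 (permOK_pcomp ok_v2 ok_v3)) (by decide +kernel)

theorem c_yA : IsConj eA yA := isConj_of_code h_xA (k := kyA) (by decide +kernel) yA rfl ok_yA (by decide +kernel)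
theorem c_xy : IsConj eA (xA * yA) :=
  isConj_of_code h_xA (k := kxy) (by decide +kernel) _ (mul_coe ok_xA ok_yA rfl rfl) (permOK_pcomp ok_xA ok_yA)
    (by decide +kernel)

theorem eA2 : eA ^ 2 = 1 := Subtype.ext (sq_code ok_xA (by decide +kernel))
theorem eB2 : eB ^ 2 = 1 := Subtype.ext (sq_code ok_v1 (by decide +kernel))
theorem xy_comm : xA * yA = yA * xA := Subtype.ext (comm_code ok_xA ok_yA (by decide +kernel))
theorem v12 : v1 * v2 = v2 * v1 := Subtype.ext (comm_code ok_v1 ok_v2 (by decide +kernel))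
theorem v13 : v1 * v3 = v3 * v1 := Subtype.ext (comm_code ok_v1 ok_v3 (by decide +kernel))
theorem v23 : v2 * v3 = v3 * v2 := Subtype.ext (comm_code ok_v2 ok_v3 (by decide +kernel))

/-! ### The order of the Sylow subgroup -/

theorem zle {m c : ℕ} {g : Q} (hg : (g : Equiv.Perm GolayPt) = P c) (hc : permOK c = true) (h : am c m = m) :
    Subgroup.zpowers g ≤ maskSub _ m := by
  rw [Subgroup.zpowers_le]
  exact mem_maskSub_code hg hc h

noncomputable abbrev x1 : Q := gg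
noncomputable abbrev x2 : Q := q1 * q2 * (q3 * q4)
noncomputable abbrev x3 : Q := q1 * q2 * (q4 * q3)
noncomputable abbrev x4 : Q := q1 * q4
noncomputable abbrev x5 : Q := q3 * q4
noncomputable abbrev x6 : Q := q1

def dX2 : ℕ := pcomp (pcomp cQ1 cQ2) (pcomp cQ3 cQ4)
def dX3 : ℕ := pcomp (pcomp cQ1 cQ2) (pcomp cQ4 cQ3)
def dX4 : ℕ := pcomp cQ1 cQ4
def dX5 : ℕ := pcomp cQ3 cQ4

theorem ok_x2 : permOK dX2 = true := permOK_pcomp (permOK_pcomp ok_q1 ok_q2) (permOK_pcomp ok_q3 ok_q4)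
theorem ok_x3 : permOK dX3 = true := permOK_pcomp (permOK_pcomp ok_q1 ok_q2) (permOK_pcomp ok_q4 ok_q3)
theorem ok_x4 : permOK dX4 = true := permOK_pcomp ok_q1 ok_q4
theorem ok_x5 : permOK dX5 = true := permOK_pcomp ok_q3 ok_q4

theorem coe_x2 : (x2 : Equiv.Perm GolayPt) = P dX2 :=
  mul_coe (permOK_pcomp ok_q1 ok_q2) (permOK_pcomp ok_q3 ok_q4) (mul_coe ok_q1 ok_q2 rfl coe_q2) (mul_coe ok_q3 ok_q4 rfl coe_q4)
theorem coe_x3 : (x3 : Equiv.Perm GolayPt) = P dX3 :=
  mul_coe (permOK_pcomp ok_q1 ok_q2) (permOK_pcomp ok_q4 ok_q3) (mul_coe ok_q1 ok_q2 rfl coe_q2) (mul_coe ok_q4 ok_q3 coe_q4 rfl)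
theorem coe_x4 : (x4 : Equiv.Perm GolayPt) = P dX4 := mul_coe ok_q1 ok_q4 rfl coe_q4
theorem coe_x5 : (x5 : Equiv.Perm GolayPt) = P dX5 := mul_coe ok_q3 ok_q4 rfl coe_q4

theorem hP0 : 64 ≤ Nat.card ↥((⊥ : Subgroup Q) ⊔ Subgroup.zpowers x1 ⊔ Subgroup.zpowers x2 ⊔ Subgroup.zpowers x3 ⊔
    Subgroup.zpowers x4 ⊔ Subgroup.zpowers x5 ⊔ Subgroup.zpowers x6) := by
  have s1 : x1 ∉ (⊥ : Subgroup Q) := fun hm =>
    not_mem_maskSub_code (g := x1) rfl ok_g (m := 4) (by decide +kernel) (by decide +kernel) (by decide +kernel)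
      ((bot_le : (⊥ : Subgroup Q) ≤ _) hm)
  have s2 : x2 ∉ (⊥ : Subgroup Q) ⊔ Subgroup.zpowers x1 := fun hm =>
    not_mem_maskSub_code coe_x2 ok_x2 (m := 1) (by decide +kernel) (by decide +kernel) (by decide +kernel)
      ((sup_le bot_le (zle (g := x1) rfl ok_g (by decide +kernel))) hm)
  have s3 : x3 ∉ (⊥ : Subgroup Q) ⊔ Subgroup.zpowers x1 ⊔ Subgroup.zpowers x2 := fun hm =>
    not_mem_maskSub_code coe_x3 ok_x3 (m := 260) (by decide +kernel) (by decide +kernel) (by decide +kernel)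
      ((sup_le (sup_le bot_le (zle (g := x1) rfl ok_g (by decide +kernel)))
        (zle coe_x2 ok_x2 (by decide +kernel))) hm)
  have s4 : x4 ∉ (⊥ : Subgroup Q) ⊔ Subgroup.zpowers x1 ⊔ Subgroup.zpowers x2 ⊔ Subgroup.zpowers x3 := fun hm =>
    not_mem_maskSub_code coe_x4 ok_x4 (m := 3) (by decide +kernel) (by decide +kernel) (by decide +kernel)
      ((sup_le (sup_le (sup_le bot_le (zle (g := x1) rfl ok_g (by decide +kernel)))
        (zle coe_x2 ok_x2 (by decide +kernel))) (zle coe_x3 ok_x3 (by decide +kernel))) hm)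
  have s5 : x5 ∉ (⊥ : Subgroup Q) ⊔ Subgroup.zpowers x1 ⊔ Subgroup.zpowers x2 ⊔ Subgroup.zpowers x3 ⊔ Subgroup.zpowers x4 := fun hm =>
    not_mem_maskSub_code coe_x5 ok_x5 (m := 65552) (by decide +kernel) (by decide +kernel) (by decide +kernel)
      ((sup_le (sup_le (sup_le (sup_le bot_le (zle (g := x1) rfl ok_g (by decide +kernel)))
        (zle coe_x2 ok_x2 (by decide +kernel))) (zle coe_x3 ok_x3 (by decide +kernel)))
        (zle coe_x4 ok_x4 (by decide +kernel))) hm)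
  have s6 : x6 ∉ (⊥ : Subgroup Q) ⊔ Subgroup.zpowers x1 ⊔ Subgroup.zpowers x2 ⊔ Subgroup.zpowers x3 ⊔ Subgroup.zpowers x4 ⊔
      Subgroup.zpowers x5 := fun hm =>
    not_mem_maskSub_code (g := x6) rfl ok_q1 (m := 8964) (by decide +kernel) (by decide +kernel) (by decide +kernel)
      ((sup_le (sup_le (sup_le (sup_le (sup_le bot_le (zle (g := x1) rfl ok_g (by decide +kernel)))
        (zle coe_x2 ok_x2 (by decide +kernel))) (zle coe_x3 ok_x3 (by decide +kernel)))
        (zle coe_x4 ok_x4 (by decide +kernel))) (zle coe_x5 ok_x5 (by decide +kernel))) hm)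
  have c1 := strict_step s1
  have c2 := strict_step s2
  have c3 := strict_step s3
  have c4 := strict_step s4
  have c5 := strict_step s5
  have c6 := strict_step s6
  have c0 : Nat.card (⊥ : Subgroup Q) = 1 := Subgroup.card_bot
  omega

theorem sup_bound {G : Type*} [Group G] {a b c d g z : G} :
    (⊥ : Subgroup G) ⊔ Subgroup.zpowers g ⊔ Subgroup.zpowers (a * b * (c * d)) ⊔ Subgroup.zpowers (a * b * (d * c)) ⊔
    Subgroup.zpowers (a * d) ⊔ Subgroup.zpowers (c * d) ⊔ Subgroup.zpowers a ≤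
    Subgroup.zpowers z ⊔ Subgroup.zpowers a ⊔ Subgroup.zpowers b ⊔ Subgroup.zpowers c ⊔
    Subgroup.zpowers d ⊔ Subgroup.zpowers g := by
  generalize hR : Subgroup.zpowers z ⊔ Subgroup.zpowers a ⊔ Subgroup.zpowers b ⊔ Subgroup.zpowers c ⊔
    Subgroup.zpowers d ⊔ Subgroup.zpowers g = R
  have mg : g ∈ R := by
    rw [← hR]
    exact (le_sup_right : Subgroup.zpowers g ≤ _) (Subgroup.mem_zpowers g)
  have md : d ∈ R := by
    rw [← hR]
    exact (le_sup_of_le_left le_sup_right : Subgroup.zpowers d ≤ _) (Subgroup.mem_zpowers d)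
  have mc : c ∈ R := by
    rw [← hR]
    exact (le_sup_of_le_left (le_sup_of_le_left le_sup_right) : Subgroup.zpowers c ≤ _) (Subgroup.mem_zpowers c)
  have mb : b ∈ R := by
    rw [← hR]
    exact (le_sup_of_le_left (le_sup_of_le_left (le_sup_of_le_left le_sup_right)) : Subgroup.zpowers b ≤ _)
      (Subgroup.mem_zpowers b)
  have ma : a ∈ R := by
    rw [← hR]
    exact (le_sup_of_le_left (le_sup_of_le_left (le_sup_of_le_left (le_sup_of_le_left le_sup_right))) : Subgroup.zpowers a ≤ _)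
      (Subgroup.mem_zpowers a)
  refine sup_le (sup_le (sup_le (sup_le (sup_le (sup_le bot_le ?_) ?_) ?_) ?_) ?_) ?_
  · rw [Subgroup.zpowers_le]
    exact mg
  · rw [Subgroup.zpowers_le]
    exact R.mul_mem (R.mul_mem ma mb) (R.mul_mem mc md)
  · rw [Subgroup.zpowers_le]
    exact R.mul_mem (R.mul_mem ma mb) (R.mul_mem md mc)
  · rw [Subgroup.zpowers_le]
    exact R.mul_mem ma md
  · rw [Subgroup.zpowers_le]
    exact R.mul_mem mc md
  · rw [Subgroup.zpowers_le]
    exact ma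

theorem hP : 64 ≤ Nat.card ↥(Subgroup.zpowers ((q1 * q2) ^ 2) ⊔ Subgroup.zpowers q1 ⊔ Subgroup.zpowers q2 ⊔
      Subgroup.zpowers q3 ⊔ Subgroup.zpowers q4 ⊔ Subgroup.zpowers gg) :=
  hP0.trans (Subgroup.card_le_of_le sup_bound)

/-! ### Kernels of order two -/

theorem I1_eB {Δ : Type*} [Group Δ] [Finite Δ] (τ : Δ →* Q) (hτ : Cfsg.IsStemExtension τ) (hc : Nat.card τ.ker = 2) :
    I1 τ eB := by
  obtain ⟨z, hzk, hz1, hz2, hzo, hK⟩ := Cfsg.Agent.H09.ker_two τ hc
  exact I1_of_triple hτ.1 hτ.2.1 hzk hz2 hz1 hK eB2 v12 v13 v23 c_v2 c_v3 c_v12 c_v13 c_v23 c_v123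

theorem not_I1_eA {Δ : Type*} [Group Δ] [Finite Δ] (τ : Δ →* Q) (hτ : Cfsg.IsStemExtension τ)
    (hc : Nat.card τ.ker = 2) : ¬ I1 τ eA := by
  intro hA
  have hB := I1_eB τ hτ hc
  have hs := hτ.1
  exact two_part_E32 τ hτ hc (q₁ := q1) (q₃ := q3) (g := gg) (q₂ := q2) (q₄ := q4) rfl rfl
    (I1_conj hs hA c_q1) (I1_conj hs hA c_q3) (I1_conj hs hB c_g) (I1_conj hs hB c_z)
    (I1_conj hs hA c_13) (I1_conj hs hB c_14) (I1_conj hs hB c_23) (I1_conj hs hA c_24)
    (I1_conj hs hB c_1234) (m := 1485) (by rw [hcard]) (by decide) hP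

theorem no_four_M12 {Δ : Type} [Group Δ] [Finite Δ] (τ : Δ →* Q) (hτ : Cfsg.IsStemExtension τ)
    (hc : Nat.card τ.ker = 4) : False :=
  no_four eA2 xy_comm (IsConj.refl _) c_yA c_xy (fun Δ _ _ τ hτ hc => not_I1_eA τ hτ hc) τ hτ hc

/-! ### Odd primes -/

theorem h_x : is12 cX3 = true := by decide +kernel
theorem h_y : is12 cY3 = true := by decide +kernel
theorem h_w : is12 cW3 = true := by decide +kernel
theorem h_g1 : is12 cG1 = true := by decide +kernel
theorem h_g2 : is12 cG2 = true := by decide +kernel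
theorem ok_x : permOK cX3 = true := (hin _ h_x).2
theorem ok_y : permOK cY3 = true := (hin _ h_y).2
theorem ok_w : permOK cW3 = true := (hin _ h_w).2
theorem ok_g1 : permOK cG1 = true := (hin _ h_g1).2
theorem ok_g2 : permOK cG2 = true := (hin _ h_g2).2

noncomputable abbrev xx : Q := mk hin cX3 h_x
noncomputable abbrev yy : Q := mk hin cY3 h_y
noncomputable abbrev ww : Q := mk hin cW3 h_w
noncomputable abbrev g1 : Q := mk hin cG1 h_g1
noncomputable abbrev g2 : Q := mk hin cG2 h_g2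

theorem x33 : xx ^ 3 = 1 := Subtype.ext (cube_of_code ok_x (by decide +kernel))
theorem y33 : yy ^ 3 = 1 := Subtype.ext (cube_of_code ok_y (by decide +kernel))
theorem w33 : ww ^ 3 = 1 := Subtype.ext (cube_of_code ok_w (by decide +kernel))
theorem w1 : ww ≠ 1 := fun h => mk_ne ok_w (by decide +kernel) (congrArg Subtype.val h)

theorem hw_comm : ww = ⁅xx, yy⁆ := by
  apply Subtype.ext
  rw [commutatorElement_def]
  show P cW3 = P cX3 * P cY3 * (P cX3)⁻¹ * (P cY3)⁻¹
  rw [← P_pinv ok_x, ← P_pinv ok_y, ← P_pcomp ok_x ok_y, ← P_pcomp (permOK_pcomp ok_x ok_y) (permOK_pinv ok_x),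
    ← P_pcomp (permOK_pcomp (permOK_pcomp ok_x ok_y) (permOK_pinv ok_x)) (permOK_pinv ok_y)]
  exact (pEq_iff ok_w (permOK_pcomp (permOK_pcomp (permOK_pcomp ok_x ok_y) (permOK_pinv ok_x)) (permOK_pinv ok_y))).1
    (by decide +kernel)

theorem xw : xx * ww = ww * xx := Subtype.ext (comm_code ok_x ok_w (by decide +kernel))
theorem yw : yy * ww = ww * yy := Subtype.ext (comm_code ok_y ok_w (by decide +kernel))

theorem conj_fix {k c : ℕ} (hk : permOK k = true) (hc : permOK c = true) (h : pEq (pconj k c) c = true) :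
    P k * P c * (P k)⁻¹ = P c := by
  rw [← P_pconj hk hc]
  exact (pEq_iff (permOK_pconj hk hc) hc).1 h

theorem conj_inv {k c : ℕ} (hk : permOK k = true) (hc : permOK c = true) (h : pEq (pconj k c) (pinv c) = true) :
    P k * P c * (P k)⁻¹ = (P c)⁻¹ := by
  rw [← P_pconj hk hc, ← P_pinv hc]
  exact (pEq_iff (permOK_pconj hk hc) (permOK_pinv hc)).1 h

theorem g1x : g1 * xx * g1⁻¹ = xx := Subtype.ext (conj_fix ok_g1 ok_x (by decide +kernel))
theorem g1y : g1 * yy * g1⁻¹ = yy⁻¹ := Subtype.ext (conj_inv ok_g1 ok_y (by decide +kernel))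
theorem g2x : g2 * xx * g2⁻¹ = xx⁻¹ := Subtype.ext (conj_inv ok_g2 ok_x (by decide +kernel))
theorem g2y : g2 * yy * g2⁻¹ = yy := Subtype.ext (conj_fix ok_g2 ok_y (by decide +kernel))

theorem hnx : xx ∉ Subgroup.zpowers ww := fun hm =>
  not_mem_maskSub_code (g := xx) rfl ok_x (m := 131072) (by decide +kernel) (by decide +kernel) (by decide +kernel)
    ((zle (g := ww) rfl ok_w (by decide +kernel)) hm)

theorem hny : yy ∉ Subgroup.zpowers ww ⊔ Subgroup.zpowers xx := fun hm =>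
  not_mem_maskSub_code (g := yy) rfl ok_y (m := 2) (by decide +kernel) (by decide +kernel) (by decide +kernel)
    ((sup_le (zle (g := ww) rfl ok_w (by decide +kernel)) (zle (g := xx) rfl ok_x (by decide +kernel))) hm)

theorem card_T : Nat.card (Subgroup.closure ({xx, yy} : Set Q)) = 27 :=
  card_extra x33 y33 w33 w1 hw_comm xw yw hnx hny

theorem index_T : ¬ 3 ∣ (Subgroup.closure ({xx, yy} : Set Q)).index := by
  have h := Subgroup.card_mul_index (Subgroup.closure ({xx, yy} : Set Q))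
  rw [card_T, hcard] at h
  have : (Subgroup.closure ({xx, yy} : Set Q)).index = 3520 := by omega
  rw [this]
  decide

theorem no_odd {Δ : Type} [Group Δ] [Finite Δ] (τ : Δ →* Q) (hτ : Cfsg.IsStemExtension τ) (r : ℕ) (hr : r.Prime)
    (hr2 : r ≠ 2) (hc : Nat.card τ.ker = r) : False := by
  obtain ⟨z, hzk, hzo⟩ := exists_of_card_prime τ hr hc
  by_cases hr3 : r = 3
  · subst hr3
    exact three_part_ext τ hτ hc x33 hw_comm w1 w33 xw yw g1x g1y g2x g2y index_T hzk hzo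
  refine odd_part τ hτ hr ?_ hzk hzo
  rw [hcard]
  intro hd
  have h1 : Nat.Coprime r 1728 := by
    have e : (1728 : ℕ) = 2 ^ 6 * 3 ^ 3 := by norm_num
    rw [e]
    apply Nat.Coprime.mul_right
    · exact Nat.Coprime.pow_right _ ((Nat.coprime_primes hr Nat.prime_two).2 hr2)
    · exact Nat.Coprime.pow_right _ ((Nat.coprime_primes hr Nat.prime_three).2 hr3)
  have h2 : r ^ 2 ∣ 55 := by
    have e : (95040 : ℕ) = 1728 * 55 := by norm_num
    rw [e] at hd
    exact (Nat.Coprime.pow_left 2 h1).dvd_of_dvd_mul_left hd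
  have h3 : r ^ 2 ≤ 55 := Nat.le_of_dvd (by norm_num) h2
  have h4 : r ≤ 7 := by nlinarith
  have hall : ∀ r ≤ 7, 1 < r → ¬ r ^ 2 ∣ 55 := by decide
  exact hall r h4 hr.one_lt h2

/-- Every stem extension of the stabiliser of the dodecad has kernel of order at most two. -/
theorem upper {Γ : Type} [Group Γ] [Finite Γ] (σ : Γ →* Q) (hσ : Cfsg.IsStemExtension σ) :
    ∃ π : Multiplicative (ZMod 2) →* σ.ker, Function.Surjective π :=
  card_ker_le_two (fun Δ _ _ τ hτ r hr hr2 hc => no_odd τ hτ r hr hr2 hc)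
    (fun Δ _ _ τ hτ hc => no_four_M12 τ hτ hc) σ hσ

end Cfsg.Agent.H09.M12U
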