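import Cfsg.Agent.Lib.H09.GolayLoc

/-! Explicit local data in the stabiliser of a point. -/

set_option autoImplicit false
set_option maxRecDepth 100000

namespace Cfsg.Agent.H09.M23

def cV : List ℕ := [983958605149775143608773148715124917, 984005718900082437371806535597427365, 984077457368352160507508212279970308, 984124801383742573109083487775754435, 984162663276221444552740466076092417, 984207160252068927701783662164084880, 984244609896413710043373417981905298, 984431475512839961691447754305964273, 984508380176579596032227079304546804, 984555069587597428400053748177111507, 984598658660339752293784067914106982, 984635166974843010180109343742429772, 984678211850491818391509070824049191, 984713091001982652858585650842274447, 984778218944216551874670767359003246, 984818244535754528103549039458486304]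
def cK : List ℕ := [968491459014986818453803157606837395, 984818244535754528103549039458486304, 983980997237500267196073753245821447, 973035296170030194714822076415553091, 967208834482580974695290376806834383, 968407949008664992711200135735127184, 972466080119924334558391092761930293, 969238241764560010853974849510389135, 972519560118981188985227613498941680, 967126811327332769398801274265262548, 958245537991037696485198828313914384, 970519940023496531137673867640907296, 968671563568398941913809269744446476, 966538556942269961003588301035395758, 967897152782059196606707707311839916, 984818244535754528103549039458486304]
def cT : List ℕ := [984147138776120681476489523831022240, 969802392135505242999596880523037312, 984082731748332854518575770205561056, 968533918234313009572664411116177984, 984205367121054440785130950284157504, 967738625458649540582623514915473984, 984591276767162590331777708581292512]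
def cE1 : ℕ := 984005718900082437371806535597427365
def cE2 : ℕ := 984778218944216551874670767359003246
def cE3 : ℕ := 984598658660339752293784067914106982
def cA : ℕ := 984815434334561325912895118470422688
def cB : ℕ := 984554568221901594793627773764150368
def kA : ℕ := 984721225920680244970592923999676807
def kB : ℕ := 972836995022102033254731705853981269
def kU : ℕ := 956216785664587541689229701889346729
def cA3 : ℕ := 984123375989239305931250489838176864
def cB3 : ℕ := 984128167124347093529050474050396320
def cG3 : ℕ := 955854963428009254220495095466362934

end Cfsg.Agent.H09.M23
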