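import Cfsg.Agent.Lib.H09.Short

/-! The structure of a minimal failure of control of transfer. -/

set_option autoImplicit false
set_option linter.unusedSectionVars false
set_option linter.unusedVariables false

namespace Cfsg.Agent.H09

open Cfsg
open scoped commutatorElement

universe u

section
variable {p : ℕ} [hp : Fact p.Prime] {𝓦 : Set (∀ (Q : Type u) [Group Q], Subgroup Q)}
variable {G : Type u} [Group G] [Finite G]

set_option quotPrecheck false in
local notation:max "𝐍" T:max => Subgroup.normalizer ((T : Subgroup G) : Set G)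
set_option quotPrecheck false in
local notation:65 T:66 " ⋆ " g:66 => Subgroup.map (MulAut.conj g).toMonoidHom T

theorem TD_eq (𝓦 : Set (∀ (Q : Type u) [Group Q], Subgroup Q)) (S : Subgroup G) :
    TD (indF 𝓦 G) S = ⨆ W ∈ 𝓦, S ⊓ ⁅𝐍 (inducedFunctor (G := G) W S), 𝐍 (inducedFunctor (G := G) W S)⁆ := by
  refine le_antisymm ?_ ?_
  · refine iSup₂_le fun F hF => ?_
    obtain ⟨W, hW, rfl⟩ := hF
    refine le_iSup₂_of_le (f := fun W (_ : W ∈ 𝓦) =>
      S ⊓ ⁅𝐍 (inducedFunctor (G := G) W S), 𝐍 (inducedFunctor (G := G) W S)⁆) W hW ?_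
    rw [top_inf_eq]
  · refine iSup₂_le fun W hW => ?_
    have hW' : inducedFunctor (G := G) W ∈ indF 𝓦 G := ⟨W, hW, rfl⟩
    refine le_trans ?_ (term_le_TD hW' S)
    rw [top_inf_eq]

/-- The main structure theorem: all the conclusions, for the subgroup `D`. -/
theorem minfail_structure (h𝓦 : ∀ W ∈ 𝓦, IsCharPFunctor.{u} p W) (hne : 𝓦.Nonempty) (S : Sylow p G)
    (ih' : ∀ (Y : Type u) [Group Y] [Finite Y], Nat.card Y < Nat.card G → Involves Y G →
      FamilyControlsTransferIn p (indF 𝓦 Y) ⊤)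
    (hG : ¬ FamilyControlsTransferIn p (indF 𝓦 G) ⊤) :
    Subgroup.centralizer (pCore p G : Set G) ≤ pCore p G ∧
    (𝐍 (TD (indF 𝓦 G) S ⊓ pCore p G) ≠ ⊤ ∧ ∀ H : Subgroup G, (S : Subgroup G) ≤ H → H ≠ ⊤ →
      H ≤ 𝐍 (TD (indF 𝓦 G) S ⊓ pCore p G)) ∧
    (⁅pCore p G, 𝐍 (TD (indF 𝓦 G) S ⊓ pCore p G)⁆ ≤ pCore p G ⊓ ⁅𝐍 (TD (indF 𝓦 G) S ⊓ pCore p G), 𝐍 (TD (indF 𝓦 G) S ⊓ pCore p G)⁆ ∧
      pCore p G ⊓ ⁅𝐍 (TD (indF 𝓦 G) S ⊓ pCore p G), 𝐍 (TD (indF 𝓦 G) S ⊓ pCore p G)⁆ ≤ pCore p G ⊓ TD (indF 𝓦 G) S) ∧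
    ∀ u : G, u ∈ (S : Subgroup G) → u ∉ pCore p G → ∃ U V : Subgroup G, IsChiefFactor U V ∧
      U ≤ pCore p G ∧ ¬ iterCommutator U (Subgroup.zpowers u) (p - 1) ≤ V := by
  classical
  set D : Subgroup G := TD (indF 𝓦 G) S with hD
  set O : Subgroup G := pCore p G with hOdef
  haveI hOn : O.Normal := H01.pCore_normal p
  have hSp := S.isPGroup'
  have hOS : O ≤ (S : Subgroup G) := H01.pCore_le_sylow p S
  have hOp : IsPGroup p O := H01.pCore_isPGroup p
  have hmax : ∀ V : Subgroup G, V.Normal → IsPGroup p V → V ≤ O := fun V h1 h2 => H01.le_pCore h1 h2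
  have hSD : ¬ (S : Subgroup G) ⊓ ⁅(⊤ : Subgroup G), (⊤ : Subgroup G)⁆ ≤ D :=
    fun h => hG (familyTransfer_of_le S h)
  have hOD : ¬ O ⊓ ⁅(⊤ : Subgroup G), (⊤ : Subgroup G)⁆ ≤ D :=
    fun h => hSD (transfer_step h𝓦 S ih' (fun _ => h))
  have hcon : Subgroup.centralizer (O : Set G) ≤ O := by
    by_contra h
    exact hSD (transfer_step h𝓦 S ih' (fun h' => absurd h' h))
  have hover : ∀ K : Subgroup G, (S : Subgroup G) ≤ K → K ≠ ⊤ → (S : Subgroup G) ⊓ ⁅K, K⁆ ≤ D := by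
    intro K hSK hK
    exact transfer_over h𝓦 S K hSK (ih' K (card_sub_lt K hK) (involves_subgroup K))
  -- `S` is not normal
  have hSnn : 𝐍 (S : Subgroup G) ≠ ⊤ := by
    intro h
    obtain ⟨W, hW⟩ := hne
    apply hSD
    have hW' : inducedFunctor (G := G) W ∈ indF 𝓦 G := ⟨W, hW, rfl⟩
    refine le_trans ?_ (term_le_TD hW' (S : Subgroup G))
    have htop : 𝐍 (inducedFunctor (G := G) W (S : Subgroup G)) = ⊤ := by
      rw [eq_top_iff]
      intro g _
      refine mem_normalizer_of_map_conj_eq ?_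
      have h1 := (ind_conj_functor (h𝓦 W hW) (Y := G) (S : Subgroup G) hSp).2.2 g
      have h2 : ((S : Subgroup G) ⋆ g) = (S : Subgroup G) :=
        map_conj_eq_of_mem_normalizer (by rw [h]; exact Subgroup.mem_top g)
      rw [h2] at h1
      exact h1.symm
    rw [htop, top_inf_eq]
  have hSne : (S : Subgroup G) ≠ ⊤ := by
    intro h
    apply hSnn
    rw [h]
    exact Subgroup.normalizer_eq_top_iff.2 inferInstance
  have hcommS : ∀ {K : Subgroup G} {a b : G}, a ∈ K → b ∈ K → a⁻¹ * (b * a * b⁻¹) ∈ ⁅K, K⁆ := by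
    intro K a b ha hb
    have := Subgroup.commutator_mem_commutator (K.inv_mem ha) hb
    have e : ⁅a⁻¹, b⁆ = a⁻¹ * (b * a * b⁻¹) := by
      rw [commutatorElement_def]; group
    rwa [e] at this
  set D0 : Subgroup G := D ⊓ O with hD0
  -- overgroups of `S` normalize `D0`
  have hHM : ∀ H : Subgroup G, (S : Subgroup G) ≤ H → H ≠ ⊤ → H ≤ 𝐍 D0 := by
    intro H hSH hH h hh
    refine mem_normalizer_of_map_conj_eq ?_
    refine eq_of_le_of_card_le ?_ (by rw [card_map_conj])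
    rw [map_conj_le_iff]
    intro d hd
    obtain ⟨hd1, hd2⟩ := Subgroup.mem_inf.1 hd
    refine Subgroup.mem_inf.2 ⟨?_, hOn.conj_mem d hd2 h⟩
    have hdS : d ∈ (S : Subgroup G) := hOS hd2
    have h1 : d⁻¹ * (h * d * h⁻¹) ∈ (S : Subgroup G) ⊓ ⁅H, H⁆ := by
      refine Subgroup.mem_inf.2 ⟨?_, hcommS (hSH hdS) hh⟩
      exact (S : Subgroup G).mul_mem ((S : Subgroup G).inv_mem hdS) (hOS (hOn.conj_mem d hd2 h))
    have h2 := hover H hSH hH h1
    have e : h * d * h⁻¹ = d * (d⁻¹ * (h * d * h⁻¹)) := by group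
    rw [e]
    exact D.mul_mem hd1 h2
  -- `M ≠ G`
  have hMne : 𝐍 D0 ≠ ⊤ := by
    intro hM
    apply hOD
    haveI hD0n : D0.Normal := Subgroup.normalizer_eq_top_iff.1 hM
    let H : Subgroup G :=
      { carrier := {x | ∀ q ∈ O, q⁻¹ * (x * q * x⁻¹) ∈ D0}
        one_mem' := by
          intro q _
          simp [D0.one_mem]
        mul_mem' := by
          intro x y hx hy q hq
          have h1 := hy q hq
          have h2 := hx _ (hOn.conj_mem q hq y)
          have e : q⁻¹ * ((x * y) * q * (x * y)⁻¹) =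
              (q⁻¹ * (y * q * y⁻¹)) * ((y * q * y⁻¹)⁻¹ * (x * (y * q * y⁻¹) * x⁻¹)) := by group
          rw [e]
          exact D0.mul_mem h1 h2
        inv_mem' := by
          intro x hx q hq
          have hq' : x⁻¹ * q * x⁻¹⁻¹ ∈ O := hOn.conj_mem q hq x⁻¹
          have h1 := D0.inv_mem (hx _ hq')
          have e : ((x⁻¹ * q * x⁻¹⁻¹)⁻¹ * (x * (x⁻¹ * q * x⁻¹⁻¹) * x⁻¹))⁻¹ = q⁻¹ * (x⁻¹ * q * x⁻¹⁻¹) := by
            group
          rwa [e] at h1 }
    have hHn : H.Normal := by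
      refine ⟨fun x hx g q hq => ?_⟩
      have hq' : g⁻¹ * q * g⁻¹⁻¹ ∈ O := hOn.conj_mem q hq g⁻¹
      have h1 := hx _ hq'
      have h2 := hD0n.conj_mem _ h1 g
      have e : g * ((g⁻¹ * q * g⁻¹⁻¹)⁻¹ * (x * (g⁻¹ * q * g⁻¹⁻¹) * x⁻¹)) * g⁻¹ =
          q⁻¹ * ((g * x * g⁻¹) * q * (g * x * g⁻¹)⁻¹) := by group
      rwa [e] at h2
    have hmemH : ∀ K : Subgroup G, (S : Subgroup G) ≤ K → K ≠ ⊤ → K ≤ H := by
      intro K hSK hK x hx q hq
      refine Subgroup.mem_inf.2 ⟨?_, ?_⟩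
      · refine hover K hSK hK (Subgroup.mem_inf.2 ⟨?_, hcommS (hSK (hOS hq)) hx⟩)
        exact (S : Subgroup G).mul_mem ((S : Subgroup G).inv_mem (hOS hq)) (hOS (hOn.conj_mem q hq x))
      · exact O.mul_mem (O.inv_mem hq) (hOn.conj_mem q hq x)
    have hSH : (S : Subgroup G) ≤ H := hmemH _ le_rfl hSne
    have hNH : 𝐍 (S : Subgroup G) ≤ H := hmemH _ (le_normalizer_self _) hSnn
    have hHtop : ∀ x : G, x ∈ H := by
      intro x
      have hSi : ¬ p ∣ (S : Subgroup G).relIndex H := by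
        have h1 := S.not_dvd_index
        rw [← Subgroup.relIndex_top_right] at h1
        exact not_dvd_relIndex_of_le_right hSH le_top h1
      have hSxH : ((S : Subgroup G) ⋆ x) ≤ H := by
        rw [map_conj_le_iff]
        intro s hs
        exact hHn.conj_mem s (hSH hs) x
      have hSxp : IsPGroup p ((S : Subgroup G) ⋆ x : Subgroup G) := isPGroup_map_conj hSp x
      have hSxi : ¬ p ∣ ((S : Subgroup G) ⋆ x).relIndex H := by
        have h2 := S.not_dvd_index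
        rw [← Subgroup.relIndex_top_right] at h2
        have h3 := not_dvd_relIndex_map_conj (p := p) x h2
        have e : ((⊤ : Subgroup G) ⋆ x) = ⊤ := map_conj_self_of_mem (Subgroup.mem_top x)
        rw [e] at h3
        exact not_dvd_relIndex_of_le_right hSxH le_top h3
      obtain ⟨h, hh, hhe⟩ := exists_conj_eq_of_sylows hSxH hSxp hSxi hSH hSp hSi
      have h1 : h * x ∈ 𝐍 (S : Subgroup G) := by
        refine mem_normalizer_of_map_conj_eq ?_
        rw [map_conj_mul]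
        exact hhe
      have h2 := H.mul_mem (H.inv_mem hh) (hNH h1)
      simpa using h2
    intro q hq
    obtain ⟨hqO, hqC⟩ := Subgroup.mem_inf.1 hq
    refine focal_element (p := p) (S : Subgroup G) D hSp S.not_dvd_index (TD_le_left _ _) ?_ (hOS hqO) hqC ?_
    · intro a ha b hb
      refine hover _ le_rfl hSne (Subgroup.mem_inf.2 ⟨?_, hcommS ha hb⟩)
      exact (S : Subgroup G).mul_mem ((S : Subgroup G).inv_mem ha)
        ((S : Subgroup G).mul_mem ((S : Subgroup G).mul_mem hb ha) ((S : Subgroup G).inv_mem hb))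
    · intro k g₀ _
      have h1 := hHtop g₀⁻¹ (q ^ k) (O.pow_mem hqO k)
      have h2 := (Subgroup.mem_inf.1 h1).1
      simpa using h2
  refine ⟨hcon, ⟨hMne, hHM⟩, ⟨?_, ?_⟩, ?_⟩
  · refine le_inf (Subgroup.commutator_le_left _ _) ?_
    exact Subgroup.commutator_mono (hOS.trans (hHM _ le_rfl hSne)) le_rfl
  · intro x hx
    obtain ⟨hx1, hx2⟩ := Subgroup.mem_inf.1 hx
    refine Subgroup.mem_inf.2 ⟨hx1, ?_⟩
    exact hover _ (hHM _ le_rfl hSne) hMne (Subgroup.mem_inf.2 ⟨hOS hx1, hx2⟩)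
  · intro u huS huO
    by_contra hcontra
    push Not at hcontra
    exact hOD (short_core hSp S.not_dvd_index hOn hOS hmax (TD_le_left _ _) hover huS huO hcontra)

end

end Cfsg.Agent.H09
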