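import Mathlib
import Cfsg.Agent.Lib.H02.SmallB
import Cfsg.Agent.Lib.Lead.Burnside

/-!
Generic tools for excluding orders of simple groups.
-/

set_option autoImplicit false

namespace Cfsg.Agent.H09.Ord

open Cfsg

variable {G : Type*} [Group G] [Finite G] [IsSimpleGroup G]

theorem hom_units_trivial (hNC : ¬ IsMulCommutative G) (φ : G →* ℤˣ) (g : G) : φ g = 1 := by
  rcases (MonoidHom.normal_ker φ).eq_bot_or_eq_top with h | h
  · exfalso
    apply hNC
    refine ⟨⟨fun a b => ?_⟩⟩
    have hinj : Function.Injective φ := (MonoidHom.ker_eq_bot_iff φ).mp h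
    apply hinj
    rw [map_mul, map_mul, mul_comm]
  · have : g ∈ φ.ker := h ▸ Subgroup.mem_top g
    exact this

theorem sign_act (hNC : ¬ IsMulCommutative G) {X : Type*} [Fintype X] [DecidableEq X]
    [MulAction G X] (g : G) : Equiv.Perm.sign (MulAction.toPermHom G X g) = 1 :=
  hom_units_trivial hNC (Equiv.Perm.sign.comp (MulAction.toPermHom G X)) g

theorem toPerm_injective {X : Type*} [MulAction G X] [FaithfulSMul G X] :
    Function.Injective (MulAction.toPermHom G X) := MulAction.toPerm_injective

theorem ker_act {X : Type*} [MulAction G X] (x : X) (hx : ∃ g : G, g • x ≠ x) :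
    Function.Injective (MulAction.toPermHom G X) := by
  rcases (MonoidHom.normal_ker (MulAction.toPermHom G X)).eq_bot_or_eq_top with h | h
  · exact (MonoidHom.ker_eq_bot_iff _).mp h
  · exfalso
    obtain ⟨g, hg⟩ := hx
    have h1 : g ∈ (MulAction.toPermHom G X).ker := h ▸ Subgroup.mem_top g
    have h2 : MulAction.toPermHom G X g = 1 := h1
    apply hg
    have := congrArg (fun s : Equiv.Perm X => s x) h2
    simpa using this

/-- Embedding into the alternating group. -/
theorem two_mul_dvd_factorial (hNC : ¬ IsMulCommutative G) (H : Subgroup G) (hH : H ≠ ⊤) :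
    2 * Nat.card G ∣ H.index.factorial := by
  classical
  haveI : Fintype (G ⧸ H) := Fintype.ofFinite _
  have hx : ∃ g : G, g • ((1 : G) : G ⧸ H) ≠ ((1 : G) : G ⧸ H) := by
    by_contra hcon
    push Not at hcon
    apply hH
    rw [eq_top_iff]
    intro g _
    have h3 := hcon g
    have h4 : ((g : G) : G ⧸ H) = ((1 : G) : G ⧸ H) := by
      rw [← h3, MulAction.Quotient.smul_coe]
      simp
    have h5 := QuotientGroup.eq.mp h4.symm
    simpa using h5
  have hinj := ker_act (G := G) ((1 : G) : G ⧸ H) hx
  haveI hnt : Nontrivial (G ⧸ H) := by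
    obtain ⟨g, hg⟩ := hx
    exact ⟨⟨_, _, hg⟩⟩
  let f : G →* alternatingGroup (G ⧸ H) :=
    { toFun := fun g => ⟨MulAction.toPermHom G (G ⧸ H) g, by
        rw [Equiv.Perm.mem_alternatingGroup]
        exact sign_act hNC g⟩
      map_one' := by ext; simp
      map_mul' := fun a b => by ext; simp [mul_smul] }
  have hfinj : Function.Injective f := by
    intro a b hab
    apply hinj
    exact congrArg Subtype.val hab
  have h1 : Nat.card G ∣ Nat.card (alternatingGroup (G ⧸ H)) := by
    have h2 : Nat.card f.range = Nat.card G := by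
      rw [Nat.card_congr (MonoidHom.ofInjective hfinj).toEquiv.symm]
    rw [← h2]
    exact Subgroup.card_subgroup_dvd_card _
  have h3 : 2 * Nat.card (alternatingGroup (G ⧸ H)) = H.index.factorial := by
    have h4 := two_mul_card_alternatingGroup (α := G ⧸ H)
    rw [Fintype.card_perm] at h4
    rw [Nat.card_eq_fintype_card, h4, Subgroup.index, Nat.card_eq_fintype_card]
  rw [← h3]
  exact Nat.mul_dvd_mul_left 2 h1

/-- Any proper subgroup has index at least the least `k` with `2 * n ∣ k !`. -/
theorem index_ne_one {H : Subgroup G} (hH : H ≠ ⊤) : H.index ≠ 1 := by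
  intro h
  exact hH (Subgroup.index_eq_one.mp h)

/-- Normalizer modulo centralizer for a subgroup of prime order. -/
theorem card_norm_dvd {p : ℕ} [Fact p.Prime] (P : Subgroup G) (hP : Nat.card P = p) :
    Nat.card (Subgroup.normalizer (P : Set G)) ∣
      Nat.card (Subgroup.centralizer (P : Set G)) * (p - 1) := by
  classical
  haveI : IsCyclic P := isCyclic_of_prime_card hP
  let φ := P.normalizerMonoidHom
  have h1 : Nat.card φ.range ∣ p - 1 := by
    have h2 : Nat.card φ.range ∣ Nat.card (MulAut P) := Subgroup.card_subgroup_dvd_card _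
    rw [IsCyclic.card_mulAut, hP, Nat.totient_prime (Fact.out)] at h2
    exact h2
  have h3 : Nat.card (Subgroup.normalizer (P : Set G)) =
      Nat.card φ.ker * Nat.card φ.range := by
    rw [← Subgroup.index_ker, mul_comm, Subgroup.index_mul_card]
  have h4 : Nat.card φ.ker = Nat.card (Subgroup.centralizer (P : Set G)) := by
    rw [Subgroup.normalizerMonoidHom_ker]
    exact Nat.card_congr (Subgroup.subgroupOfEquivOfLe (Subgroup.centralizer_le_normalizer _)).toEquiv
  rw [h3, h4]
  exact Nat.mul_dvd_mul_left _ h1

/-- Burnside obstruction. -/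
theorem norm_ne_cent (hNC : ¬ IsMulCommutative G) {p : ℕ} [Fact p.Prime] (P : Sylow p G)
    (hd : p ∣ Nat.card G) :
    Nat.card (Subgroup.centralizer ((P : Subgroup G) : Set G)) ≠
      Nat.card (Subgroup.normalizer ((P : Subgroup G) : Set G)) := by
  intro h
  have hab : (Subgroup.centralizer ((P : Subgroup G) : Set G)) ≤
      (Subgroup.normalizer ((P : Subgroup G) : Set G)) := Subgroup.centralizer_le_normalizer _
  have := Subgroup.eq_of_le_of_card_ge hab h.ge
  exact H02.not_normalizer_le_centralizer hNC p hd P (by rw [this])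

end Cfsg.Agent.H09.Ord
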