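import Cfsg.Agent.Lib.H09.Ord9
import Cfsg.Agent.Lib.H03.KT5

/-!
The order 720: the cases of 16 and 10 Sylow 3-subgroups.
-/

set_option autoImplicit false

namespace Cfsg.Agent.H09.Ord

open Cfsg

variable {G : Type*} [Group G] [Finite G]

theorem eq_one_of_inf_one {p : ℕ} [Fact p.Prime] (P Q : Sylow p G)
    (h : Nat.card ((P : Subgroup G) ⊓ (Q : Subgroup G) : Subgroup G) = 1) {c : G}
    (hc : c ∈ (P : Subgroup G)) (hs : c • Q = Q) : c = 1 := by
  have h1 := mem_of_smul_eq P Q hc hs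
  have h2 : ((P : Subgroup G) ⊓ (Q : Subgroup G) : Subgroup G) = ⊥ := Subgroup.eq_bot_of_card_eq _ h
  have h3 : c ∈ ((P : Subgroup G) ⊓ (Q : Subgroup G) : Subgroup G) := ⟨hc, h1⟩
  rw [h2] at h3
  exact h3

theorem exists_smul_of_inf_one {p : ℕ} [Fact p.Prime] (P Q' : Sylow p G) (hQ' : Q' ≠ P)
    (h : Nat.card ((P : Subgroup G) ⊓ (Q' : Subgroup G) : Subgroup G) = 1)
    (hk : Nat.card (Sylow p G) = Nat.card (P : Subgroup G) + 1) (Q : Sylow p G) (hQ : Q ≠ P) :
    ∃ c : G, c ∈ (P : Subgroup G) ∧ c • Q' = Q := by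
  classical
  haveI : Fintype (Sylow p G) := Fintype.ofFinite _
  let f : ↥(P : Subgroup G) → {R : Sylow p G // R ≠ P} := fun c => ⟨(c : G) • Q', fun h => hQ' (by
    have h2 : (c : G) • P = P := smul_self_of_mem P c.2
    exact MulAction.injective (c : G) (h.trans h2.symm))⟩
  have hfinj : Function.Injective f := by
    intro a b hab
    have h1 : (a : G) • Q' = (b : G) • Q' := congrArg Subtype.val hab
    have h2 : ((b : G)⁻¹ * (a : G)) • Q' = Q' := by rw [mul_smul, h1, inv_smul_smul]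
    have h3 := eq_one_of_inf_one P Q' h (Subgroup.mul_mem _ (Subgroup.inv_mem _ b.2) a.2) h2
    apply Subtype.ext
    exact (inv_mul_eq_one.mp h3).symm
  have hcard : Nat.card {R : Sylow p G // R ≠ P} = Nat.card (P : Subgroup G) := by
    have := card_ne_add_one P
    omega
  have hfsurj : Function.Surjective f := by
    haveI : Fintype (P : Subgroup G) := Fintype.ofFinite _
    haveI : Fintype {R : Sylow p G // R ≠ P} := Fintype.ofFinite _
    apply (Fintype.bijective_iff_injective_and_card f).mpr ⟨hfinj, ?_⟩ |>.2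
    rw [← Nat.card_eq_fintype_card, ← Nat.card_eq_fintype_card, hcard]
  obtain ⟨c, hc⟩ := hfsurj ⟨Q, hQ⟩
  exact ⟨c.1, c.2, congrArg Subtype.val hc⟩

theorem mem_norm_inf {A B : Subgroup G} {g : G} (hA : g ∈ Subgroup.normalizer (A : Set G))
    (hB : g ∈ Subgroup.normalizer (B : Set G)) :
    g ∈ Subgroup.normalizer ((A ⊓ B : Subgroup G) : Set G) := by
  rw [Subgroup.mem_normalizer_iff]
  intro x
  constructor
  · rintro ⟨h4, h5⟩
    exact ⟨(Subgroup.mem_normalizer_iff.mp hA x).mp h4, (Subgroup.mem_normalizer_iff.mp hB x).mp h5⟩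
  · rintro ⟨h4, h5⟩
    exact ⟨(Subgroup.mem_normalizer_iff.mp hA x).mpr h4, (Subgroup.mem_normalizer_iff.mp hB x).mpr h5⟩

/-- The order of a two-point stabilizer. -/
theorem L_card (hcN : ∀ P : Sylow 3 G, Nat.card (Subgroup.normalizer ((P : Subgroup G) : Set G)) = 72)
    [Fact (Nat.Prime 3)]
    (htr : ∀ P Q Q' : Sylow 3 G, Q ≠ P → Q' ≠ P → ∃ c : G, c ∈ (P : Subgroup G) ∧ c • Q = Q')
    (hk : Nat.card (Sylow 3 G) = 10) (a b : Sylow 3 G) (hab : b ≠ a) :
    Nat.card (Subgroup.normalizer ((a : Subgroup G) : Set G) ⊓ MulAction.stabilizer G b : Subgroup G) = 8 := by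
  classical
  set A := Subgroup.normalizer ((a : Subgroup G) : Set G) with hA
  have h1 : (MulAction.stabilizer A b).index = Nat.card (MulAction.orbit A b) :=
    MulAction.index_stabilizer _ _
  have hset : MulAction.orbit A b = {x : Sylow 3 G | x ≠ a} := by
    ext x
    constructor
    · rintro ⟨c, rfl⟩ hx
      apply hab
      have h2 : (c : G) • a = a := Sylow.smul_eq_iff_mem_normalizer.mpr c.2
      exact MulAction.injective (c : G) (Eq.trans hx h2.symm)
    · intro hx
      obtain ⟨c, hc, hcb⟩ := htr a b x hab hx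
      exact ⟨⟨c, Subgroup.le_normalizer hc⟩, hcb⟩
  have h2 : Nat.card (MulAction.orbit A b) = 9 := by
    rw [hset]
    have h3 := card_ne_add_one a
    have h4 : Nat.card ({x : Sylow 3 G | x ≠ a} : Set (Sylow 3 G)) = Nat.card {x : Sylow 3 G // x ≠ a} := rfl
    rw [h4]
    omega
  have h3 := Subgroup.card_mul_index (MulAction.stabilizer A b)
  rw [h1, h2, hcN a] at h3
  have h4 : Nat.card (A ⊓ MulAction.stabilizer G b : Subgroup G) = Nat.card (MulAction.stabilizer A b) := by
    apply Nat.card_congr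
    exact
      { toFun := fun z => ⟨⟨z.1, z.2.1⟩, z.2.2⟩
        invFun := fun z => ⟨z.1.1, ⟨z.1.2, z.2⟩⟩
        left_inv := fun z => rfl
        right_inv := fun z => rfl }
  rw [h4]
  omega

variable [IsSimpleGroup G]

theorem not_720_k16 (hNC : ¬ IsMulCommutative G) (hn : Nat.card G = 720)
    (hk : Nat.card (Sylow 3 G) = 16) : False := by
  classical
  haveI : Fact (Nat.Prime 3) := ⟨by norm_num⟩
  haveI : Fact (Nat.Prime 5) := ⟨by norm_num⟩
  obtain ⟨R⟩ : Nonempty (Sylow 3 G) := inferInstance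
  have hcR : Nat.card (R : Subgroup G) = 3 ^ 2 :=
    card_sylow_eq hNC 720 3 2 hn (by norm_num) (by norm_num) (by norm_num) R
  have hNR : Nat.card (Subgroup.normalizer ((R : Subgroup G) : Set G)) = 45 := by
    have := card_norm_mul hNC 720 3 2 hn (by norm_num) (by norm_num) (by norm_num) R
    rw [hk] at this
    omega
  obtain ⟨y, hyN, yy, y1⟩ := exists_elt _ 5 (by rw [hNR]; norm_num : 5 ∣ Nat.card (Subgroup.normalizer ((R : Subgroup G) : Set G)))
  have hm := H02.card_modEq_centralizer (R : Subgroup G) y hyN 5 1 (by rw [pow_one]; exact yy)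
  set B : Subgroup G := (R : Subgroup G) ⊓ Subgroup.centralizer ({y} : Set G) with hB
  have hm' : Nat.card (R : Subgroup G) % 5 = Nat.card B % 5 := hm
  have hBd : Nat.card B ∣ Nat.card (R : Subgroup G) := Subgroup.card_dvd_of_le inf_le_left
  rw [hcR] at hm' hBd
  have hdec : ∀ b ∈ Nat.divisors (3 ^ 2), (3 ^ 2) % 5 = b % 5 → b = 9 := by decide +kernel
  have hB9 := hdec _ (Nat.mem_divisors.mpr ⟨hBd, by norm_num⟩) hm'
  have hBR : B = (R : Subgroup G) := Subgroup.eq_of_le_of_card_ge inf_le_left (by rw [hcR, hB9]; norm_num)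
  have hy5 : IsPGroup 5 (Subgroup.zpowers y) :=
    IsPGroup.of_card (n := 1) (by rw [Nat.card_zpowers, orderOf_eq_prime yy y1]; norm_num)
  obtain ⟨P, hyP⟩ := hy5.exists_le_sylow
  have hcP : Nat.card (P : Subgroup G) = 5 := by
    simpa using card_sylow_eq hNC 720 5 1 hn (by norm_num) (by norm_num) (by norm_num) P
  have hPz : Subgroup.zpowers y = (P : Subgroup G) :=
    zpowers_eq_of_prime_card (P : Subgroup G) hcP (hyP (Subgroup.mem_zpowers y)) y1
  have hk5 : Nat.card (Sylow 5 G) = 36 := by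
    obtain ⟨h1, h2⟩ := kok_sylow hNC 720 5 1 hn (by norm_num) (by norm_num) (by norm_num) (by norm_num)
    have hd : ∀ k ∈ Nat.divisors (720 / 5 ^ 1), KOK 720 5 1 k → k = 36 := by decide +kernel
    exact hd _ h1 h2
  have hNP : Nat.card (Subgroup.normalizer ((P : Subgroup G) : Set G)) = 20 := by
    have := card_norm_mul hNC 720 5 1 hn (by norm_num) (by norm_num) (by norm_num) P
    rw [hk5] at this
    omega
  have hRN : (R : Subgroup G) ≤ Subgroup.normalizer ((P : Subgroup G) : Set G) := by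
    intro x hx
    apply Subgroup.centralizer_le_normalizer
    rw [Subgroup.mem_centralizer_iff]
    intro z hz
    have hz' : z ∈ Subgroup.zpowers y := by rw [hPz]; exact hz
    obtain ⟨k, rfl⟩ := hz'
    have hx' : x ∈ B := by rw [hBR]; exact hx
    have h3 := Subgroup.mem_centralizer_iff.mp hx'.2 y (Set.mem_singleton y)
    have h4 : Commute y x := h3
    exact (h4.zpow_left k).eq
  have := Subgroup.card_dvd_of_le hRN
  rw [hcR, hNP] at this
  norm_num at this

theorem not_720_k10_nonTI (hNC : ¬ IsMulCommutative G) (hn : Nat.card G = 720)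
    (hk : Nat.card (Sylow 3 G) = 10) [Fact (Nat.Prime 3)] (R : Sylow 3 G)
    (hR : ∀ Q : Sylow 3 G, Q ≠ R → Nat.card ((R : Subgroup G) ⊓ (Q : Subgroup G) : Subgroup G) ≠ 1) : False := by
  classical
  haveI h2' : Fact (Nat.Prime 2) := ⟨Nat.prime_two⟩
  have hcP : ∀ P : Sylow 3 G, Nat.card (P : Subgroup G) = 3 ^ 2 :=
    fun P => card_sylow_eq hNC 720 3 2 hn (by norm_num) (by norm_num) (by norm_num) P
  have hab : ∀ P : Sylow 3 G, IsMulCommutative (P : Subgroup G) := fun P =>
    IsPGroup.isMulCommutative_of_card_eq_prime_sq (p := 3) (hcP P)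
  have hN : ∀ P : Sylow 3 G, Nat.card (Subgroup.normalizer ((P : Subgroup G) : Set G)) = 72 := fun P => by
    have := card_norm_mul hNC 720 3 2 hn (by norm_num) (by norm_num) (by norm_num) P
    rw [hk] at this
    omega
  set H := Subgroup.normalizer ((R : Subgroup G) : Set G) with hH
  obtain ⟨T, hcT⟩ := Sylow.exists_subgroup_card_pow_prime (G := H) 2 (n := 3) (by rw [hN R]; norm_num)
  let W : Subgroup G := T.map H.subtype
  have hWH : W ≤ H := Subgroup.map_subtype_le T
  have hcW : Nat.card W = 2 ^ 3 := by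
    rw [← hcT]
    exact Nat.card_congr (Subgroup.equivMapOfInjective T H.subtype H.subtype_injective).symm.toEquiv
  have hWp : IsPGroup 2 W := IsPGroup.of_card hcW
  have hmod := hWp.card_modEq_card_fixedPoints (Sylow 3 G)
  have hmod' : Nat.card (Sylow 3 G) % 2 = Nat.card (MulAction.fixedPoints W (Sylow 3 G)) % 2 := hmod
  rw [hk] at hmod'
  have hRfix : R ∈ MulAction.fixedPoints W (Sylow 3 G) := by
    intro c
    exact Sylow.smul_eq_iff_mem_normalizer.mpr (hWH c.2)
  have hpos : 0 < Nat.card (MulAction.fixedPoints W (Sylow 3 G)) :=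
    Nat.card_pos_iff.mpr ⟨⟨⟨R, hRfix⟩⟩, inferInstance⟩
  haveI : Nontrivial (MulAction.fixedPoints W (Sylow 3 G)) :=
    Finite.one_lt_card_iff_nontrivial.mp (by omega)
  obtain ⟨Q', hQ'⟩ := exists_ne (⟨R, hRfix⟩ : MulAction.fixedPoints W (Sylow 3 G))
  set Q := Q'.1 with hQdef
  have hQR : Q ≠ R := fun h => hQ' (Subtype.ext h)
  have hWQ : W ≤ Subgroup.normalizer ((Q : Subgroup G) : Set G) := by
    intro c hc
    exact Sylow.smul_eq_iff_mem_normalizer.mp (Q'.2 ⟨c, hc⟩)
  set D : Subgroup G := (R : Subgroup G) ⊓ (Q : Subgroup G) with hD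
  have hDn1 := hR Q hQR
  have hDd : Nat.card D ∣ 3 ^ 2 := by
    have := Subgroup.card_dvd_of_le (inf_le_left : D ≤ (R : Subgroup G))
    rwa [hcP] at this
  have hNt := norm_ne_top_of_card D hDn1 (by
    rw [hn]
    intro h
    rw [h] at hDd
    norm_num at hDd)
  have hRN : (R : Subgroup G) ≤ Subgroup.normalizer (D : Set G) := by
    intro x hx
    apply Subgroup.centralizer_le_normalizer
    rw [Subgroup.mem_centralizer_iff]
    intro q hq
    exact congrArg Subtype.val ((hab R).is_comm.comm ⟨q, hq.1⟩ ⟨x, hx⟩)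
  have hQN : (Q : Subgroup G) ≤ Subgroup.normalizer (D : Set G) := by
    intro x hx
    apply Subgroup.centralizer_le_normalizer
    rw [Subgroup.mem_centralizer_iff]
    intro q hq
    exact congrArg Subtype.val ((hab Q).is_comm.comm ⟨q, hq.2⟩ ⟨x, hx⟩)
  have hWN : W ≤ Subgroup.normalizer (D : Set G) := fun c hc => mem_norm_inf (hWH hc) (hWQ hc)
  set J : Subgroup G := (R : Subgroup G) ⊔ W with hJ
  have hJN : J ≤ Subgroup.normalizer (D : Set G) := sup_le hRN hWN
  have hJH : J ≤ H := sup_le Subgroup.le_normalizer hWH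
  have h9J : 9 ∣ Nat.card J := by
    have := Subgroup.card_dvd_of_le (le_sup_left : (R : Subgroup G) ≤ J)
    rwa [hcP] at this
  have h8J : 8 ∣ Nat.card J := by
    have := Subgroup.card_dvd_of_le (le_sup_right : W ≤ J)
    rwa [hcW] at this
  have h72 : 9 * 8 ∣ Nat.card J := Nat.Coprime.mul_dvd_of_dvd_of_dvd (by norm_num) h9J h8J
  have hJd : Nat.card J ∣ 72 := by
    have := Subgroup.card_dvd_of_le hJH
    rwa [hN R] at this
  have hcJ : Nat.card J = 72 := Nat.dvd_antisymm hJd h72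
  have hJeqH : J = H := Subgroup.eq_of_le_of_card_ge hJH (by rw [hcJ, hN R])
  -- the normalizer of `D`
  have h72N : 72 ∣ Nat.card (Subgroup.normalizer (D : Set G)) := by
    have := Subgroup.card_dvd_of_le hJN
    rwa [hcJ] at this
  obtain ⟨e, he⟩ := h72N
  have hfac := two_mul_dvd_factorial hNC _ hNt
  rw [hn] at hfac
  have hmul := Subgroup.index_mul_card (Subgroup.normalizer (D : Set G))
  rw [hn, he] at hmul
  have hie : (Subgroup.normalizer (D : Set G)).index * e = 10 := by nlinarith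
  have hdec : ∀ i ∈ Nat.divisors 10, 2 * 720 ∣ i.factorial → i = 10 := by decide +kernel
  have hi10 := hdec _ (Nat.mem_divisors.mpr ⟨⟨e, hie.symm⟩, by norm_num⟩) hfac
  have hcND : Nat.card (Subgroup.normalizer (D : Set G)) = 72 := by
    rw [hi10] at hie
    rw [he]
    omega
  have hJeqN : J = Subgroup.normalizer (D : Set G) := Subgroup.eq_of_le_of_card_ge hJN (by rw [hcJ, hcND])
  have hQH : (Q : Subgroup G) ≤ H := by
    rw [← hJeqH, hJeqN]
    exact hQN
  apply hQR
  have hQR' : (Q : Subgroup G) ≤ (R : Subgroup G) := by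
    intro c hc
    exact mem_of_smul_eq Q R hc (Sylow.smul_eq_iff_mem_normalizer.mpr (hQH hc))
  exact Sylow.ext (Subgroup.eq_of_le_of_card_ge hQR' (by rw [hcP, hcP]))

/-- An involution with two fixed points has no others. -/
theorem invol_fix_two (hNC : ¬ IsMulCommutative G) [Fact (Nat.Prime 3)]
    (hfree : ∀ P Q : Sylow 3 G, Q ≠ P → ∀ c ∈ (P : Subgroup G), c • Q = Q → c = 1)
    (htr : ∀ P Q Q' : Sylow 3 G, Q ≠ P → Q' ≠ P → ∃ c : G, c ∈ (P : Subgroup G) ∧ c • Q = Q')
    (hcP : ∀ P : Sylow 3 G, Nat.card (P : Subgroup G) = 3 ^ 2)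
    (hk : Nat.card (Sylow 3 G) = 10) (v : G) (vv : v * v = 1) (v1 : v ≠ 1) (a b : Sylow 3 G)
    (hab : b ≠ a) (fa : v • a = a) (fb : v • b = b) :
    Nat.card {x : Sylow 3 G // v • x = x} = 2 := by
  classical
  haveI : Fintype (Sylow 3 G) := Fintype.ofFinite _
  have hvN : v ∈ Subgroup.normalizer ((a : Subgroup G) : Set G) := Sylow.smul_eq_iff_mem_normalizer.mp fa
  have hvinv : v⁻¹ = v := inv_eq_of_mul_eq_one_left vv
  let a' : {x : Sylow 3 G // v • x = x} := ⟨a, fa⟩
  set C : Subgroup G := (a : Subgroup G) ⊓ Subgroup.centralizer ({v} : Set G) with hC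
  have hne : ∀ c ∈ (a : Subgroup G), c • b ≠ a := by
    intro c hc h
    apply hab
    have h2 : c • a = a := smul_self_of_mem a hc
    exact MulAction.injective c (h.trans h2.symm)
  let φ : C → {y : {x : Sylow 3 G // v • x = x} // y ≠ a'} := fun c =>
    ⟨⟨c.1 • b, by
      have h1 : v * c.1 = c.1 * v := Subgroup.mem_centralizer_iff.mp c.2.2 v (Set.mem_singleton v)
      rw [← mul_smul, h1, mul_smul, fb]⟩, fun h => hne c.1 c.2.1 (congrArg Subtype.val h)⟩
  have hφinj : Function.Injective φ := by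
    intro c c' h
    have h1 : c.1 • b = c'.1 • b := congrArg (fun z : {y : {x : Sylow 3 G // v • x = x} // y ≠ a'} => z.1.1) h
    have h2 : (c'.1⁻¹ * c.1) • b = b := by rw [mul_smul, h1, inv_smul_smul]
    have h3 := hfree a b hab _ (Subgroup.mul_mem _ (Subgroup.inv_mem _ c'.2.1) c.2.1) h2
    exact Subtype.ext (inv_mul_eq_one.mp h3).symm
  have hφsurj : Function.Surjective φ := by
    rintro ⟨⟨x, hx⟩, hxne⟩
    have hxa : x ≠ a := fun h => hxne (Subtype.ext h)
    obtain ⟨c, hc, hcb⟩ := htr a b x hab hxa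
    have hw : v * c * v⁻¹ ∈ (a : Subgroup G) := (Subgroup.mem_normalizer_iff.mp hvN c).mp hc
    have h2 : (c⁻¹ * (v * c * v⁻¹)) • b = b := by
      have h3 : v⁻¹ • b = b := by rw [hvinv, fb]
      rw [mul_smul, mul_smul, mul_smul, h3, hcb, hx, ← hcb, inv_smul_smul]
    have h3 := hfree a b hab _ (Subgroup.mul_mem _ (Subgroup.inv_mem _ hc) hw) h2
    have h4 : v * c * v⁻¹ = c := (inv_mul_eq_one.mp h3).symm
    have hcC : c ∈ C := by
      refine ⟨hc, ?_⟩
      show c ∈ Subgroup.centralizer ({v} : Set G)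
      rw [Subgroup.mem_centralizer_iff]
      intro z hz
      rw [Set.mem_singleton_iff] at hz
      rw [hz]
      calc v * c = v * c * v⁻¹ * v := by group
        _ = c * v := by rw [h4]
    exact ⟨⟨c, hcC⟩, Subtype.ext (Subtype.ext hcb)⟩
  have h1 : Nat.card C = Nat.card {y : {x : Sylow 3 G // v • x = x} // y ≠ a'} :=
    Nat.card_congr (Equiv.ofBijective φ ⟨hφinj, hφsurj⟩)
  have h2 := card_ne_add_one a'
  have h3 : Nat.card C ∣ 3 ^ 2 := by
    have := Subgroup.card_dvd_of_le (inf_le_left : C ≤ (a : Subgroup G))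
    rwa [hcP] at this
  have hmem : Nat.card C ∈ Nat.divisors (3 ^ 2) := Nat.mem_divisors.mpr ⟨h3, by norm_num⟩
  have hd9 : Nat.divisors (3 ^ 2) = {1, 3, 9} := by decide +kernel
  rw [hd9] at hmem
  simp only [Finset.mem_insert, Finset.mem_singleton] at hmem
  obtain ⟨s, hs⟩ := four_dvd_moved (X := Sylow 3 G) v vv (sign_act hNC v)
  have hex : ∃ (g : G) (x : Sylow 3 G), g • x ≠ x := sylow_moves (by omega)
  have hlt := fix_lt (X := Sylow 3 G) hex v v1
  rw [hk] at hs hlt
  rcases hmem with h | h | h <;> rw [h] at h1 <;> omega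

/-- Elements fixing three points are trivial. -/
theorem rigid_k10 (hNC : ¬ IsMulCommutative G) [Fact (Nat.Prime 3)]
    (hfree : ∀ P Q : Sylow 3 G, Q ≠ P → ∀ c ∈ (P : Subgroup G), c • Q = Q → c = 1)
    (htr : ∀ P Q Q' : Sylow 3 G, Q ≠ P → Q' ≠ P → ∃ c : G, c ∈ (P : Subgroup G) ∧ c • Q = Q')
    (hcP : ∀ P : Sylow 3 G, Nat.card (P : Subgroup G) = 3 ^ 2)
    (hcN : ∀ P : Sylow 3 G, Nat.card (Subgroup.normalizer ((P : Subgroup G) : Set G)) = 72)
    (hk : Nat.card (Sylow 3 G) = 10) (g : G) (a b c : Sylow 3 G) (hba : b ≠ a) (hca : c ≠ a) (hcb : c ≠ b)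
    (fa : g • a = a) (fb : g • b = b) (fc : g • c = c) : g = 1 := by
  classical
  by_contra hg
  have hL := L_card hcN htr hk a b hba
  set L : Subgroup G := Subgroup.normalizer ((a : Subgroup G) : Set G) ⊓ MulAction.stabilizer G b with hLdef
  have hgL : g ∈ L := ⟨Sylow.smul_eq_iff_mem_normalizer.mp fa, fb⟩
  have hg8 : g ^ 8 = 1 := by
    have := pow_card_eq_one' (G := L) (x := ⟨g, hgL⟩)
    rw [hL] at this
    have h3 : ((⟨g, hgL⟩ ^ 8 : L) : G) = 1 := by rw [this]; rfl
    simpa using h3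
  have hinv : ∃ k : ℕ, g ^ k * g ^ k = 1 ∧ g ^ k ≠ 1 := by
    by_cases h4 : g ^ 4 = 1
    · by_cases h2 : g ^ 2 = 1
      · refine ⟨1, ?_, ?_⟩
        · rw [pow_one, ← pow_two, h2]
        · rw [pow_one]; exact hg
      · refine ⟨2, ?_, h2⟩
        rw [← pow_add]
        exact h4
    · refine ⟨4, ?_, h4⟩
      rw [← pow_add]
      exact hg8
  obtain ⟨k, hk1, hk2⟩ := hinv
  have hfix : ∀ x : Sylow 3 G, g • x = x → g ^ k • x = x := by
    intro x hx
    have h5 : g ∈ MulAction.stabilizer G x := hx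
    exact Subgroup.pow_mem _ h5 k
  have h6 := invol_fix_two hNC hfree htr hcP hk (g ^ k) hk1 hk2 a b hba (hfix a fa) (hfix b fb)
  haveI : Fintype {x : Sylow 3 G // g ^ k • x = x} := Fintype.ofFinite _
  have h7 : 2 < Nat.card {x : Sylow 3 G // g ^ k • x = x} := by
    rw [Nat.card_eq_fintype_card]
    refine Fintype.two_lt_card_iff.mpr ⟨⟨a, hfix a fa⟩, ⟨b, hfix b fb⟩, ⟨c, hfix c fc⟩, ?_, ?_, ?_⟩
    · intro h
      exact hba (congrArg Subtype.val h).symm
    · intro h
      exact hca (congrArg Subtype.val h).symm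
    · intro h
      exact hcb (congrArg Subtype.val h).symm
  omega

theorem not_720_k10_TI (hNC : ¬ IsMulCommutative G) (hn : Nat.card G = 720)
    (hk : Nat.card (Sylow 3 G) = 10) [Fact (Nat.Prime 3)]
    (hTI : ∀ P Q : Sylow 3 G, Q ≠ P → Nat.card ((P : Subgroup G) ⊓ (Q : Subgroup G) : Subgroup G) = 1) : False := by
  classical
  have hcP : ∀ P : Sylow 3 G, Nat.card (P : Subgroup G) = 3 ^ 2 :=
    fun P => card_sylow_eq hNC 720 3 2 hn (by norm_num) (by norm_num) (by norm_num) P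
  have hcN : ∀ P : Sylow 3 G, Nat.card (Subgroup.normalizer ((P : Subgroup G) : Set G)) = 72 := fun P => by
    have := card_norm_mul hNC 720 3 2 hn (by norm_num) (by norm_num) (by norm_num) P
    rw [hk] at this
    omega
  have hfree : ∀ P Q : Sylow 3 G, Q ≠ P → ∀ c ∈ (P : Subgroup G), c • Q = Q → c = 1 :=
    fun P Q hQ c hc hs => eq_one_of_inf_one P Q (hTI P Q hQ) hc hs
  have htr : ∀ P Q Q' : Sylow 3 G, Q ≠ P → Q' ≠ P → ∃ c : G, c ∈ (P : Subgroup G) ∧ c • Q = Q' :=
    fun P Q Q' hQ hQ' => exists_smul_of_inf_one P Q hQ (hTI P Q hQ) (by rw [hk, hcP]; norm_num) Q' hQ'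
  have hrigid := rigid_k10 hNC hfree htr hcP hcN hk
  -- double transitivity
  have h2tr : ∀ a b a' b' : Sylow 3 G, b ≠ a → b' ≠ a' → ∃ g : G, g • a = a' ∧ g • b = b' := by
    intro a b a' b' hab hab'
    obtain ⟨g, hg⟩ := MulAction.exists_smul_eq G a a'
    have h1 : g • b ≠ a' := by
      intro h
      exact hab (MulAction.injective g (h.trans hg.symm))
    obtain ⟨c, hc, hcb⟩ := htr a' (g • b) b' h1 hab'
    refine ⟨c * g, ?_, ?_⟩
    · rw [mul_smul, hg]
      exact smul_self_of_mem a' hc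
    · rw [mul_smul]
      exact hcb
  have h3tr : ∀ a b c a' b' c' : Sylow 3 G, a ≠ b → a ≠ c → b ≠ c → a' ≠ b' → a' ≠ c' → b' ≠ c' →
      ∃ g : G, g • a = a' ∧ g • b = b' ∧ g • c = c' := by
    intro a b c a' b' c' hab hac hbc hab' hac' hbc'
    obtain ⟨g, hga, hgb⟩ := h2tr a b a' b' hab.symm hab'.symm
    set c₁ := g • c with hc₁
    have hc₁a : c₁ ≠ a' := by
      intro h
      exact hac.symm (MulAction.injective g (h.trans hga.symm))
    have hc₁b : c₁ ≠ b' := by
      intro h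
      exact hbc.symm (MulAction.injective g (h.trans hgb.symm))
    have hL := L_card hcN htr hk a' b' hab'.symm
    set L : Subgroup G := Subgroup.normalizer ((a' : Subgroup G) : Set G) ⊓ MulAction.stabilizer G b' with hLdef
    let ba : {x : Sylow 3 G // x ≠ a'} := ⟨b', hab'.symm⟩
    let f : L → {y : {x : Sylow 3 G // x ≠ a'} // y ≠ ba} := fun h =>
      ⟨⟨h.1 • c₁, by
        intro h2
        have h3 : h.1 • a' = a' := Sylow.smul_eq_iff_mem_normalizer.mpr h.2.1
        exact hc₁a (MulAction.injective h.1 (h2.trans h3.symm))⟩, by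
        intro h2
        have h3 : h.1 • c₁ = b' := congrArg Subtype.val h2
        have h4 : h.1 • b' = b' := h.2.2
        exact hc₁b (MulAction.injective h.1 (h3.trans h4.symm))⟩
    have hfinj : Function.Injective f := by
      intro h h' e
      have e1 : h.1 • c₁ = h'.1 • c₁ := congrArg (fun z : {y : {x : Sylow 3 G // x ≠ a'} // y ≠ ba} => z.1.1) e
      have h1 : (h'.1⁻¹ * h.1) • c₁ = c₁ := by rw [mul_smul, e1, inv_smul_smul]
      have h2 : h'.1⁻¹ * h.1 ∈ L := L.mul_mem (L.inv_mem h'.2) h.2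
      have h3 := hrigid _ a' b' c₁ hab'.symm hc₁a hc₁b
        (Sylow.smul_eq_iff_mem_normalizer.mpr h2.1) h2.2 h1
      exact Subtype.ext (inv_mul_eq_one.mp h3).symm
    have hcY : Nat.card {y : {x : Sylow 3 G // x ≠ a'} // y ≠ ba} = 8 := by
      have h1 := card_ne_add_one a'
      have h2 := card_ne_add_one ba
      omega
    have hfsurj : Function.Surjective f := by
      haveI : Fintype L := Fintype.ofFinite _
      haveI : Fintype {y : {x : Sylow 3 G // x ≠ a'} // y ≠ ba} := Fintype.ofFinite _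
      apply (Fintype.bijective_iff_injective_and_card f).mpr ⟨hfinj, ?_⟩ |>.2
      rw [← Nat.card_eq_fintype_card, ← Nat.card_eq_fintype_card, hcY, hL]
    have hc' : c' ≠ a' := hac'.symm
    have hc'b : (⟨c', hc'⟩ : {x : Sylow 3 G // x ≠ a'}) ≠ ba := fun h => hbc' (congrArg Subtype.val h).symm
    obtain ⟨h, hh⟩ := hfsurj ⟨⟨c', hc'⟩, hc'b⟩
    have hhc : h.1 • c₁ = c' := congrArg (fun z : {y : {x : Sylow 3 G // x ≠ a'} // y ≠ ba} => z.1.1) hh
    refine ⟨h.1 * g, ?_, ?_, ?_⟩
    · rw [mul_smul, hga]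
      exact Sylow.smul_eq_iff_mem_normalizer.mpr h.2.1
    · rw [mul_smul, hgb]
      exact h.2.2
    · rw [mul_smul]
      exact hhc
  have hS : Cfsg.Agent.H03.PR.Sharp3 G (Sylow 3 G) :=
    { trans := h3tr
      rigid := fun g a b c hab hac hbc fa fb fc => hrigid g a b c hab.symm hac.symm hbc.symm fa fb fc }
  haveI : Fintype (Sylow 3 G) := Fintype.ofFinite _
  have hcardF : Fintype.card (Sylow 3 G) = 10 := by
    rw [← Nat.card_eq_fintype_card, hk]
  exact Cfsg.Agent.H03.KT.no_sharp3_simple hS (by rw [hcardF]; decide) (by rw [hcardF]; norm_num)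

theorem not_720_k10 (hNC : ¬ IsMulCommutative G) (hn : Nat.card G = 720)
    (hk : Nat.card (Sylow 3 G) = 10) : False := by
  classical
  haveI : Fact (Nat.Prime 3) := ⟨by norm_num⟩
  have hcP : ∀ P : Sylow 3 G, Nat.card (P : Subgroup G) = 3 ^ 2 :=
    fun P => card_sylow_eq hNC 720 3 2 hn (by norm_num) (by norm_num) (by norm_num) P
  by_cases hTI : ∀ P Q : Sylow 3 G, Q ≠ P → Nat.card ((P : Subgroup G) ⊓ (Q : Subgroup G) : Subgroup G) = 1
  · exact not_720_k10_TI hNC hn hk hTI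
  · push Not at hTI
    obtain ⟨R, Q₀, hQ₀, hne⟩ := hTI
    apply not_720_k10_nonTI hNC hn hk R
    intro Q hQ h1
    -- free orbit forces triviality for all
    obtain ⟨c, hc, hcQ⟩ := exists_smul_of_inf_one R Q hQ h1 (by rw [hk, hcP]; norm_num) Q₀ hQ₀
    apply hne
    have hbot : ((R : Subgroup G) ⊓ (Q : Subgroup G) : Subgroup G) = ⊥ := Subgroup.eq_bot_of_card_eq _ h1
    have : ((R : Subgroup G) ⊓ (Q₀ : Subgroup G) : Subgroup G) = ⊥ := by
      rw [eq_bot_iff]
      rintro x ⟨hxR, hxQ⟩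
      have hxQ' : x ∈ ((c • Q : Sylow 3 G) : Subgroup G) := by
        rw [hcQ]
        exact hxQ
      rw [Sylow.coe_subgroup_smul, Subgroup.mem_pointwise_smul_iff_inv_smul_mem] at hxQ'
      have hy2 : c⁻¹ * x * c ∈ (Q : Subgroup G) := by
        have e : (MulAut.conj c)⁻¹ • x = c⁻¹ * x * c := by
          rw [MulAut.smul_def, MulAut.conj_inv_apply]
        rwa [e] at hxQ'
      have hy3 : c⁻¹ * x * c ∈ (R : Subgroup G) :=
        Subgroup.mul_mem _ (Subgroup.mul_mem _ (Subgroup.inv_mem _ hc) (show x ∈ (R : Subgroup G) from hxR)) hc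
      have hy4 : c⁻¹ * x * c ∈ ((R : Subgroup G) ⊓ (Q : Subgroup G) : Subgroup G) := ⟨hy3, hy2⟩
      rw [hbot, Subgroup.mem_bot] at hy4
      rw [Subgroup.mem_bot]
      have e2 : x = c * (c⁻¹ * x * c) * c⁻¹ := by group
      rw [e2, hy4]
      group
    rw [this, Subgroup.card_bot]

theorem not_720 (hNC : ¬ IsMulCommutative G) (hn : Nat.card G = 720) : False := by
  haveI : Fact (Nat.Prime 3) := ⟨by norm_num⟩
  have hk3 : Nat.card (Sylow 3 G) = 10 ∨ Nat.card (Sylow 3 G) = 16 ∨ Nat.card (Sylow 3 G) = 40 := by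
    obtain ⟨h1, h2⟩ := kok_sylow hNC 720 3 2 hn (by norm_num) (by norm_num) (by norm_num) (by norm_num)
    have hd : ∀ k ∈ Nat.divisors (720 / 3 ^ 2), KOK 720 3 2 k → k = 10 ∨ k = 16 ∨ k = 40 := by decide +kernel
    exact hd _ h1 h2
  rcases hk3 with h | h | h
  · exact not_720_k10 hNC hn h
  · exact not_720_k16 hNC hn h
  · exact not_720_k40 hNC hn h

end Cfsg.Agent.H09.Ord
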