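import Cfsg.Agent.Lib.H09.Ord10

/-!
Tools for the order 1440: counting fibres, conjugates inside a normalizer, and the case of
16 Sylow 5-subgroups.
-/

set_option autoImplicit false

namespace Cfsg.Agent.H09.Ord

open Cfsg

section gen
variable {G : Type*} [Group G] [Finite G]

theorem card_fiber_map {Y : Type*} (φ : G → Y) (K : Subgroup G)
    (hφ : ∀ a b, φ a = φ b ↔ a⁻¹ * b ∈ K) (S : Set Y) (hS : ∀ s ∈ S, ∃ g, φ g = s) :
    Nat.card {g : G // φ g ∈ S} = Nat.card S * Nat.card K := by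
  classical
  choose! γ hγ using hS
  rw [← Nat.card_prod]
  have hφk : ∀ s (k : K), φ (γ s * k.1) = φ (γ s) := fun s k =>
    ((hφ (γ s) (γ s * k.1)).2 (by simpa using k.2)).symm
  refine Nat.card_congr
    { toFun := fun g => (⟨φ g.1, g.2⟩, ⟨(γ (φ g.1))⁻¹ * g.1, (hφ _ _).1 (hγ _ g.2)⟩)
      invFun := fun p => ⟨γ p.1.1 * p.2.1, by rw [hφk, hγ _ p.1.2]; exact p.1.2⟩
      left_inv := fun g => Subtype.ext (by simp)
      right_inv := fun p => ?_ }
  have h1 : φ (γ p.1.1 * p.2.1) = p.1.1 := by rw [hφk, hγ _ p.1.2]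
  refine Prod.ext (Subtype.ext h1) (Subtype.ext ?_)
  simp [h1]

theorem count_conj {p : ℕ} [Fact p.Prime] (t : G) (P : Sylow p G) :
    Nat.card {z : G // z ∈ Subgroup.normalizer ((P : Subgroup G) : Set G) ∧ ∃ g : G, g * t * g⁻¹ = z} *
        Nat.card (Subgroup.centralizer ({t} : Set G)) =
      Nat.card {Q : Sylow p G // t • Q = Q} *
        Nat.card (Subgroup.normalizer ((P : Subgroup G) : Set G)) := by
  classical
  set N := Subgroup.normalizer ((P : Subgroup G) : Set G) with hN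
  have hφ₁ : ∀ a b : G, a * t * a⁻¹ = b * t * b⁻¹ ↔ a⁻¹ * b ∈ Subgroup.centralizer ({t} : Set G) := by
    intro a b
    rw [Subgroup.mem_centralizer_singleton_iff]
    constructor
    · intro h
      calc a⁻¹ * b * t = a⁻¹ * (b * t * b⁻¹) * b := by group
        _ = a⁻¹ * (a * t * a⁻¹) * b := by rw [h]
        _ = t * (a⁻¹ * b) := by group
    · intro h
      calc a * t * a⁻¹ = a * (t * (a⁻¹ * b)) * b⁻¹ := by group
        _ = a * (a⁻¹ * b * t) * b⁻¹ := by rw [h]
        _ = b * t * b⁻¹ := by group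
  have hφ₂ : ∀ a b : G, a • P = b • P ↔ a⁻¹ * b ∈ N := by
    intro a b
    constructor
    · intro h
      exact Sylow.smul_eq_iff_mem_normalizer.mp (by rw [mul_smul, inv_smul_eq_iff]; exact h.symm)
    · intro h
      have h' := Sylow.smul_eq_iff_mem_normalizer.mpr h
      rw [mul_smul, inv_smul_eq_iff] at h'
      exact h'.symm
  have key : ∀ g : G, g * t * g⁻¹ ∈ N ↔ t • (g⁻¹ • P) = g⁻¹ • P := by
    intro g
    constructor
    · intro h
      have h' := Sylow.smul_eq_iff_mem_normalizer.mpr h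
      rw [mul_smul, mul_smul, smul_eq_iff_eq_inv_smul] at h'
      exact h'
    · intro h
      exact Sylow.smul_eq_iff_mem_normalizer.mp
        (by rw [mul_smul, mul_smul, smul_eq_iff_eq_inv_smul]; exact h)
  have h1 := card_fiber_map (fun g : G => g * t * g⁻¹) (Subgroup.centralizer ({t} : Set G)) hφ₁
    {z : G | z ∈ N ∧ ∃ g : G, g * t * g⁻¹ = z} (fun s hs => hs.2)
  have h2 := card_fiber_map (fun g : G => g • P) N hφ₂ {Q : Sylow p G | t • Q = Q}
    (fun s _ => MulAction.exists_smul_eq G P s)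
  have h3 : Nat.card {g : G // g * t * g⁻¹ ∈ {z : G | z ∈ N ∧ ∃ g : G, g * t * g⁻¹ = z}} =
      Nat.card {g : G // g • P ∈ {Q : Sylow p G | t • Q = Q}} :=
    Nat.card_congr
      { toFun := fun g => ⟨g.1⁻¹, (key g.1).1 g.2.1⟩
        invFun := fun h => ⟨h.1⁻¹, (key h.1⁻¹).2 (by rw [inv_inv]; exact h.2), ⟨h.1⁻¹, rfl⟩⟩
        left_inv := fun g => Subtype.ext (inv_inv _)
        right_inv := fun h => Subtype.ext (inv_inv _) }
  exact h1.symm.trans (h3.trans h2)

theorem inv_or_comm [IsSimpleGroup G] (Q : Subgroup G) (hQ : Nat.card Q = 5) {w y : G}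
    (hw : w ∈ Subgroup.normalizer (Q : Set G)) (ww : w * w = 1) (hy : y ∈ Q) :
    w * y * w = y ∨ w * y * w = y⁻¹ := by
  haveI : Fact (Nat.Prime 5) := ⟨by norm_num⟩
  have hwinv : w⁻¹ = w := inv_eq_of_mul_eq_one_left ww
  have hwy : w * y * w ∈ Q := by
    have := (Subgroup.mem_normalizer_iff.mp hw y).1 hy
    rwa [hwinv] at this
  have habQ : ∀ a ∈ Q, ∀ b ∈ Q, a * b = b * a := by
    haveI : IsCyclic Q := isCyclic_of_prime_card hQ
    letI := IsCyclic.commGroup (α := Q)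
    intro a ha b hb
    exact congrArg Subtype.val (mul_comm (⟨a, ha⟩ : Q) ⟨b, hb⟩)
  by_cases ha1 : y * (w * y * w) = 1
  · right
    exact eq_inv_of_mul_eq_one_right ha1
  · left
    have haQ : y * (w * y * w) ∈ Q := Q.mul_mem hy hwy
    have hfix : w * (y * (w * y * w)) * w⁻¹ = y * (w * y * w) := by
      rw [hwinv]
      calc w * (y * (w * y * w)) * w = (w * y * w) * y * (w * w) := by group
        _ = (w * y * w) * y := by rw [ww, mul_one]
        _ = y * (w * y * w) := habQ _ hwy _ hy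
    have hz := zpowers_eq_of_prime_card Q hQ haQ ha1
    have hyz : y ∈ Subgroup.zpowers (y * (w * y * w)) := by rw [hz]; exact hy
    obtain ⟨k, hk⟩ := Subgroup.mem_zpowers_iff.mp hyz
    have h3 := conj_zpow (a := w) (b := y * (w * y * w)) (i := k)
    rw [hfix, hk] at h3
    rw [hwinv] at h3
    exact h3.symm

theorem final_clash {t y : G}
    (hU : ∀ g : G, (g * t * g⁻¹) * y = y * (g * t * g⁻¹) → g * t * g⁻¹ = t)
    (hI : ∀ w : G, w * w = 1 → w * t = t * w → w * y * w = y ∨ w * y * w = y⁻¹)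
    (a b s ga gb gs : G) (ha : ga * t * ga⁻¹ = a) (hb : gb * t * gb⁻¹ = b) (hs : gs * t * gs⁻¹ = s)
    (aa : a * a = 1) (bb : b * b = 1) (cas : a * s = s * a) (cbs : b * s = s * b)
    (has : a ≠ s) (hbs : b ≠ s) (hab : t = a * b) (hts : t ≠ s) : False := by
  set y' := gs * y * gs⁻¹ with hy'
  have hno : ∀ g : G, g * t * g⁻¹ ≠ s → (g * t * g⁻¹) * y' ≠ y' * (g * t * g⁻¹) := by
    intro g hg hc
    apply hg
    have h1 := hU (gs⁻¹ * g) (by
      have e : gs⁻¹ * g * t * (gs⁻¹ * g)⁻¹ = gs⁻¹ * (g * t * g⁻¹) * gs := by group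
      rw [e]
      calc gs⁻¹ * (g * t * g⁻¹) * gs * y = gs⁻¹ * ((g * t * g⁻¹) * y') * gs := by rw [hy']; group
        _ = gs⁻¹ * (y' * (g * t * g⁻¹)) * gs := by rw [hc]
        _ = y * (gs⁻¹ * (g * t * g⁻¹) * gs) := by rw [hy']; group)
    have e : gs⁻¹ * g * t * (gs⁻¹ * g)⁻¹ = gs⁻¹ * (g * t * g⁻¹) * gs := by group
    rw [e] at h1
    calc g * t * g⁻¹ = gs * (gs⁻¹ * (g * t * g⁻¹) * gs) * gs⁻¹ := by group
      _ = gs * t * gs⁻¹ := by rw [h1]
      _ = s := hs
  have hinv : ∀ w g : G, g * t * g⁻¹ = w → w * w = 1 → w * s = s * w → w ≠ s → w * y' * w = y'⁻¹ := by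
    intro w g hg ww cws hne
    have h0 := hI (gs⁻¹ * w * gs) (by
      calc gs⁻¹ * w * gs * (gs⁻¹ * w * gs) = gs⁻¹ * (w * w) * gs := by group
        _ = 1 := by rw [ww]; group) (by
      rw [← hs] at cws
      calc gs⁻¹ * w * gs * t = gs⁻¹ * (w * (gs * t * gs⁻¹)) * gs := by group
        _ = gs⁻¹ * ((gs * t * gs⁻¹) * w) * gs := by rw [cws]
        _ = t * (gs⁻¹ * w * gs) := by group)
    have e1 : gs * (gs⁻¹ * w * gs * y * (gs⁻¹ * w * gs)) * gs⁻¹ = w * y' * w := by rw [hy']; group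
    rcases h0 with h0 | h0
    · exfalso
      rw [h0] at e1
      apply hno g (by rw [hg]; exact hne)
      rw [hg]
      have e2 : w * y' * w = y' := e1.symm
      calc w * y' = (w * y' * w) * w := by rw [mul_assoc _ w w, ww, mul_one]
        _ = y' * w := by rw [e2]
    · rw [h0] at e1
      rw [← e1, hy']
      group
  have h1 := hinv a ga ha aa cas has
  have h2 := hinv b gb hb bb cbs hbs
  have hainv : a⁻¹ = a := inv_eq_of_mul_eq_one_left aa
  have hbinv : b⁻¹ = b := inv_eq_of_mul_eq_one_left bb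
  have h3 : t * y' * t⁻¹ = y' := by
    rw [hab, mul_inv_rev, hainv, hbinv]
    calc a * b * y' * (b * a) = a * (b * y' * b) * a := by group
      _ = a * y'⁻¹ * a := by rw [h2]
      _ = (a * y' * a)⁻¹ := by
        have e5 : (a * y' * a)⁻¹ = a⁻¹ * y'⁻¹ * a⁻¹ := by group
        rw [e5, hainv]
      _ = y' := by rw [h1, inv_inv]
  apply hno 1 (by simpa using hts)
  have e : (1 : G) * t * (1 : G)⁻¹ = t := by group
  rw [e]
  calc t * y' = (t * y' * t⁻¹) * t := by group
    _ = y' * t := by rw [h3]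

theorem five_le (K : Subgroup G) {a b c d e : G} (ha : a ∈ K) (hb : b ∈ K) (hc : c ∈ K) (hd : d ∈ K)
    (he : e ∈ K) (h1 : a ≠ b) (h2 : a ≠ c) (h3 : a ≠ d) (h4 : a ≠ e) (h5 : b ≠ c) (h6 : b ≠ d)
    (h7 : b ≠ e) (h8 : c ≠ d) (h9 : c ≠ e) (h10 : d ≠ e) : 5 ≤ Nat.card K := by
  classical
  haveI := Fintype.ofFinite G
  have hc5 : ({a, b, c, d, e} : Finset G).card = 5 := by
    simp [*]
  have hsub : ({a, b, c, d, e} : Finset G) ⊆ Finset.univ.filter (· ∈ K) := by
    intro x hx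
    simp only [Finset.mem_insert, Finset.mem_singleton] at hx
    simp only [Finset.mem_filter, Finset.mem_univ, true_and]
    rcases hx with rfl | rfl | rfl | rfl | rfl <;> assumption
  have h := Finset.card_le_card hsub
  rw [hc5] at h
  rw [Nat.card_eq_fintype_card]
  have : Fintype.card K = (Finset.univ.filter (· ∈ K)).card := Fintype.card_subtype _
  omega

theorem card_invol_le (N P : Subgroup G) (hPN : P ≤ N) (hP : Nat.card P = 5) (t : G) (htN : t ∈ N)
    (tt : t * t = 1) (t1 : t ≠ 1) (hc : ∀ x ∈ P, t * x = x * t) (Z : Set G)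
    (hZ : ∀ z ∈ Z, z ∈ N ∧ z * z = 1 ∧ z ≠ 1) (ht : t ∈ Z) : Nat.card Z + 9 ≤ Nat.card N := by
  classical
  have hP1 : ∀ x ∈ P, x * x = 1 → x = 1 := by
    intro x hx hxx
    have h5 : (⟨x, hx⟩ : P) ^ Nat.card P = 1 := pow_card_eq_one'
    rw [hP] at h5
    have h6 : x ^ 5 = 1 := by simpa using congrArg Subtype.val h5
    have h7 : x ^ 5 = x * (x * x) * (x * x) := by
      simp only [pow_succ, pow_zero, one_mul, mul_assoc]
    rw [h7, hxx] at h6
    simpa using h6
  have htP : t ∉ P := fun h => t1 (hP1 t h tt)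
  let f : {z : Z // z ≠ ⟨t, ht⟩} ⊕ (P ⊕ P) → N := fun u => match u with
    | Sum.inl z => ⟨z.1.1, (hZ _ z.1.2).1⟩
    | Sum.inr (Sum.inl x) => ⟨x.1, hPN x.2⟩
    | Sum.inr (Sum.inr x) => ⟨t * x.1, N.mul_mem htN (hPN x.2)⟩
  have e1 : ∀ (z : {z : Z // z ≠ ⟨t, ht⟩}) (x : P), z.1.1 ≠ x.1 := by
    intro z x h
    have hzz := (hZ _ z.1.2).2
    rw [h] at hzz
    exact hzz.2 (hP1 _ x.2 hzz.1)
  have e2 : ∀ (z : {z : Z // z ≠ ⟨t, ht⟩}) (x : P), z.1.1 ≠ t * x.1 := by
    intro z x h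
    have hzz := (hZ _ z.1.2).2
    rw [h] at hzz
    have hxx : x.1 * x.1 = 1 := by
      have hcx := hc _ x.2
      calc x.1 * x.1 = t * (t * x.1) * x.1 := by rw [← mul_assoc t t, tt, one_mul]
        _ = t * (x.1 * t) * x.1 := by rw [hcx]
        _ = (t * x.1) * (t * x.1) := by group
        _ = 1 := hzz.1
    have hx1 := hP1 _ x.2 hxx
    apply z.2
    apply Subtype.ext
    show z.1.1 = t
    rw [h, hx1, mul_one]
  have e3 : ∀ x y : P, x.1 ≠ t * y.1 := by
    intro x y h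
    apply htP
    have : t = x.1 * y.1⁻¹ := by rw [h]; group
    rw [this]
    exact P.mul_mem x.2 (P.inv_mem y.2)
  have hinj : Function.Injective f := by
    rintro (a | a | a) (b | b | b) h <;> have h' := congrArg Subtype.val h
    · exact congrArg Sum.inl (Subtype.ext (Subtype.ext h'))
    · exact absurd h' (e1 a b)
    · exact absurd h' (e2 a b)
    · exact absurd h'.symm (e1 b a)
    · exact congrArg (fun v => Sum.inr (Sum.inl v)) (Subtype.ext h')
    · exact absurd h' (e3 a b)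
    · exact absurd h'.symm (e2 b a)
    · exact absurd h'.symm (e3 b a)
    · exact congrArg (fun v => Sum.inr (Sum.inr v)) (Subtype.ext (mul_left_cancel h'))
  have hle := Nat.card_le_card_of_injective f hinj
  rw [Nat.card_sum, Nat.card_sum, hP] at hle
  have h9 : Nat.card {z : Z // z ≠ ⟨t, ht⟩} + 1 = Nat.card Z := card_ne_add_one (⟨t, ht⟩ : Z)
  omega

theorem exists_sylow_of_pow {p : ℕ} [Fact p.Prime] {c : G} (hc : c ^ p = 1) :
    ∃ S : Sylow p G, c ∈ (S : Subgroup G) := by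
  have hp : IsPGroup p (Subgroup.zpowers c) := by
    rintro ⟨g, hg⟩
    obtain ⟨n, rfl⟩ := Subgroup.mem_zpowers_iff.mp hg
    refine ⟨1, Subtype.ext ?_⟩
    show (c ^ n) ^ p ^ 1 = 1
    rw [pow_one, ← zpow_natCast, ← zpow_mul, mul_comm, zpow_mul, zpow_natCast, hc, one_zpow]
  obtain ⟨S, hS⟩ := hp.exists_le_sylow
  exact ⟨S, hS (Subgroup.mem_zpowers c)⟩

end gen

section k16
variable {G : Type*} [Group G] [Finite G] [IsSimpleGroup G]

theorem not_1440_k16 (hNC : ¬ IsMulCommutative G) (hn : Nat.card G = 1440)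
    (hk : Nat.card (Sylow 5 G) = 16) : False := by
  classical
  haveI : Fact (Nat.Prime 5) := ⟨by norm_num⟩
  haveI : Fact (Nat.Prime 3) := ⟨by norm_num⟩
  obtain ⟨P⟩ : Nonempty (Sylow 5 G) := inferInstance
  have hcP : Nat.card (P : Subgroup G) = 5 := by
    simpa using card_sylow_eq hNC 1440 5 1 hn (by norm_num) (by norm_num) (by norm_num) P
  have hN : Nat.card (Subgroup.normalizer ((P : Subgroup G) : Set G)) = 90 := by
    have := card_norm_mul hNC 1440 5 1 hn (by norm_num) (by norm_num) (by norm_num) P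
    rw [hk] at this
    omega
  have hdv := card_norm_dvd (P : Subgroup G) hcP
  rw [hN] at hdv
  set C := Subgroup.centralizer ((P : Subgroup G) : Set G) with hC
  have h45 : 45 ∣ Nat.card C := by
    obtain ⟨a, ha⟩ := hdv
    omega
  obtain ⟨y, hyP, yy, y1⟩ := exists_elt (P : Subgroup G) 5 (by rw [hcP])
  have hf := sylow_moves (p := 5) (G := G) (by rw [hk]; norm_num)
  have hCcomm : ∀ h ∈ C, ∀ x ∈ (P : Subgroup G), h * x = x * h := fun h hh x hx =>
    (Subgroup.mem_centralizer_iff.mp hh x hx).symm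
  have hCP : ∀ h ∈ C, h • P = P := fun h hh =>
    Sylow.smul_eq_iff_mem_normalizer.mpr (Subgroup.centralizer_le_normalizer _ hh)
  have hy_fix : ∀ x : Sylow 5 G, y • x = x → x = P := by
    intro x hx
    by_contra hne
    exact y1 (eq_one_of_prime_smul P x hne hcP hyP hx)
  have key : ∀ h ∈ C, h ≠ 1 → h ^ 3 = 1 → ∀ x : Sylow 5 G, h • x = x → x = P := by
    intro h hh h1 h3 x hx
    have e1 := card_modEq_fix (X := Sylow 5 G) 3 h h3
    have e2 := card_fix_modEq (X := Sylow 5 G) 5 h y (hCcomm h hh y hyP) yy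
    have e3 : Nat.card {x : Sylow 5 G // h • x = x ∧ y • x = x} = 1 := by
      rw [Nat.card_eq_one_iff_unique]
      exact ⟨⟨fun a b => Subtype.ext ((hy_fix _ a.2.2).trans (hy_fix _ b.2.2).symm)⟩,
        ⟨⟨P, hCP h hh, smul_self_of_mem P hyP⟩⟩⟩
    rw [e3] at e2
    have e4 := fix_lt hf h h1
    rw [hk] at e1 e4
    have e5 : Nat.card {x : Sylow 5 G // h • x = x} = 1 := by
      unfold Nat.ModEq at e1 e2
      omega
    have hsub : Subsingleton {x : Sylow 5 G // h • x = x} := (Nat.card_eq_one_iff_unique.mp e5).1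
    exact congrArg Subtype.val (Subsingleton.elim (⟨x, hx⟩ : {x : Sylow 5 G // h • x = x}) ⟨P, hCP h hh⟩)
  haveI : Nontrivial (Sylow 5 G) := Finite.one_lt_card_iff_nontrivial.mp (by rw [hk]; norm_num)
  obtain ⟨x₀, hx₀⟩ := exists_ne P
  set St := MulAction.stabilizer (↥C) x₀ with hSt
  have h3 : ¬ 3 ∣ Nat.card St := by
    intro h
    obtain ⟨c, hc, cc, c1⟩ := exists_elt St 3 h
    have h1 : (c : G) ≠ 1 := fun e => c1 (Subtype.ext e)
    have h2 : (c : G) ^ 3 = 1 := by
      have := congrArg Subtype.val cc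
      simpa using this
    exact hx₀ (key c.1 c.2 h1 h2 x₀ (MulAction.mem_stabilizer_iff.mp hc))
  have h5 : ¬ 5 ∣ Nat.card St := by
    intro h
    obtain ⟨c, hc, cc, c1⟩ := exists_elt St 5 h
    have h1 : (c : G) ≠ 1 := fun e => c1 (Subtype.ext e)
    have h2 : (c : G) ^ 5 = 1 := by
      have := congrArg Subtype.val cc
      simpa using this
    obtain ⟨S, hS⟩ := exists_sylow_of_pow h2
    have h4 := mem_of_smul_eq S P hS (hCP c.1 c.2)
    exact h1 (eq_one_of_prime_smul P x₀ hx₀ hcP h4 (MulAction.mem_stabilizer_iff.mp hc))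
  have hmul := Subgroup.card_mul_index St
  have hidx : St.index ≤ 16 := by
    rw [← hk]
    exact Nat.card_le_card_of_injective _ (MulAction.injective_ofQuotientStabilizer (↥C) x₀)
  have hcop : Nat.Coprime 45 (Nat.card St) := by
    have c3 : Nat.Coprime 3 (Nat.card St) := (Nat.Prime.coprime_iff_not_dvd (by norm_num)).2 h3
    have c5 : Nat.Coprime 5 (Nat.card St) := (Nat.Prime.coprime_iff_not_dvd (by norm_num)).2 h5
    have : (45 : ℕ) = 3 * 3 * 5 := by norm_num
    rw [this]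
    exact Nat.Coprime.mul_left (Nat.Coprime.mul_left c3 c3) c5
  rw [← hmul] at h45
  have h6 : 45 ∣ St.index := hcop.dvd_of_dvd_mul_left h45
  have h7 : 0 < St.index := Nat.pos_of_ne_zero (by
    intro h0
    rw [h0, mul_zero] at hmul
    exact absurd hmul.symm (Nat.card_pos).ne')
  have h8 := Nat.le_of_dvd h7 h6
  omega

end k16

end Cfsg.Agent.H09.Ord
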