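import Cfsg.Agent.Lib.H09.Ord11

/-!
No simple group of order 1440.
-/

set_option autoImplicit false

namespace Cfsg.Agent.H09.Ord

open Cfsg

variable {G : Type*} [Group G] [Finite G] [IsSimpleGroup G]

theorem cent_le_norm (P : Sylow 5 G) (hcP : Nat.card (P : Subgroup G) = 5) (Cx : Subgroup G) (t y : G)
    (htC : t ∈ Cx) (hyC : y ∈ Cx) (hyP : y ∈ (P : Subgroup G)) (y1 : y ≠ 1) (yy : y ^ 5 = 1)
    (tt : t * t = 1) (t1 : t ≠ 1) (htP : t • P = P) (hc : Nat.card Cx = 40 ∨ Nat.card Cx = 80) :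
    ∀ c ∈ Cx, c • P = P := by
  classical
  haveI : Fact (Nat.Prime 5) := ⟨by norm_num⟩
  have hy_fix : ∀ x : Sylow 5 G, y • x = x → x = P := by
    intro x hx
    by_contra hne
    exact y1 (eq_one_of_prime_smul P x hne hcP hyP hx)
  let yh : ↥Cx := ⟨y, hyC⟩
  have hyh : yh ^ 5 = 1 := Subtype.ext (by simpa [yh] using yy)
  have e1 := card_modEq_fix (G := ↥Cx) (X := MulAction.orbit (↥Cx) P) 5 yh hyh
  have e2 : Nat.card {x : MulAction.orbit (↥Cx) P // yh • x = x} = 1 := by
    rw [Nat.card_eq_one_iff_unique]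
    refine ⟨⟨fun a b => Subtype.ext (Subtype.ext ?_)⟩, ⟨⟨⟨P, MulAction.mem_orbit_self P⟩, ?_⟩⟩⟩
    · have ha : y • a.1.1 = a.1.1 := congrArg Subtype.val a.2
      have hb : y • b.1.1 = b.1.1 := congrArg Subtype.val b.2
      exact (hy_fix _ ha).trans (hy_fix _ hb).symm
    · exact Subtype.ext (smul_self_of_mem P hyP)
  set St := MulAction.stabilizer (↥Cx) P with hSt
  have hO : Nat.card (MulAction.orbit (↥Cx) P) = St.index :=
    Nat.card_congr (MulAction.orbitEquivQuotientStabilizer (↥Cx) P)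
  have hmul := Subgroup.card_mul_index St
  rw [e2, hO] at e1
  have ht2 : 2 ∣ Nat.card St := by
    have hmem : (⟨t, htC⟩ : ↥Cx) ∈ St := MulAction.mem_stabilizer_iff.mpr htP
    have h1 := Subgroup.orderOf_dvd_natCard St hmem
    have h2 : orderOf (⟨t, htC⟩ : ↥Cx) = 2 := by
      apply orderOf_eq_prime
      · exact Subtype.ext (by simpa [pow_two] using tt)
      · exact fun e => t1 (congrArg Subtype.val e)
    rwa [h2] at h1
  obtain ⟨a, ha⟩ := ht2
  rw [ha] at hmul
  have hdv : St.index ∣ 40 := by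
    rcases hc with hc | hc
    · rw [hc] at hmul
      have : a * St.index = 20 := by nlinarith
      have h20 : St.index ∣ 20 := ⟨a, by rw [mul_comm]; exact this.symm⟩
      exact h20.trans (by norm_num)
    · rw [hc] at hmul
      have : a * St.index = 40 := by nlinarith
      exact ⟨a, by rw [mul_comm]; exact this.symm⟩
  have hmem : St.index ∈ Nat.divisors 40 := Nat.mem_divisors.mpr ⟨hdv, by norm_num⟩
  have hdec : ∀ i ∈ Nat.divisors 40, i % 5 = 1 → i = 1 := by decide +kernel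
  have hi : St.index = 1 := hdec _ hmem (by
    unfold Nat.ModEq at e1
    omega)
  rw [Subgroup.index_eq_one] at hi
  intro c hc'
  have : (⟨c, hc'⟩ : ↥Cx) ∈ St := by rw [hi]; trivial
  exact MulAction.mem_stabilizer_iff.mp this

theorem main_1440 (P : Sylow 5 G) (hcP : Nat.card (P : Subgroup G) = 5) (t y : G) (tt : t * t = 1)
    (t1 : t ≠ 1) (hyP : y ∈ (P : Subgroup G)) (y1 : y ≠ 1) (yy : y ^ 5 = 1)
    (hPt : ∀ x ∈ (P : Subgroup G), x * t = t * x)
    (hCN : Subgroup.centralizer ({t} : Set G) = Subgroup.normalizer ((P : Subgroup G) : Set G))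
    (hNcard : Nat.card (Subgroup.normalizer ((P : Subgroup G) : Set G)) = 40)
    (hZ16 : Nat.card {z : G // z ∈ Subgroup.normalizer ((P : Subgroup G) : Set G) ∧
      ∃ g : G, g * t * g⁻¹ = z} = 16) : False := by
  classical
  haveI : Fact (Nat.Prime 5) := ⟨by norm_num⟩
  haveI : Fact (Nat.Prime 2) := ⟨Nat.prime_two⟩
  set N := Subgroup.normalizer ((P : Subgroup G) : Set G) with hN
  have hCmem : ∀ w : G, w ∈ N ↔ w * t = t * w := by
    intro w
    rw [← hCN, Subgroup.mem_centralizer_singleton_iff]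
  have hy_fix : ∀ x : Sylow 5 G, y • x = x → x = P := by
    intro x hx
    by_contra hne
    exact y1 (eq_one_of_prime_smul P x hne hcP hyP hx)
  have hU : ∀ g : G, (g * t * g⁻¹) * y = y * (g * t * g⁻¹) → g * t * g⁻¹ = t := by
    intro g hg
    have hc : g⁻¹ * y * g ∈ N := (hCmem _).2 (by
      calc g⁻¹ * y * g * t = g⁻¹ * (y * (g * t * g⁻¹)) * g := by group
        _ = g⁻¹ * ((g * t * g⁻¹) * y) * g := by rw [hg]
        _ = t * (g⁻¹ * y * g) := by group)
    have h1 : (g⁻¹ * y * g) • P = P := Sylow.smul_eq_iff_mem_normalizer.mpr hc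
    have h2 : y • (g • P) = g • P := by
      calc y • (g • P) = (y * g) • P := (mul_smul _ _ _).symm
        _ = (g * (g⁻¹ * y * g)) • P := by congr 1; group
        _ = g • ((g⁻¹ * y * g) • P) := mul_smul _ _ _
        _ = g • P := by rw [h1]
    have h3 := hy_fix _ h2
    have h4 : g ∈ N := Sylow.smul_eq_iff_mem_normalizer.mp h3
    have h5 := (hCmem g).1 h4
    rw [h5]
    group
  have hI : ∀ w : G, w * w = 1 → w * t = t * w → w * y * w = y ∨ w * y * w = y⁻¹ :=
    fun w ww c => inv_or_comm (P : Subgroup G) hcP ((hCmem w).2 c) ww hyP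
  have hconj_inv : ∀ g : G, (g * t * g⁻¹) * (g * t * g⁻¹) = 1 := by
    intro g
    calc (g * t * g⁻¹) * (g * t * g⁻¹) = g * (t * t) * g⁻¹ := by group
      _ = 1 := by rw [tt]; group
  have hinv_z : ∀ z : G, z ∈ N → (∃ g : G, g * t * g⁻¹ = z) → z ≠ t → z * y * z = y⁻¹ := by
    rintro z hz ⟨g, hg⟩ hne
    have zz : z * z = 1 := by rw [← hg]; exact hconj_inv g
    rcases hI z zz ((hCmem z).1 hz) with h | h
    · exfalso
      apply hne
      rw [← hg]
      apply hU g
      rw [hg]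
      calc z * y = (z * y * z) * z := by rw [mul_assoc _ z z, zz, mul_one]
        _ = y * z := by rw [h]
    · exact h
  have htN : t ∈ N := (hCmem t).2 rfl
  let t₀ : {z : G // z ∈ N ∧ ∃ g : G, g * t * g⁻¹ = z} := ⟨t, htN, 1, by group⟩
  have hX : Nat.card {x : {z : G // z ∈ N ∧ ∃ g : G, g * t * g⁻¹ = z} // x ≠ t₀} = 15 := by
    have := card_ne_add_one t₀
    omega
  -- a Sylow 2-subgroup of the normalizer
  obtain ⟨K, hKt⟩ := exists_sylow_of_pow (G := ↥N) (p := 2) (c := ⟨t, htN⟩)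
    (Subtype.ext (by simpa [pow_two] using tt))
  have hcK : Nat.card (K : Subgroup ↥N) = 8 := by
    have hfac : (40 : ℕ).factorization 2 = 3 := by
      have h : (40 : ℕ) = 2 ^ 3 * 5 := by norm_num
      rw [h, Nat.factorization_mul (by norm_num) (by norm_num), Nat.factorization_pow]
      simp [Nat.Prime.factorization Nat.prime_two, Nat.factorization_eq_zero_of_not_dvd]
    rw [K.card_eq_multiplicity, hNcard, hfac]
    norm_num

  have hKt' : ∀ s : (K : Subgroup ↥N), s.1.1 * t = t * s.1.1 := fun s => (hCmem _).1 s.1.2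
  let X' := {x : {z : G // z ∈ N ∧ ∃ g : G, g * t * g⁻¹ = z} // x ≠ t₀}
  have hX' : Nat.card X' = 15 := hX
  let actf : ↥(K : Subgroup ↥N) → X' → X' := fun s x =>
    ⟨⟨s.1.1 * x.1.1 * s.1.1⁻¹, N.mul_mem (N.mul_mem s.1.2 x.1.2.1) (N.inv_mem s.1.2), by
        obtain ⟨g, hg⟩ := x.1.2.2
        exact ⟨s.1.1 * g, by rw [← hg]; group⟩⟩, by
      intro h
      apply x.2
      apply Subtype.ext
      have h1 : s.1.1 * x.1.1 * s.1.1⁻¹ = t := congrArg Subtype.val h
      show x.1.1 = t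
      calc x.1.1 = s.1.1⁻¹ * (s.1.1 * x.1.1 * s.1.1⁻¹) * s.1.1 := by group
        _ = s.1.1⁻¹ * t * s.1.1 := by rw [h1]
        _ = t := by rw [mul_assoc, ← hKt' s]; group⟩
  letI act : MulAction (K : Subgroup ↥N) X' :=
    { smul := actf
      one_smul := fun x => Subtype.ext (Subtype.ext (by
        show (1 : G) * x.1.1 * (1 : G)⁻¹ = x.1.1
        group))
      mul_smul := fun a b x => Subtype.ext (Subtype.ext (by
        show (a.1.1 * b.1.1) * x.1.1 * (a.1.1 * b.1.1)⁻¹ = a.1.1 * (b.1.1 * x.1.1 * b.1.1⁻¹) * a.1.1⁻¹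
        group)) }
  obtain ⟨x₁, hx₁⟩ := K.isPGroup'.nonempty_fixed_point_of_prime_not_dvd_card X' (by rw [hX']; norm_num)
  have hz₁c : ∀ s : (K : Subgroup ↥N), s.1.1 * x₁.1.1 * s.1.1⁻¹ = x₁.1.1 := fun s =>
    congrArg (fun x : X' => x.1.1) (hx₁ s)
  obtain ⟨⟨z₁, hz₁N, hz₁conj⟩, hz₁ne'⟩ := x₁
  have hz₁ne : z₁ ≠ t := fun e => hz₁ne' (Subtype.ext e)
  simp only at hz₁c
  have zz₁ : z₁ * z₁ = 1 := by
    obtain ⟨g, hg⟩ := hz₁conj
    rw [← hg]
    exact hconj_inv g
  have hcommK : ∀ h : ↥N, h ∈ (K : Subgroup ↥N) → (⟨z₁, hz₁N⟩ : ↥N) * h = h * ⟨z₁, hz₁N⟩ := by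
    intro h hh
    apply Subtype.ext
    have h1 := hz₁c ⟨h, hh⟩
    show z₁ * h.1 = h.1 * z₁
    calc z₁ * h.1 = (h.1 * z₁ * h.1⁻¹) * h.1 := by
          have : (h.1 * z₁ * h.1⁻¹) = z₁ := h1
          rw [this]
      _ = h.1 * z₁ := by group
  have hzK : (⟨z₁, hz₁N⟩ : ↥N) ∈ (K : Subgroup ↥N) := by
    obtain ⟨S₂, hS₂⟩ := exists_sylow_of_pow (G := ↥N) (p := 2) (c := ⟨z₁, hz₁N⟩)
      (Subtype.ext (by simpa [pow_two] using zz₁))
    have hnorm : (⟨z₁, hz₁N⟩ : ↥N) • K = K := by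
      apply Sylow.smul_eq_iff_mem_normalizer.mpr
      refine Subgroup.mem_normalizer_iff.mpr ?_
      intro h
      constructor
      · intro hh
        have e : (⟨z₁, hz₁N⟩ : ↥N) * h * (⟨z₁, hz₁N⟩ : ↥N)⁻¹ = h := by
          rw [hcommK h hh]
          group
        rw [e]
        exact hh
      · intro hh
        have e := hcommK _ hh
        have e2 : h = (⟨z₁, hz₁N⟩ : ↥N) * h * (⟨z₁, hz₁N⟩ : ↥N)⁻¹ := by
          have e3 := mul_left_cancel (a := (⟨z₁, hz₁N⟩ : ↥N)) (b := h)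
            (c := (⟨z₁, hz₁N⟩ : ↥N) * h * (⟨z₁, hz₁N⟩ : ↥N)⁻¹) (by rw [e]; group)
          exact e3
        rw [e2]
        exact hh
    exact mem_of_smul_eq S₂ K hS₂ hnorm
  -- the Sylow subgroup inside `G`
  set S : Subgroup G := (K : Subgroup ↥N).map N.subtype with hS
  have hSin : ∀ k : ↥N, k ∈ (K : Subgroup ↥N) → k.1 ∈ S := fun k hk => ⟨k, hk, rfl⟩
  have hSN : ∀ x ∈ S, x ∈ N := by
    rintro x ⟨k, -, rfl⟩
    exact k.2
  have hSK : ∀ x ∈ S, x * z₁ = z₁ * x := by
    rintro x ⟨k, hk, rfl⟩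
    exact (congrArg Subtype.val (hcommK k hk)).symm
  have hcS : Nat.card S = 8 := by
    rw [← hcK]
    exact (Nat.card_congr ((K : Subgroup ↥N).equivMapOfInjective N.subtype N.subtype_injective).toEquiv).symm
  have htS : t ∈ S := hSin _ hKt
  have hzS : z₁ ∈ S := hSin _ hzK
  have htc : ∀ s ∈ S, s * t = t * s := fun s hs => (hCmem s).1 (hSN s hs)
  have hcomm : ∀ a ∈ S, ∀ b ∈ S, a * b = b * a := by
    intro a ha b hb
    by_cases hlist : a = 1 ∨ a = t ∨ a = z₁ ∨ a = t * z₁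
    · rcases hlist with rfl | rfl | rfl | rfl
      · simp
      · exact (htc b hb).symm
      · exact (hSK b hb).symm
      · rw [mul_assoc, ← hSK b hb, ← mul_assoc, ← htc b hb, mul_assoc]
    · push Not at hlist
      obtain ⟨n1, n2, n3, n4⟩ := hlist
      set Ca : Subgroup G := S ⊓ Subgroup.centralizer ({a} : Set G) with hCa
      have hmemCa : ∀ u, u ∈ S → u * a = a * u → u ∈ Ca := fun u hu hc =>
        ⟨hu, Subgroup.mem_centralizer_singleton_iff.mpr hc⟩
      have hzt1 : t * z₁ ≠ 1 := fun e => hz₁ne (by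
        have : z₁ = t⁻¹ := eq_inv_of_mul_eq_one_right e
        rw [this]
        exact inv_eq_of_mul_eq_one_left tt)
      have hz1 : z₁ ≠ 1 := by
        intro e
        apply t1
        obtain ⟨g, hg⟩ := hz₁conj
        rw [e] at hg
        have : t = g⁻¹ * (g * t * g⁻¹) * g := by group
        rw [this, hg]
        group
      have h5 := five_le Ca (a := 1) (b := t) (c := z₁) (d := t * z₁) (e := a)
        (Ca.one_mem) (hmemCa _ htS (htc a ha).symm) (hmemCa _ hzS (hSK a ha).symm)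
        (hmemCa _ (S.mul_mem htS hzS) (by
          rw [mul_assoc, ← hSK a ha, ← mul_assoc, ← htc a ha, mul_assoc]))
        (hmemCa _ ha rfl) t1.symm hz1.symm hzt1.symm n1.symm hz₁ne.symm
        (fun e => hz1 (by simpa using e.symm)) n2.symm
        (fun e => t1 (by
          have e' : (1 : G) * z₁ = t * z₁ := by rw [one_mul]; exact e
          exact (mul_right_cancel e').symm)) n3.symm n4.symm
      have hdv : Nat.card Ca ∣ 8 := by
        rw [← hcS]
        exact Subgroup.card_dvd_of_le inf_le_left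
      have hle := Nat.le_of_dvd (by norm_num) hdv
      have h8 : Nat.card Ca = 8 := by
        generalize Nat.card Ca = m at *
        interval_cases m <;> first | rfl | omega
      have hCaS : Ca = S := Subgroup.eq_of_le_of_card_ge inf_le_left (by rw [h8, hcS])
      have hb' : b ∈ Ca := hCaS ▸ hb
      exact (Subgroup.mem_centralizer_singleton_iff.mp hb'.2).symm
  -- factorization of the normalizer
  have hdisj := Subgroup.disjoint_of_coprime_natCard (H := (P : Subgroup G)) (K := S)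
    (by rw [hcP, hcS]; norm_num)
  have hPS1 : ∀ x, x ∈ (P : Subgroup G) → x ∈ S → x = 1 := fun x h1 h2 =>
    Subgroup.disjoint_def.mp hdisj h1 h2
  have hdec : ∀ z ∈ N, ∃ a ∈ (P : Subgroup G), ∃ s ∈ S, z = a * s := by
    intro z hz
    let f : ↥(P : Subgroup G) × ↥S → N := fun p =>
      ⟨p.1.1 * p.2.1, N.mul_mem (Subgroup.le_normalizer p.1.2) (hSN _ p.2.2)⟩
    have hinj : Function.Injective f := by
      rintro ⟨a, s⟩ ⟨a', s'⟩ h
      have h1 : a.1 * s.1 = a'.1 * s'.1 := congrArg Subtype.val h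
      have h2 : a'.1⁻¹ * a.1 = s'.1 * s.1⁻¹ := by
        calc a'.1⁻¹ * a.1 = a'.1⁻¹ * (a.1 * s.1) * s.1⁻¹ := by group
          _ = a'.1⁻¹ * (a'.1 * s'.1) * s.1⁻¹ := by rw [h1]
          _ = s'.1 * s.1⁻¹ := by group
      have h3 : a'.1⁻¹ * a.1 = 1 := hPS1 _ ((P : Subgroup G).mul_mem ((P : Subgroup G).inv_mem a'.2) a.2)
        (by rw [h2]; exact S.mul_mem s'.2 (S.inv_mem s.2))
      have h4 : a.1 = a'.1 := by
        have := inv_mul_eq_one.mp h3
        exact this.symm
      have h5 : s.1 = s'.1 := by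
        rw [h4] at h1
        exact mul_left_cancel h1
      exact Prod.ext (Subtype.ext h4) (Subtype.ext h5)
    have hbij := hinj.bijective_of_nat_card_le (by rw [Nat.card_prod, hcP, hcS, hNcard])
    obtain ⟨⟨a, s⟩, h⟩ := hbij.2 ⟨z, hz⟩
    exact ⟨a, a.2, s, s.2, (congrArg Subtype.val h).symm⟩
  have hPz : (Subgroup.zpowers y) = (P : Subgroup G) := zpowers_eq_of_prime_card _ hcP hyP y1
  have hinvP : ∀ z : G, z * z = 1 → z * y * z = y⁻¹ → ∀ a ∈ (P : Subgroup G), z * a * z = a⁻¹ := by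
    intro z zz hzy a ha
    rw [← hPz] at ha
    obtain ⟨k, rfl⟩ := Subgroup.mem_zpowers_iff.mp ha
    have hzinv : z⁻¹ = z := inv_eq_of_mul_eq_one_left zz
    have h := conj_zpow (a := z) (b := y) (i := k)
    rw [hzinv, hzy] at h
    rw [← h, inv_zpow]
  let W := {s : G // s ∈ S ∧ (∃ g : G, g * t * g⁻¹ = s) ∧ s ≠ t}
  have hsur : ∀ x : X', ∃ b : (P : Subgroup G), ∃ s : W, x.1.1 = b.1 * s.1 * b.1⁻¹ := by
    intro x
    obtain ⟨g, hg⟩ := x.1.2.2
    have hne : x.1.1 ≠ t := fun e => x.2 (Subtype.ext e)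
    have zy := hinv_z _ x.1.2.1 ⟨g, hg⟩ hne
    obtain ⟨⟨z, hzN, hzc⟩, hxne⟩ := x
    simp only at hg hne zy ⊢
    have zz : z * z = 1 := by rw [← hg]; exact hconj_inv g
    have hzP := hinvP z zz zy
    obtain ⟨a, ha, s, hs, hzas⟩ := hdec z hzN
    have ha5 : a ^ 5 = 1 := by
      have h5 : (⟨a, ha⟩ : (P : Subgroup G)) ^ Nat.card (P : Subgroup G) = 1 := pow_card_eq_one'
      rw [hcP] at h5
      simpa using congrArg Subtype.val h5
    have hsdef : s = a⁻¹ * z := by rw [hzas]; group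
    have hb : a ^ 3 ∈ (P : Subgroup G) := (P : Subgroup G).pow_mem ha 3
    have h1 : z * (a ^ 3)⁻¹ * z = a ^ 3 := by
      rw [hzP _ ((P : Subgroup G).inv_mem hb), inv_inv]
    have h2 : z * (a ^ 3)⁻¹ = a ^ 3 * z := by
      calc z * (a ^ 3)⁻¹ = (z * (a ^ 3)⁻¹ * z) * z := by rw [mul_assoc _ z z, zz, mul_one]
        _ = a ^ 3 * z := by rw [h1]
    have h3 : a ^ 3 * s * (a ^ 3)⁻¹ = z := by
      rw [hsdef]
      calc a ^ 3 * (a⁻¹ * z) * (a ^ 3)⁻¹ = a ^ 3 * a⁻¹ * (z * (a ^ 3)⁻¹) := by group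
        _ = a ^ 3 * a⁻¹ * (a ^ 3 * z) := by rw [h2]
        _ = a ^ 5 * z := by
          simp only [pow_succ, pow_zero, one_mul, mul_assoc, mul_inv_cancel_left]
        _ = z := by rw [ha5, one_mul]
    have hPt' : a ^ 3 * t = t * a ^ 3 := hPt _ hb
    have hconj : (a ^ 3)⁻¹ * g * t * ((a ^ 3)⁻¹ * g)⁻¹ = s := by
      calc (a ^ 3)⁻¹ * g * t * ((a ^ 3)⁻¹ * g)⁻¹ = (a ^ 3)⁻¹ * (g * t * g⁻¹) * a ^ 3 := by group
        _ = (a ^ 3)⁻¹ * z * a ^ 3 := by rw [hg]
        _ = (a ^ 3)⁻¹ * (a ^ 3 * s * (a ^ 3)⁻¹) * a ^ 3 := by rw [h3]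
        _ = s := by group
    have hst : s ≠ t := by
      intro e
      apply hne
      rw [← h3, e, hPt']
      group
    exact ⟨⟨_, hb⟩, ⟨s, hs, ⟨_, hconj⟩, hst⟩, h3.symm⟩
  -- at least three elements in `W`
  have hW3 : 3 ≤ Nat.card W := by
    choose b s' hbs using hsur
    have hinj : Function.Injective (fun x : X' => (b x, s' x)) := by
      intro x x' h
      have h1 : b x = b x' := congrArg Prod.fst h
      have h2 : s' x = s' x' := congrArg Prod.snd h
      apply Subtype.ext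
      apply Subtype.ext
      rw [hbs x, hbs x', h1, h2]
    have hle := Nat.card_le_card_of_injective _ hinj
    rw [Nat.card_prod, hcP, hX'] at hle
    omega
  haveI : Fintype W := Fintype.ofFinite W
  have hlt : 2 < (Finset.univ : Finset W).card := by
    rw [Finset.card_univ, ← Nat.card_eq_fintype_card]
    omega
  obtain ⟨s₁, -, s₂, -, s₃, -, h12, h13, h23⟩ := Finset.two_lt_card.mp hlt
  have hab : s₁.1 ≠ s₂.1 := fun e => h12 (Subtype.ext e)
  have hac : s₁.1 ≠ s₃.1 := fun e => h13 (Subtype.ext e)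
  have hbc : s₂.1 ≠ s₃.1 := fun e => h23 (Subtype.ext e)
  obtain ⟨a, haS, ⟨ga, hga⟩, hat⟩ := s₁
  obtain ⟨b, hbS, ⟨gb, hgb⟩, hbt⟩ := s₂
  obtain ⟨c, hcS', ⟨gc, hgc⟩, hct⟩ := s₃
  simp only at hab hac hbc
  have aa : a * a = 1 := by rw [← hga]; exact hconj_inv ga
  have bb : b * b = 1 := by rw [← hgb]; exact hconj_inv gb
  have cc : c * c = 1 := by rw [← hgc]; exact hconj_inv gc
  have ay := hinv_z a (hSN a haS) ⟨ga, hga⟩ hat
  have by' := hinv_z b (hSN b hbS) ⟨gb, hgb⟩ hbt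
  have cy := hinv_z c (hSN c hcS') ⟨gc, hgc⟩ hct
  have hprod : ∀ u v : G, u * y * u = y⁻¹ → v * y * v = y⁻¹ → u * u = 1 → v * v = 1 →
      (u * v) * y = y * (u * v) := by
    intro u v hu hv uu vv
    have h1 : v * y = y⁻¹ * v := by
      calc v * y = (v * y * v) * v := by rw [mul_assoc _ v v, vv, mul_one]
        _ = y⁻¹ * v := by rw [hv]
    have huinv : u⁻¹ = u := inv_eq_of_mul_eq_one_left uu
    have h2 : u * y⁻¹ * u = y := by
      have h3 : (u * y * u)⁻¹ = u⁻¹ * y⁻¹ * u⁻¹ := by group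
      rw [hu, inv_inv, huinv] at h3
      exact h3.symm
    have h4 : u * y⁻¹ = y * u := by
      calc u * y⁻¹ = (u * y⁻¹ * u) * u := by rw [mul_assoc _ u u, uu, mul_one]
        _ = y * u := by rw [h2]
    calc u * v * y = u * (v * y) := by group
      _ = u * (y⁻¹ * v) := by rw [h1]
      _ = (u * y⁻¹) * v := by group
      _ = y * u * v := by rw [h4]
      _ = y * (u * v) := by group
  have hne1 : ∀ u v : G, u ≠ v → v * v = 1 → u * v ≠ 1 := by
    intro u v huv vv e
    apply huv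
    rw [eq_inv_of_mul_eq_one_left e]
    exact inv_eq_of_mul_eq_one_left vv
  have key : t = a * b ∨ t = a * c ∨ t = b * c := by
    by_contra hno
    push Not at hno
    obtain ⟨n1, n2, n3⟩ := hno
    set H₀ : Subgroup G := S ⊓ Subgroup.centralizer ({y} : Set G) with hH₀
    have hmemH : ∀ u, u ∈ S → u * y = y * u → u ∈ H₀ := fun u hu hc =>
      ⟨hu, Subgroup.mem_centralizer_singleton_iff.mpr hc⟩
    have h5 := five_le H₀ (a := 1) (b := t) (c := a * b) (d := a * c) (e := b * c)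
      H₀.one_mem (hmemH _ htS (hPt y hyP).symm) (hmemH _ (S.mul_mem haS hbS) (hprod a b ay by' aa bb))
      (hmemH _ (S.mul_mem haS hcS') (hprod a c ay cy aa cc))
      (hmemH _ (S.mul_mem hbS hcS') (hprod b c by' cy bb cc))
      t1.symm (hne1 a b hab bb).symm (hne1 a c hac cc).symm (hne1 b c hbc cc).symm n1 n2 n3
      (fun e => hbc (mul_left_cancel e))
      (fun e => hac (by
        rw [hcomm b hbS c hcS'] at e
        exact mul_right_cancel e))
      (fun e => hab (mul_right_cancel e))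
    have hdv : Nat.card H₀ ∣ 8 := by
      rw [← hcS]
      exact Subgroup.card_dvd_of_le inf_le_left
    have hle := Nat.le_of_dvd (by norm_num) hdv
    have h8 : Nat.card H₀ = 8 := by
      generalize Nat.card H₀ = m at *
      interval_cases m <;> first | rfl | omega
    have hHS : H₀ = S := Subgroup.eq_of_le_of_card_ge inf_le_left (by rw [h8, hcS])
    have ha' : a ∈ H₀ := hHS ▸ haS
    have hay : a * y = y * a := Subgroup.mem_centralizer_singleton_iff.mp ha'.2
    apply hat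
    rw [← hga]
    apply hU ga
    rw [hga]
    exact hay
  rcases key with h | h | h
  · exact final_clash hU hI a b c ga gb gc hga hgb hgc aa bb (hcomm a haS c hcS') (hcomm b hbS c hcS')
      hac hbc h hct.symm
  · exact final_clash hU hI a c b ga gc gb hga hgc hgb aa cc (hcomm a haS b hbS) (hcomm c hcS' b hbS)
      hab hbc.symm h hbt.symm
  · exact final_clash hU hI b c a gb gc ga hgb hgc hga bb cc (hcomm b hbS a haS) (hcomm c hcS' a haS)
      hab.symm hac.symm h hat.symm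

theorem not_1440_k36 (hNC : ¬ IsMulCommutative G) (hn : Nat.card G = 1440)
    (hk : Nat.card (Sylow 5 G) = 36) : False := by
  classical
  haveI : Fact (Nat.Prime 5) := ⟨by norm_num⟩
  obtain ⟨P⟩ : Nonempty (Sylow 5 G) := inferInstance
  have hcP : Nat.card (P : Subgroup G) = 5 := by
    simpa using card_sylow_eq hNC 1440 5 1 hn (by norm_num) (by norm_num) (by norm_num) P
  have hN : Nat.card (Subgroup.normalizer ((P : Subgroup G) : Set G)) = 40 := by
    have := card_norm_mul hNC 1440 5 1 hn (by norm_num) (by norm_num) (by norm_num) P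
    rw [hk] at this
    omega
  have hdv := card_norm_dvd (P : Subgroup G) hcP
  rw [hN] at hdv
  have h10 : 2 ∣ Nat.card (Subgroup.centralizer ((P : Subgroup G) : Set G)) := by
    obtain ⟨a, ha⟩ := hdv
    omega
  obtain ⟨t, htC, tt, t1⟩ := exists_invol _ h10
  obtain ⟨y, hyP, yy, y1⟩ := exists_elt (P : Subgroup G) 5 (by rw [hcP])
  have hPt : ∀ x ∈ (P : Subgroup G), x * t = t * x := fun x hx =>
    Subgroup.mem_centralizer_iff.mp htC x hx
  have hty : t * y = y * t := (hPt y hyP).symm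
  have hf := sylow_moves (p := 5) (G := G) (by rw [hk]; norm_num)
  have htP : t • P = P :=
    Sylow.smul_eq_iff_mem_normalizer.mpr (Subgroup.centralizer_le_normalizer _ htC)
  have hy_fix : ∀ x : Sylow 5 G, y • x = x → x = P := by
    intro x hx
    by_contra hne
    exact y1 (eq_one_of_prime_smul P x hne hcP hyP hx)
  obtain ⟨⟨s, hs⟩, hlt, -, -, hm1, hm2, hm3⟩ := fix_numeric hNC hf 5 t y tt t1 yy hty
  have e3 : Nat.card {x : Sylow 5 G // t • x = x ∧ y • x = x} = 1 := by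
    rw [Nat.card_eq_one_iff_unique]
    exact ⟨⟨fun a b => Subtype.ext ((hy_fix _ a.2.2).trans (hy_fix _ b.2.2).symm)⟩,
      ⟨⟨P, htP, smul_self_of_mem P hyP⟩⟩⟩
  rw [e3] at hm1
  rw [hk] at hs hlt
  have hu : Nat.card {x : Sylow 5 G // t • x = x} = 16 := by omega
  have hcount := count_conj t P
  rw [hu, hN] at hcount
  set N := Subgroup.normalizer ((P : Subgroup G) : Set G) with hNdef
  set Cx := Subgroup.centralizer ({t} : Set G) with hCx
  have hCmem : ∀ w : G, w ∈ Cx ↔ w * t = t * w := fun w => Subgroup.mem_centralizer_singleton_iff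
  have hPCx : (P : Subgroup G) ≤ Cx := fun x hx => (hCmem x).2 (hPt x hx)
  have htCx : t ∈ Cx := (hCmem t).2 rfl
  have htN : t ∈ N := Subgroup.centralizer_le_normalizer _ htC
  have hZ9 := card_invol_le N (P : Subgroup G) Subgroup.le_normalizer hcP t htN tt t1
    (fun x hx => (hPt x hx).symm) {z : G | z ∈ N ∧ ∃ g : G, g * t * g⁻¹ = z}
    (by
      rintro z ⟨hz, g, rfl⟩
      refine ⟨hz, ?_, ?_⟩
      · calc (g * t * g⁻¹) * (g * t * g⁻¹) = g * (t * t) * g⁻¹ := by group
          _ = 1 := by rw [tt]; group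
      · intro e
        apply t1
        have : t = g⁻¹ * (g * t * g⁻¹) * g := by group
        rw [this, e]
        group)
    ⟨htN, 1, by group⟩
  rw [hN] at hZ9
  have hZ9' : Nat.card {z : G // z ∈ N ∧ ∃ g : G, g * t * g⁻¹ = z} + 9 ≤ 40 := hZ9
  have h5C : 5 ∣ Nat.card Cx := by
    rw [← hcP]
    exact Subgroup.card_dvd_of_le hPCx
  have h2C : 2 ∣ Nat.card Cx := by
    have h1 := Subgroup.orderOf_dvd_natCard Cx htCx
    rwa [orderOf_eq_prime (by rw [pow_two, tt]) t1] at h1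
  have hd1440 : Nat.card Cx ∣ 1440 := by
    rw [← hn]
    exact Subgroup.card_subgroup_dvd_card Cx
  have hd640 : Nat.card Cx ∣ 640 := ⟨_, by
    rw [mul_comm]
    exact hcount.symm⟩
  have hd160 : Nat.card Cx ∣ 160 := by
    have := Nat.dvd_gcd hd640 hd1440
    norm_num at this
    exact this
  have hle := Nat.le_of_dvd (by norm_num) hd160
  have hcases : Nat.card Cx = 40 ∨ Nat.card Cx = 80 ∨ Nat.card Cx = 160 := by
    generalize Nat.card {z : G // z ∈ N ∧ ∃ g : G, g * t * g⁻¹ = z} = c at *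
    generalize Nat.card Cx = d at *
    clear hCx
    interval_cases d <;> omega
  have hyCx : y ∈ Cx := hPCx hyP
  rcases hcases with h40 | h80 | h160
  · have hall := cent_le_norm P hcP Cx t y htCx hyCx hyP y1 yy tt t1 htP (Or.inl h40)
    have hleN : Cx ≤ N := fun c hc => Sylow.smul_eq_iff_mem_normalizer.mp (hall c hc)
    have hEq : Cx = N := Subgroup.eq_of_le_of_card_ge hleN (by rw [h40, hN])
    have hZ16 : Nat.card {z : G // z ∈ N ∧ ∃ g : G, g * t * g⁻¹ = z} = 16 := by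
      rw [h40] at hcount
      omega
    exact main_1440 P hcP t y tt t1 hyP y1 yy hPt hEq hN hZ16
  · have hall := cent_le_norm P hcP Cx t y htCx hyCx hyP y1 yy tt t1 htP (Or.inr h80)
    have hleN : Cx ≤ N := fun c hc => Sylow.smul_eq_iff_mem_normalizer.mp (hall c hc)
    have := Subgroup.card_dvd_of_le hleN
    rw [h80, hN] at this
    norm_num at this
  · have hne : Cx ≠ ⊤ := by
      intro e
      rw [e, Subgroup.card_top, hn] at h160
      norm_num at h160
    have hf' := coset_moves Cx hne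
    obtain ⟨⟨s', hs'⟩, hlt', hr1, hr2, hm1', hm2', hm3'⟩ := fix_numeric hNC hf' 5 t y tt t1 yy hty
    have hcX : Nat.card (G ⧸ Cx) = 9 := by
      have := Subgroup.index_mul_card Cx
      rw [h160, hn] at this
      have h9 : Cx.index = 9 := by omega
      exact h9
    have hfix1 : ∀ c ∈ Cx, c • ((1 : G) : G ⧸ Cx) = ((1 : G) : G ⧸ Cx) := by
      intro c hc
      rw [MulAction.Quotient.smul_coe, smul_eq_mul, mul_one, QuotientGroup.eq]
      simpa using hc
    have hrpos : 0 < Nat.card {x : G ⧸ Cx // t • x = x ∧ y • x = x} := by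
      haveI : Nonempty {x : G ⧸ Cx // t • x = x ∧ y • x = x} :=
        ⟨⟨((1 : G) : G ⧸ Cx), hfix1 t htCx, hfix1 y hyCx⟩⟩
      exact Nat.card_pos
    have hflt := fix_lt hf' y y1
    rw [hcX] at hs' hlt' hm2' hflt
    omega

theorem not_1440 (hNC : ¬ IsMulCommutative G) (hn : Nat.card G = 1440) : False := by
  have hk5 : Nat.card (Sylow 5 G) = 16 ∨ Nat.card (Sylow 5 G) = 36 := by
    obtain ⟨h1, h2⟩ := kok_sylow hNC 1440 5 1 hn (by norm_num) (by norm_num) (by norm_num) (by norm_num)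
    have hd : ∀ k ∈ Nat.divisors (1440 / 5 ^ 1), KOK 1440 5 1 k → k = 16 ∨ k = 36 := by decide +kernel
    exact hd _ h1 h2
  rcases hk5 with h | h
  · exact not_1440_k16 hNC hn h
  · exact not_1440_k36 hNC hn h

end Cfsg.Agent.H09.Ord
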