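import Cfsg.Agent.Lib.H09.Ord1

/-!
Fixed point combinatorics, Sylow intersections, the `n_p = p + 1` case.
-/

set_option autoImplicit false

namespace Cfsg.Agent.H09.Ord

open Cfsg

section fixpts

variable {G : Type*} [Group G] {X : Type*} [Finite X] [MulAction G X]

/-- Fixed points of `t` under a commuting element `y` with `y ^ p = 1`. -/
theorem card_fix_modEq (p : ℕ) [Fact p.Prime] (t y : G) (hty : t * y = y * t) (hy : y ^ p = 1) :
    Nat.card {x : X // t • x = x} ≡ Nat.card {x : X // t • x = x ∧ y • x = x} [MOD p] := by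
  classical
  let Y := {x : X // t • x = x}
  have hmem : ∀ x : Y, t • (y • x.1) = y • x.1 := fun x => by
    rw [← mul_smul, hty, mul_smul, x.2]
  let f : Function.End Y := fun x => ⟨y • x.1, hmem x⟩
  have hpow : ∀ n : ℕ, ∀ x : Y, ((f ^ n : Function.End Y) x : Y).1 = y ^ n • x.1 := by
    intro n
    induction n with
    | zero => intro x; simp only [pow_zero, one_smul]; rfl
    | succ n ih =>
      intro x
      rw [pow_succ' f, pow_succ' y, mul_smul, ← ih]
      rfl
  have hf : f ^ p ^ 1 = 1 := by
    funext x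
    apply Subtype.ext
    rw [pow_one, hpow, hy, one_smul]
    rfl
  haveI : Fintype Y := Fintype.ofFinite _
  haveI : Fintype (Function.fixedPoints f) := Fintype.ofFinite _
  have h1 := Equiv.Perm.card_fixedPoints_modEq (α := Y) (f := f) (p := p) (n := 1) hf
  have h2 : Nat.card (Function.fixedPoints f) = Nat.card {x : X // t • x = x ∧ y • x = x} := by
    apply Nat.card_congr
    refine ⟨fun x => ⟨x.1.1, x.1.2, congrArg Subtype.val x.2⟩,
      fun x => ⟨⟨x.1, x.2.1⟩, Subtype.ext x.2.2⟩, fun x => rfl, fun x => rfl⟩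
  rw [← h2]
  have h3 : Nat.card {x : X // t • x = x} = Fintype.card Y := Nat.card_eq_fintype_card
  have h4 : Nat.card (Function.fixedPoints f) = Fintype.card (Function.fixedPoints f) :=
    Nat.card_eq_fintype_card
  rw [h3, h4]
  convert h1

/-- Fixed points of `y` with `y ^ p = 1`. -/
theorem card_modEq_fix (p : ℕ) [Fact p.Prime] (y : G) (hy : y ^ p = 1) :
    Nat.card X ≡ Nat.card {x : X // y • x = x} [MOD p] := by
  have h := card_fix_modEq (X := X) p (1 : G) y (by simp) hy
  have h1 : Nat.card {x : X // (1 : G) • x = x} = Nat.card X :=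
    Nat.card_congr ⟨fun x => x.1, fun x => ⟨x, one_smul _ _⟩, fun x => rfl, fun x => rfl⟩
  have h2 : Nat.card {x : X // (1 : G) • x = x ∧ y • x = x} = Nat.card {x : X // y • x = x} :=
    Nat.card_congr ⟨fun x => ⟨x.1, x.2.2⟩, fun x => ⟨x.1, one_smul _ _, x.2⟩, fun x => rfl, fun x => rfl⟩
  rw [h1, h2] at h
  exact h

end fixpts

section sign

variable {G : Type*} [Group G] {X : Type*} [Fintype X] [DecidableEq X] [MulAction G X]

/-- An involution acting as an even permutation moves a multiple of four points. -/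
theorem four_dvd_moved (t : G) (ht : t * t = 1)
    (hs : Equiv.Perm.sign (MulAction.toPermHom G X t) = 1) :
    ∃ s, Nat.card {x : X // t • x = x} + 4 * s = Nat.card X := by
  classical
  set σ := MulAction.toPermHom G X t with hσ
  have hfix : Nat.card {x : X // t • x = x} + σ.support.card = Nat.card X := by
    have h1 : Nat.card {x : X // t • x = x} = (σ.supportᶜ).card := by
      rw [Nat.card_eq_fintype_card, Fintype.card_subtype]
      congr 1
      ext x
      simp [σ, Equiv.Perm.mem_support]
    rw [h1, Finset.card_compl, Nat.card_eq_fintype_card]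
    have := Finset.card_le_univ σ.support
    omega
  by_cases h1 : σ = 1
  · refine ⟨0, ?_⟩
    rw [← hfix, h1]
    simp
  · have hσ2 : σ ^ 2 = 1 := by
      rw [hσ, ← map_pow, pow_two, ht, map_one]
    have ho : orderOf σ = 2 := orderOf_eq_prime hσ2 h1
    obtain ⟨n, hn⟩ := Equiv.Perm.cycleType_prime_order (σ := σ) (by rw [ho]; exact Nat.prime_two)
    rw [ho] at hn
    have hsum : σ.support.card = (n + 1) * 2 := by
      rw [← Equiv.Perm.sum_cycleType, hn]
      simp
      ring
    have hsg : Equiv.Perm.sign σ = (-1 : ℤˣ) ^ (n + 1) := by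
      rw [Equiv.Perm.sign_of_cycleType, hn]
      simp only [Multiset.sum_replicate, Multiset.card_replicate, smul_eq_mul]
      rw [pow_add, pow_mul]
      simp
    rw [hs] at hsg
    have hev : Even (n + 1) := by
      by_contra hodd
      rw [Nat.not_even_iff_odd] at hodd
      rw [hodd.neg_one_pow] at hsg
      exact absurd hsg (by decide)
    obtain ⟨m, hm⟩ := hev
    refine ⟨m, ?_⟩
    rw [← hfix, hsum, hm]
    ring

end sign

section sylow

variable {G : Type*} [Group G] [Finite G] {p : ℕ} [Fact p.Prime]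

theorem mem_of_smul_eq (P Q : Sylow p G) {c : G} (hc : c ∈ (P : Subgroup G)) (h : c • Q = Q) :
    c ∈ (Q : Subgroup G) := by
  have h1 : c ∈ Subgroup.normalizer ((Q : Subgroup G) : Set G) := Sylow.smul_eq_iff_mem_normalizer.mp h
  have h2 : c ∈ (P : Subgroup G) ⊓ Subgroup.normalizer ((Q : Subgroup G) : Set G) := ⟨hc, h1⟩
  have h3 := P.isPGroup'.inf_normalizer_sylow Q
  have h4 : c ∈ (P : Subgroup G) ⊓ (Q : Subgroup G) := by
    rw [← h3]
    exact h2
  exact h4.2

/-- A Sylow subgroup is fixed by itself. -/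
theorem smul_self_of_mem (P : Sylow p G) {c : G} (hc : c ∈ (P : Subgroup G)) : c • P = P := by
  apply Sylow.smul_eq_iff_mem_normalizer.mpr
  exact Subgroup.le_normalizer hc

/-- For `Q ≠ P`, with `P` of prime order, the elements of `P` act freely on `Q`. -/
theorem eq_one_of_prime_smul (P Q : Sylow p G) (hPQ : Q ≠ P) (hP : Nat.card (P : Subgroup G) = p)
    {c : G} (hc : c ∈ (P : Subgroup G)) (h : c • Q = Q) : c = 1 := by
  have h1 := mem_of_smul_eq P Q hc h
  by_contra hne
  apply hPQ
  have h2 : Subgroup.zpowers c = (P : Subgroup G) := by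
    have h3 : Subgroup.zpowers c ≤ (P : Subgroup G) := Subgroup.zpowers_le.mpr hc
    apply Subgroup.eq_of_le_of_card_ge h3
    rw [hP]
    have h4 : orderOf c ∣ p := by
      rw [← hP]
      exact Subgroup.orderOf_dvd_natCard _ hc
    have h5 : orderOf c ≠ 1 := fun h => hne (orderOf_eq_one_iff.mp h)
    rw [Nat.card_zpowers]
    rcases (Nat.dvd_prime (Fact.out)).mp h4 with h6 | h6
    · exact absurd h6 h5
    · exact h6.ge
  have h3 : (P : Subgroup G) ≤ Q := by
    rw [← h2]
    exact Subgroup.zpowers_le.mpr h1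
  apply Sylow.ext
  symm
  apply Subgroup.eq_of_le_of_card_ge h3
  rw [Sylow.card_eq_multiplicity, Sylow.card_eq_multiplicity]

end sylow

end Cfsg.Agent.H09.Ord
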