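import Cfsg.Agent.Lib.H09.Ord2

/-!
Large Sylow intersections; the case `n_p = p + 1`.
-/

set_option autoImplicit false

namespace Cfsg.Agent.H09.Ord

open Cfsg

theorem card_ne_add_one {α : Type*} [Finite α] (a : α) :
    Nat.card {x : α // x ≠ a} + 1 = Nat.card α := by
  classical
  haveI := Fintype.ofFinite α
  rw [Nat.card_eq_fintype_card, Nat.card_eq_fintype_card, Fintype.card_subtype_compl,
    Fintype.card_subtype_eq]
  have : 0 < Fintype.card α := Fintype.card_pos_iff.mpr ⟨a⟩
  omega

section sylow

variable {G : Type*} [Group G] [Finite G] {p : ℕ} [Fact p.Prime]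

theorem card_stab_eq (P Q : Sylow p G) :
    Nat.card (MulAction.stabilizer (P : Subgroup G) Q) =
      Nat.card ((P : Subgroup G) ⊓ (Q : Subgroup G) : Subgroup G) := by
  apply Nat.card_congr
  refine ⟨fun g => ⟨g.1.1, ⟨g.1.2, mem_of_smul_eq P Q g.1.2 g.2⟩⟩,
    fun h => ⟨⟨h.1, h.2.1⟩, ?_⟩, fun g => rfl, fun h => rfl⟩
  rw [MulAction.mem_stabilizer_iff]
  show h.1 • Q = Q
  exact smul_self_of_mem Q h.2.2

/-- If the number of Sylow subgroups is not `1` mod `p^2`, two Sylow subgroups meet in index `p`. -/
theorem exists_index_p (P : Sylow p G) (hk : Nat.card (Sylow p G) % p ^ 2 ≠ 1) :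
    ∃ Q : Sylow p G, Q ≠ P ∧
      Nat.card ((P : Subgroup G) ⊓ (Q : Subgroup G) : Subgroup G) * p = Nat.card (P : Subgroup G) := by
  classical
  by_contra hcon
  push Not at hcon
  have hpp : (p : ℕ).Prime := Fact.out
  let S : SubMulAction (P : Subgroup G) (Sylow p G) :=
    { carrier := {Q | Q ≠ P}
      smul_mem' := by
        intro c Q hQ h
        apply hQ
        have h1 : (c : G) • Q = P := h
        have h2 : (c : G) • P = P := smul_self_of_mem P c.2
        exact MulAction.injective (c : G) (h1.trans h2.symm) }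
  haveI : Fintype (Sylow p G) := Fintype.ofFinite _
  haveI : Fintype S := Fintype.ofFinite _
  have hcardS : Nat.card S + 1 = Nat.card (Sylow p G) := by
    exact card_ne_add_one P
  have hdvd : p ^ 2 ∣ Nat.card S := by
    haveI : Fintype (MulAction.orbitRel.Quotient (P : Subgroup G) S) := Fintype.ofFinite _
    haveI : Fintype (P : Subgroup G) := Fintype.ofFinite _
    rw [Nat.card_eq_fintype_card, Fintype.card_congr (MulAction.selfEquivSigmaOrbits (P : Subgroup G) S),
      Fintype.card_sigma]
    apply Finset.dvd_sum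
    intro ω _
    set x : S := ω.out with hx
    have h1 : Nat.card (MulAction.orbit (P : Subgroup G) x) * Nat.card (MulAction.stabilizer (P : Subgroup G) x)
        = Nat.card (P : Subgroup G) := by
      haveI : Fintype (MulAction.stabilizer (P : Subgroup G) x) := Fintype.ofFinite _
      haveI : Fintype (MulAction.orbit (P : Subgroup G) x) := Fintype.ofFinite _
      rw [Nat.card_eq_fintype_card, Nat.card_eq_fintype_card, Nat.card_eq_fintype_card]
      convert MulAction.card_orbit_mul_card_stabilizer_eq_card_group (P : Subgroup G) x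
    have hst : Nat.card (MulAction.stabilizer (P : Subgroup G) x) =
        Nat.card ((P : Subgroup G) ⊓ ((x : Sylow p G) : Subgroup G) : Subgroup G) := by
      rw [← card_stab_eq P (x : Sylow p G)]
      apply Nat.card_congr
      refine ⟨fun g => ⟨g.1, ?_⟩, fun g => ⟨g.1, ?_⟩, fun g => rfl, fun g => rfl⟩
      · have := g.2
        rw [MulAction.mem_stabilizer_iff] at this ⊢
        exact congrArg Subtype.val this
      · have := g.2
        rw [MulAction.mem_stabilizer_iff] at this ⊢
        exact Subtype.ext this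
    obtain ⟨a, ha⟩ := IsPGroup.iff_card.mp P.isPGroup'
    set s := Nat.card ((P : Subgroup G) ⊓ ((x : Sylow p G) : Subgroup G) : Subgroup G) with hs
    have hsd : s ∣ p ^ a := by
      rw [← ha]
      exact Subgroup.card_dvd_of_le inf_le_left
    obtain ⟨c, hc, hsc⟩ := (Nat.dvd_prime_pow hpp).mp hsd
    have h2 : Nat.card (MulAction.orbit (P : Subgroup G) x) * s = p ^ a := by
      rw [← ha, ← h1, hst]
    have hxne : (x : Sylow p G) ≠ P := x.2
    have hne1 : s * p ≠ p ^ a := by
      rw [← ha]
      exact hcon _ hxne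
    have hne2 : c ≠ a := by
      rintro rfl
      apply hxne
      have h3 : (P : Subgroup G) ⊓ ((x : Sylow p G) : Subgroup G) = (P : Subgroup G) := by
        apply Subgroup.eq_of_le_of_card_ge inf_le_left
        rw [ha, ← hs, hsc]
      have h4 : (P : Subgroup G) ≤ ((x : Sylow p G) : Subgroup G) := inf_eq_left.mp h3
      apply Sylow.ext
      symm
      apply Subgroup.eq_of_le_of_card_ge h4
      rw [Sylow.card_eq_multiplicity, Sylow.card_eq_multiplicity]
    have hne3 : c + 1 ≠ a := by
      rintro rfl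
      apply hne1
      rw [hsc, pow_succ]
    have hle : c + 2 ≤ a := by omega
    have h5 : Nat.card (MulAction.orbit (P : Subgroup G) x) = p ^ (a - c) := by
      have h6 : p ^ a = p ^ (a - c) * p ^ c := by
        rw [← pow_add]; congr 1; omega
      rw [hsc, h6] at h2
      exact Nat.eq_of_mul_eq_mul_right (pow_pos hpp.pos c) h2
    have h7 : p ^ 2 ∣ Nat.card (MulAction.orbit (P : Subgroup G) x) := by
      rw [h5]
      exact pow_dvd_pow p (by omega)
    rw [Nat.card_eq_fintype_card] at h7
    convert h7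
  apply hk
  rw [← hcardS]
  obtain ⟨m, hm⟩ := hdvd
  rw [hm]
  have h2 : 1 < p ^ 2 := by
    have := hpp.two_le
    nlinarith
  rw [Nat.add_mod, Nat.mul_mod_right, zero_add, Nat.mod_mod, Nat.mod_eq_of_lt h2]

end sylow

section big

variable {G : Type*} [Group G] [Finite G] [IsSimpleGroup G] {p : ℕ} [Fact p.Prime]

/-- The normalizer of a large Sylow intersection. -/
theorem big_normalizer (P Q : Sylow p G) (hQ : Q ≠ P)
    (hD : Nat.card ((P : Subgroup G) ⊓ (Q : Subgroup G) : Subgroup G) * p = Nat.card (P : Subgroup G))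
    (hne : Nat.card ((P : Subgroup G) ⊓ (Q : Subgroup G) : Subgroup G) ≠ 1) :
    let D : Subgroup G := (P : Subgroup G) ⊓ (Q : Subgroup G)
    Subgroup.normalizer (D : Set G) ≠ ⊤ ∧ (P : Subgroup G) ≤ Subgroup.normalizer (D : Set G) ∧
      (Q : Subgroup G) ≤ Subgroup.normalizer (D : Set G) := by
  intro D
  have hpp : (p : ℕ).Prime := Fact.out
  have key : ∀ R : Sylow p G, D ≤ (R : Subgroup G) → (R : Subgroup G) ≤ Subgroup.normalizer (D : Set G) := by
    intro R hR
    have hcardR : Nat.card (R : Subgroup G) = Nat.card (P : Subgroup G) := by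
      rw [Sylow.card_eq_multiplicity, Sylow.card_eq_multiplicity]
    rw [← Subgroup.normal_subgroupOf_iff_le_normalizer hR]
    obtain ⟨a, ha⟩ := IsPGroup.iff_card.mp R.isPGroup'
    have hidx : (D.subgroupOf (R : Subgroup G)).index = p := by
      have h1 := Subgroup.card_mul_index (D.subgroupOf (R : Subgroup G))
      have h2 : Nat.card (D.subgroupOf (R : Subgroup G)) = Nat.card D :=
        Nat.card_congr (Subgroup.subgroupOfEquivOfLe hR).toEquiv
      rw [h2, hcardR, ← hD] at h1
      have hpos : 0 < Nat.card D := Nat.card_pos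
      exact (Nat.eq_of_mul_eq_mul_left hpos h1)
    apply Subgroup.normal_of_index_eq_minFac_card
    rw [hidx, ha]
    have hane : a ≠ 0 := by
      rintro rfl
      have h0 : Nat.card (R : Subgroup G) = 1 := by rw [ha, pow_zero]
      rw [hcardR] at h0
      have : p ∣ 1 := by rw [← h0, ← hD]; exact Dvd.intro_left _ rfl
      exact hpp.one_lt.ne' (Nat.dvd_one.mp this)
    exact (Nat.Prime.pow_minFac hpp hane).symm
  refine ⟨?_, key P inf_le_left, key Q inf_le_right⟩
  intro htop
  have hnorm : D.Normal := Subgroup.normalizer_eq_top_iff.mp htop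
  rcases hnorm.eq_bot_or_eq_top with h | h
  · apply hne
    show Nat.card D = 1
    rw [h, Subgroup.card_bot]
  · have h1 : (P : Subgroup G) = ⊤ := eq_top_iff.mpr (h ▸ inf_le_left)
    have h2 : (Q : Subgroup G) = ⊤ := eq_top_iff.mpr (h ▸ inf_le_right)
    exact hQ (Sylow.ext (h2.trans h1.symm))

/-- Numerical consequence of two Sylow subgroups inside a proper subgroup. -/
theorem two_sylow_numeric (H : Subgroup G) (P Q : Sylow p G) (hQ : Q ≠ P)
    (hP : (P : Subgroup G) ≤ H) (hQH : (Q : Subgroup G) ≤ H) :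
    ∃ j d, Nat.card H = Nat.card (P : Subgroup G) * j ∧ 1 < d ∧ d % p = 1 ∧ d ∣ j := by
  have hpp : (p : ℕ).Prime := Fact.out
  let P' : Sylow p H := P.subtype hP
  let Q' : Sylow p H := Q.subtype hQH
  have hne : P' ≠ Q' := by
    intro h
    apply hQ
    exact (Sylow.subtype_injective h).symm
  have hd1 : 1 < Nat.card (Sylow p H) := by
    have hnt : Nontrivial (Sylow p H) := ⟨⟨P', Q', hne⟩⟩
    exact Finite.one_lt_card
  have hmod : Nat.card (Sylow p H) % p = 1 := by
    have h3 : Nat.card (Sylow p H) ≡ 1 [MOD p] := card_sylow_modEq_one p H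
    rw [Nat.ModEq, Nat.mod_eq_of_lt hpp.one_lt] at h3
    exact h3
  have hcardP' : Nat.card (P' : Subgroup H) = Nat.card (P : Subgroup G) := by
    have h1 : Nat.card (P' : Subgroup H) = Nat.card ((P : Subgroup G).subgroupOf H) := rfl
    rw [h1]
    exact Nat.card_congr (Subgroup.subgroupOfEquivOfLe hP).toEquiv
  refine ⟨(P' : Subgroup H).index, Nat.card (Sylow p H), ?_, hd1, hmod, P'.card_dvd_index⟩
  rw [← hcardP', Subgroup.card_mul_index]

end big

section pplus

variable {G : Type*} [Group G] [Finite G] [IsSimpleGroup G] {p : ℕ} [Fact p.Prime]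

/-- When there are `p + 1` Sylow subgroups of order `p`, the group `P` acts transitively on the others. -/
theorem trans_of_pplus (P : Sylow p G) (hP : Nat.card (P : Subgroup G) = p)
    (hk : Nat.card (Sylow p G) = p + 1) (Q Q' : Sylow p G) (hQ : Q ≠ P) (hQ' : Q' ≠ P) :
    ∃ c : G, c ∈ (P : Subgroup G) ∧ c • Q = Q' := by
  classical
  have hpp : (p : ℕ).Prime := Fact.out
  haveI : Fintype (Sylow p G) := Fintype.ofFinite _
  -- orbit of `Q` under `P` has `p` elements, none equal to `P`
  let f : ↥(P : Subgroup G) → {R : Sylow p G // R ≠ P} := fun c => ⟨(c : G) • Q, fun h => hQ (by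
    have h2 : (c : G) • P = P := smul_self_of_mem P c.2
    exact MulAction.injective (c : G) (h.trans h2.symm))⟩
  have hfinj : Function.Injective f := by
    intro a b hab
    have h1 : (a : G) • Q = (b : G) • Q := congrArg Subtype.val hab
    have h2 : ((b : G)⁻¹ * (a : G)) • Q = Q := by rw [mul_smul, h1, inv_smul_smul]
    have h3 := eq_one_of_prime_smul P Q hQ hP (Subgroup.mul_mem _ (Subgroup.inv_mem _ b.2) a.2) h2
    apply Subtype.ext
    exact (inv_mul_eq_one.mp h3).symm
  have hcard : Nat.card {R : Sylow p G // R ≠ P} = p := by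
    have := card_ne_add_one P
    omega
  have hfsurj : Function.Surjective f := by
    haveI : Fintype (P : Subgroup G) := Fintype.ofFinite _
    haveI : Fintype {R : Sylow p G // R ≠ P} := Fintype.ofFinite _
    apply (Fintype.bijective_iff_injective_and_card f).mpr ⟨hfinj, ?_⟩ |>.2
    rw [← Nat.card_eq_fintype_card, ← Nat.card_eq_fintype_card, hP, hcard]
  obtain ⟨c, hc⟩ := hfsurj ⟨Q', hQ'⟩
  exact ⟨c.1, c.2, congrArg Subtype.val hc⟩

theorem cent_le_of_pplus (hNC : ¬ IsMulCommutative G) (P : Sylow p G)
    (hP : Nat.card (P : Subgroup G) = p)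
    (hk : Nat.card (Sylow p G) = p + 1) :
    Subgroup.centralizer ((P : Subgroup G) : Set G) ≤ (P : Subgroup G) := by
  classical
  have hpp : (p : ℕ).Prime := Fact.out
  have hex : ∃ Q : Sylow p G, Q ≠ P := by
    have : Nontrivial (Sylow p G) := by
      apply Finite.one_lt_card_iff_nontrivial.mp
      rw [hk]
      have := hpp.pos
      omega
    exact exists_ne P
  obtain ⟨Q, hQ⟩ := hex
  intro x hx
  have hxP : x • P = P := Sylow.smul_eq_iff_mem_normalizer.mpr (Subgroup.centralizer_le_normalizer _ hx)
  have hxQ : x • Q ≠ P := by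
    intro h
    exact hQ (MulAction.injective x (h.trans hxP.symm))
  obtain ⟨c, hc, hcQ⟩ := trans_of_pplus P hP hk Q (x • Q) hQ hxQ
  have hw : c⁻¹ * x ∈ Subgroup.centralizer ((P : Subgroup G) : Set G) := by
    apply Subgroup.mul_mem _ _ hx
    apply Subgroup.inv_mem
    rw [Subgroup.mem_centralizer_iff]
    intro y hy
    haveI : IsCyclic (P : Subgroup G) := isCyclic_of_prime_card hP
    letI : CommGroup (P : Subgroup G) := IsCyclic.commGroup
    have := mul_comm (⟨y, hy⟩ : (P : Subgroup G)) ⟨c, hc⟩
    exact congrArg Subtype.val this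
  have hwQ : (c⁻¹ * x) • Q = Q := by rw [mul_smul, ← hcQ, inv_smul_smul]
  have htriv : ∀ R : Sylow p G, (c⁻¹ * x) • R = R := by
    intro R
    by_cases hR : R = P
    · subst hR
      rw [mul_smul, hxP]
      exact (smul_eq_iff_eq_inv_smul c).mp (smul_self_of_mem R hc) |>.symm
    · obtain ⟨d, hd, hdQ⟩ := trans_of_pplus P hP hk Q R hQ hR
      rw [← hdQ, ← mul_smul]
      have hcomm : (c⁻¹ * x) * d = d * (c⁻¹ * x) := (Subgroup.mem_centralizer_iff.mp hw d hd).symm
      rw [hcomm, mul_smul, hwQ]
  have hw1 : c⁻¹ * x = 1 := by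
    by_contra hne
    have hinj := ker_act (G := G) (X := Sylow p G) Q (by
      -- the action is nontrivial
      by_contra hcon
      push Not at hcon
      obtain ⟨g, hg⟩ := MulAction.exists_smul_eq G Q P
      exact hQ ((hcon g).symm.trans hg))
    apply hne
    apply hinj
    rw [map_one]
    apply Equiv.ext
    intro R
    exact htriv R
  have : x = c := by
    have := (inv_mul_eq_one.mp hw1)
    exact this.symm
  rw [this]
  exact hc

end pplus

end Cfsg.Agent.H09.Ord
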