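import Cfsg.Agent.Lib.H09.Ord3

/-!
Numerical constraints on Sylow numbers.
-/

set_option autoImplicit false

namespace Cfsg.Agent.H09.Ord

open Cfsg

section
variable {G : Type*} [Group G] [Finite G] [IsSimpleGroup G]

/-- Numerics for two commuting elements acting on a finite set. -/
theorem fix_numeric (hNC : ¬ IsMulCommutative G) {X : Type*} [Finite X] [MulAction G X]
    (hf : ∃ (g : G) (x : X), g • x ≠ x) (p : ℕ) [Fact p.Prime] (t y : G) (tt : t * t = 1)
    (t1 : t ≠ 1) (yy : y ^ p = 1) (c : t * y = y * t) :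
    (∃ s, Nat.card {x : X // t • x = x} + 4 * s = Nat.card X) ∧
    Nat.card {x : X // t • x = x} < Nat.card X ∧
    Nat.card {x : X // t • x = x ∧ y • x = x} ≤ Nat.card {x : X // t • x = x} ∧
    Nat.card {x : X // t • x = x ∧ y • x = x} ≤ Nat.card {x : X // y • x = x} ∧
    Nat.card {x : X // t • x = x} % p = Nat.card {x : X // t • x = x ∧ y • x = x} % p ∧
    Nat.card X % p = Nat.card {x : X // y • x = x} % p ∧
    Nat.card {x : X // y • x = x} % 2 = Nat.card {x : X // t • x = x ∧ y • x = x} % 2 := by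
  classical
  haveI := Fintype.ofFinite X
  have hinj : Function.Injective (MulAction.toPermHom G X) := by
    obtain ⟨g, x, hg⟩ := hf
    exact ker_act x ⟨g, hg⟩
  refine ⟨four_dvd_moved t tt (sign_act hNC t), ?_, ?_, ?_, ?_, ?_, ?_⟩
  · have hex : ∃ x : X, t • x ≠ x := by
      by_contra hcon
      push Not at hcon
      apply t1
      apply hinj
      rw [map_one]
      ext x
      simpa using hcon x
    obtain ⟨x, hx⟩ := hex
    rw [Nat.card_eq_fintype_card, Nat.card_eq_fintype_card]
    exact Fintype.card_subtype_lt hx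
  · exact Nat.card_le_card_of_injective
      (fun x => (⟨x.1, x.2.1⟩ : {x : X // t • x = x}))
      (fun a b h => Subtype.ext (congrArg (fun z : {x : X // t • x = x} => z.1) h))
  · exact Nat.card_le_card_of_injective
      (fun x => (⟨x.1, x.2.2⟩ : {x : X // y • x = x}))
      (fun a b h => Subtype.ext (congrArg (fun z : {x : X // y • x = x} => z.1) h))
  · exact card_fix_modEq p t y c yy
  · exact card_modEq_fix p y yy
  · have h2 : Fact (Nat.Prime 2) := ⟨Nat.prime_two⟩
    have h := card_fix_modEq (X := X) 2 y t c.symm (by rw [pow_two, tt])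
    have e : Nat.card {x : X // y • x = x ∧ t • x = x} = Nat.card {x : X // t • x = x ∧ y • x = x} :=
      Nat.card_congr (Equiv.subtypeEquivRight (fun x => and_comm))
    rw [e] at h
    exact h

/-- A non-identity element acts nontrivially. -/
theorem fix_lt {X : Type*} [Finite X] [MulAction G X]
    (hf : ∃ (g : G) (x : X), g • x ≠ x) (t : G) (t1 : t ≠ 1) :
    Nat.card {x : X // t • x = x} < Nat.card X := by
  classical
  haveI := Fintype.ofFinite X
  have hinj : Function.Injective (MulAction.toPermHom G X) := by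
    obtain ⟨g, x, hg⟩ := hf
    exact ker_act x ⟨g, hg⟩
  have hex : ∃ x : X, t • x ≠ x := by
    by_contra hcon
    push Not at hcon
    apply t1
    apply hinj
    rw [map_one]
    ext x
    simpa using hcon x
  obtain ⟨x, hx⟩ := hex
  rw [Nat.card_eq_fintype_card, Nat.card_eq_fintype_card]
  exact Fintype.card_subtype_lt hx

theorem zpowers_eq_of_prime_card {p : ℕ} [Fact p.Prime] (P : Subgroup G) (hP : Nat.card P = p)
    {c : G} (hc : c ∈ P) (hne : c ≠ 1) : Subgroup.zpowers c = P := by
  have h3 : Subgroup.zpowers c ≤ P := Subgroup.zpowers_le.mpr hc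
  apply Subgroup.eq_of_le_of_card_ge h3
  rw [hP]
  have h4 : orderOf c ∣ p := by
    rw [← hP]
    exact Subgroup.orderOf_dvd_natCard _ hc
  have h5 : orderOf c ≠ 1 := fun h => hne (orderOf_eq_one_iff.mp h)
  rw [Nat.card_zpowers]
  rcases (Nat.dvd_prime (Fact.out)).mp h4 with h6 | h6
  · exact absurd h6 h5
  · exact h6.ge

/-- An involution fixing three Sylow subgroups when there are `p + 1` of them. -/
theorem pplus_invol (hNC : ¬ IsMulCommutative G) {p : ℕ} [Fact p.Prime] (P : Sylow p G)
    (hP : Nat.card (P : Subgroup G) = p) (hk : Nat.card (Sylow p G) = p + 1) (hodd : p ≠ 2)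
    (t : G) (tt : t * t = 1) (t1 : t ≠ 1) (fP : t • P = P) (Q1 Q2 : Sylow p G) (h1 : Q1 ≠ P)
    (h2 : Q2 ≠ P) (h12 : Q1 ≠ Q2) (f1 : t • Q1 = Q1) (f2 : t • Q2 = Q2) : False := by
  have hpp : p.Prime := Fact.out
  obtain ⟨c, hc, hcQ⟩ := trans_of_pplus P hP hk Q1 Q2 h1 h2
  have hc1 : c ≠ 1 := by
    rintro rfl
    exact h12 (by simpa using hcQ)
  have htN : t ∈ Subgroup.normalizer ((P : Subgroup G) : Set G) :=
    Sylow.smul_eq_iff_mem_normalizer.mp fP
  have htinv : t⁻¹ = t := inv_eq_of_mul_eq_one_left tt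
  have hw : c⁻¹ * (t * c * t⁻¹) ∈ (P : Subgroup G) :=
    Subgroup.mul_mem _ (Subgroup.inv_mem _ hc) ((Subgroup.mem_normalizer_iff.mp htN c).mp hc)
  have hwQ : (c⁻¹ * (t * c * t⁻¹)) • Q1 = Q1 := by
    have h3 : t⁻¹ • Q1 = Q1 := by rw [htinv, f1]
    rw [mul_smul, mul_smul, mul_smul, h3, hcQ, f2, ← hcQ, inv_smul_smul]
  have h3 := eq_one_of_prime_smul P Q1 h1 hP hw hwQ
  have h4 : t * c * t⁻¹ = c := by
    have := inv_mul_eq_one.mp h3
    exact this.symm
  have hPz := zpowers_eq_of_prime_card (P : Subgroup G) hP hc hc1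
  have h5 : t ∈ Subgroup.centralizer ((P : Subgroup G) : Set G) := by
    rw [Subgroup.mem_centralizer_iff]
    intro x hx
    have hx' : x ∈ Subgroup.zpowers c := by rw [hPz]; exact hx
    obtain ⟨k, rfl⟩ := hx'
    have h6 : Commute c t := by
      show c * t = t * c
      have : t * c = c * t := by
        calc t * c = t * c * t⁻¹ * t := by group
          _ = c * t := by rw [h4]
      exact this.symm
    exact (h6.zpow_left k).eq
  have h6 := cent_le_of_pplus hNC P hP hk h5
  have h7 : orderOf t ∣ p := by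
    rw [← hP]
    exact Subgroup.orderOf_dvd_natCard _ h6
  have h8 : orderOf t ∣ 2 := orderOf_dvd_of_pow_eq_one (by rw [pow_two, tt])
  have h9 : orderOf t ≠ 1 := fun h => t1 (orderOf_eq_one_iff.mp h)
  rcases (Nat.dvd_prime hpp).mp h7 with h10 | h10
  · exact h9 h10
  · rcases (Nat.dvd_prime Nat.prime_two).mp h8 with h11 | h11
    · exact h9 h11
    · exact hodd (h10.symm.trans h11)

theorem exists_two_others {α : Type*} [Finite α] (s : α → Prop)
    (hs : 2 < Nat.card {x : α // s x}) (a : α) :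
    ∃ b c : α, s b ∧ s c ∧ b ≠ a ∧ c ≠ a ∧ b ≠ c := by
  classical
  haveI := Fintype.ofFinite α
  haveI : Fintype {x : α // s x} := Fintype.ofFinite _
  rw [Nat.card_eq_fintype_card] at hs
  obtain ⟨x, y, z, hxy, hxz, hyz⟩ := Fintype.two_lt_card_iff.mp hs
  have hxy' : x.1 ≠ y.1 := fun h => hxy (Subtype.ext h)
  have hxz' : x.1 ≠ z.1 := fun h => hxz (Subtype.ext h)
  have hyz' : y.1 ≠ z.1 := fun h => hyz (Subtype.ext h)
  by_cases h1 : x.1 = a
  · exact ⟨y.1, z.1, y.2, z.2, fun h => hxy' (h1.trans h.symm), fun h => hxz' (h1.trans h.symm), hyz'⟩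
  · by_cases h2 : y.1 = a
    · exact ⟨x.1, z.1, x.2, z.2, h1, fun h => hyz' (h2.trans h.symm), hxz'⟩
    · exact ⟨x.1, y.1, x.2, y.2, h1, h2, hxy'⟩

/-- Basic facts on Sylow numbers. -/
theorem sylow_facts (hNC : ¬ IsMulCommutative G) (n p a : ℕ) (hn : Nat.card G = n) (hp : p.Prime)
    (ha : 1 ≤ a) (h1 : p ^ a ∣ n) (h2 : ¬ p ^ (a + 1) ∣ n) (P : Sylow p G) :
    haveI : Fact p.Prime := ⟨hp⟩
    Nat.card (P : Subgroup G) = p ^ a ∧ 1 < Nat.card (Sylow p G) ∧ Nat.card (Sylow p G) % p = 1 ∧
      Nat.card (Sylow p G) ∣ n / p ^ a ∧ 2 * n ∣ (Nat.card (Sylow p G)).factorial ∧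
      Nat.card (Subgroup.normalizer ((P : Subgroup G) : Set G)) * Nat.card (Sylow p G) = n := by
  haveI : Fact p.Prime := ⟨hp⟩
  have hnpos : 0 < n := hn ▸ Nat.card_pos
  have hcP : Nat.card (P : Subgroup G) = p ^ a := by
    rw [P.card_eq_multiplicity, hn]
    congr 1
    have h3 : (n.factorization p) = a := by
      apply le_antisymm
      · by_contra hcon
        push Not at hcon
        apply h2
        exact (hp.pow_dvd_iff_le_factorization hnpos.ne').mpr hcon
      · exact (hp.pow_dvd_iff_le_factorization hnpos.ne').mp h1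
    exact h3
  have hidx : Nat.card (Sylow p G) = (Subgroup.normalizer ((P : Subgroup G) : Set G)).index :=
    Sylow.card_eq_index_normalizer P
  have hmul : Nat.card (Subgroup.normalizer ((P : Subgroup G) : Set G)) * Nat.card (Sylow p G) = n := by
    rw [hidx, mul_comm, Subgroup.index_mul_card, hn]
  have hNtop : Subgroup.normalizer ((P : Subgroup G) : Set G) ≠ ⊤ := by
    intro htop
    have hnorm : (P : Subgroup G).Normal := Subgroup.normalizer_eq_top_iff.mp htop
    rcases hnorm.eq_bot_or_eq_top with h3 | h3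
    · rw [h3] at hcP
      simp at hcP
      have := (Nat.pow_eq_one.mp hcP.symm)
      have := hp.one_lt
      omega
    · -- then G is a p-group
      have h4 : IsPGroup p G := by
        have := P.isPGroup'
        rw [h3] at this
        exact (IsPGroup.iff_card.mpr (by
          obtain ⟨m, hm⟩ := IsPGroup.iff_card.mp this
          exact ⟨m, by rw [← hm, Subgroup.card_top]⟩))
      haveI : Nontrivial G := IsSimpleGroup.toNontrivial
      obtain ⟨m, hm⟩ := IsPGroup.iff_card.mp h4
      have : IsSolvable G := Cfsg.Agent.Lead.burnside_two_prime p p m 0 hp hp (by simp [hm])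
      exact hNC ⟨⟨(IsSimpleGroup.comm_iff_isSolvable (G := G)).mpr this⟩⟩
  have hk1 : 1 < Nat.card (Sylow p G) := by
    rw [hidx]
    have hne := index_ne_one hNtop
    have hne0 : (Subgroup.normalizer ((P : Subgroup G) : Set G)).index ≠ 0 := Subgroup.index_ne_zero_of_finite
    omega
  have hkp : Nat.card (Sylow p G) % p = 1 := by
    have h5 : Nat.card (Sylow p G) ≡ 1 [MOD p] := card_sylow_modEq_one p G
    have h6 : Nat.card (Sylow p G) % p = 1 % p := h5
    rw [h6, Nat.mod_eq_of_lt hp.one_lt]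
  refine ⟨hcP, hk1, hkp, ?_, ?_, hmul⟩
  · -- divides `n / p^a`
    have h5 : (P : Subgroup G) ≤ Subgroup.normalizer ((P : Subgroup G) : Set G) := Subgroup.le_normalizer
    have h6 : Nat.card (P : Subgroup G) ∣ Nat.card (Subgroup.normalizer ((P : Subgroup G) : Set G)) :=
      Subgroup.card_dvd_of_le h5
    rw [hcP] at h6
    obtain ⟨w, hw⟩ := h6
    have h7 : n / p ^ a = w * Nat.card (Sylow p G) := by
      rw [← hmul, hw, mul_assoc]
      exact Nat.mul_div_cancel_left _ (pow_pos hp.pos a)
    rw [h7]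
    exact dvd_mul_left _ _
  · rw [hidx, ← hn]
    exact two_mul_dvd_factorial hNC _ hNtop

end

/-- Index candidates for a big Sylow intersection. -/
def DOK (n p m : ℕ) : Prop :=
  ∃ i ∈ Nat.divisors m, ∃ d ∈ Nat.divisors (m / i),
    1 < i ∧ 1 < d ∧ d % p = 1 ∧ (64 < i ∨ 2 * n ∣ i.factorial)

instance (n p m : ℕ) : Decidable (DOK n p m) := by
  unfold DOK
  infer_instance

/-- The test on a candidate for a Sylow number. -/
def KOK (n p a k : ℕ) : Prop :=
  1 < k ∧ k % p = 1 ∧ (64 < k ∨ 2 * n ∣ k.factorial) ∧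
    (a = 1 → Nat.gcd (n / (p * k)) (p - 1) ≠ 1) ∧
    (a = 1 → k = p + 1 → (n / (p * k)) ∣ p - 1 ∧ (p % 4 = 3 → n / (p * k) % 2 = 1)) ∧
    (2 ≤ a → k % p ^ 2 ≠ 1 → DOK n p (n / p ^ a))

instance (n p a k : ℕ) : Decidable (KOK n p a k) := by
  unfold KOK
  infer_instance

section
variable {G : Type*} [Group G] [Finite G] [IsSimpleGroup G]

/-- Every Sylow number passes the test. -/
theorem kok_sylow (hNC : ¬ IsMulCommutative G) (n p a : ℕ) (hn : Nat.card G = n) (hp : p.Prime)
    (ha : 1 ≤ a) (h1 : p ^ a ∣ n) (h2 : ¬ p ^ (a + 1) ∣ n) :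
    Nat.card (Sylow p G) ∈ Nat.divisors (n / p ^ a) ∧ KOK n p a (Nat.card (Sylow p G)) := by
  classical
  haveI : Fact p.Prime := ⟨hp⟩
  obtain ⟨P⟩ : Nonempty (Sylow p G) := inferInstance
  obtain ⟨hcP, hk1, hkp, hkd, hkf, hmul⟩ := sylow_facts hNC n p a hn hp ha h1 h2 P
  have hnpos : 0 < n := hn ▸ Nat.card_pos
  set k := Nat.card (Sylow p G) with hk
  have hmpos : n / p ^ a ≠ 0 := by
    have := Nat.div_pos (Nat.le_of_dvd hnpos h1) (pow_pos hp.pos a)
    omega
  refine ⟨Nat.mem_divisors.mpr ⟨hkd, hmpos⟩, hk1, hkp, Or.inr hkf, ?_, ?_, ?_⟩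
  · rintro rfl
    rw [pow_one] at hcP
    intro hg
    -- the normalizer has order `p * e`
    have hPN : (P : Subgroup G) ≤ Subgroup.normalizer ((P : Subgroup G) : Set G) := Subgroup.le_normalizer
    obtain ⟨e, he⟩ := Subgroup.card_dvd_of_le hPN
    rw [hcP] at he
    have hcomm : IsMulCommutative (P : Subgroup G) := by
      haveI : IsCyclic (P : Subgroup G) := isCyclic_of_prime_card hcP
      exact IsCyclic.isMulCommutative
    have hPC : (P : Subgroup G) ≤ Subgroup.centralizer ((P : Subgroup G) : Set G) := by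
      intro x hx
      rw [Subgroup.mem_centralizer_iff]
      intro y hy
      have := hcomm.is_comm.comm ⟨y, hy⟩ ⟨x, hx⟩
      exact congrArg Subtype.val this
    obtain ⟨c, hc⟩ := Subgroup.card_dvd_of_le hPC
    rw [hcP] at hc
    have hCN := Subgroup.card_dvd_of_le (Subgroup.centralizer_le_normalizer ((P : Subgroup G) : Set G))
    have hdv := card_norm_dvd (P : Subgroup G) hcP
    rw [he, hc] at hdv
    rw [he, hc] at hCN
    have hne : n / (p * k) = e := by
      rw [← hmul, he]
      have : p * e * k = (p * k) * e := by ring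
      rw [this]
      exact Nat.mul_div_cancel_left _ (Nat.mul_pos hp.pos (by omega))
    rw [hne] at hg
    have hdv2 : e ∣ c * (p - 1) := by
      rw [mul_assoc] at hdv
      exact Nat.dvd_of_mul_dvd_mul_left hp.pos hdv
    have hdv3 : e ∣ c := (Nat.Coprime.dvd_of_dvd_mul_right hg hdv2)
    have hdv4 : c ∣ e := Nat.dvd_of_mul_dvd_mul_left hp.pos hCN
    have hce : c = e := Nat.dvd_antisymm hdv4 hdv3
    exact norm_ne_cent hNC P (by rw [hn]; exact dvd_trans (by simp) h1) (by rw [he, hc, hce])
  · rintro rfl hkp1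
    rw [pow_one] at hcP
    have hPN : (P : Subgroup G) ≤ Subgroup.normalizer ((P : Subgroup G) : Set G) := Subgroup.le_normalizer
    obtain ⟨e, he⟩ := Subgroup.card_dvd_of_le hPN
    rw [hcP] at he
    have hne : n / (p * k) = e := by
      rw [← hmul, he]
      have : p * e * k = (p * k) * e := by ring
      rw [this]
      exact Nat.mul_div_cancel_left _ (Nat.mul_pos hp.pos (by omega))
    rw [hne]
    have hCP := cent_le_of_pplus hNC P hcP hkp1
    have hcomm : IsMulCommutative (P : Subgroup G) := by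
      haveI : IsCyclic (P : Subgroup G) := isCyclic_of_prime_card hcP
      exact IsCyclic.isMulCommutative
    have hPC : (P : Subgroup G) ≤ Subgroup.centralizer ((P : Subgroup G) : Set G) := by
      intro x hx
      rw [Subgroup.mem_centralizer_iff]
      intro y hy
      have := hcomm.is_comm.comm ⟨y, hy⟩ ⟨x, hx⟩
      exact congrArg Subtype.val this
    have hCeq : Subgroup.centralizer ((P : Subgroup G) : Set G) = (P : Subgroup G) := le_antisymm hCP hPC
    have hdv := card_norm_dvd (P : Subgroup G) hcP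
    rw [he, hCeq, hcP] at hdv
    refine ⟨Nat.dvd_of_mul_dvd_mul_left hp.pos hdv, ?_⟩
    intro hp4
    by_contra hodd
    have h2e : 2 ∣ Nat.card (Subgroup.normalizer ((P : Subgroup G) : Set G)) := by
      rw [he]
      exact Dvd.dvd.mul_left (by omega) _
    haveI : Fact (Nat.Prime 2) := ⟨Nat.prime_two⟩
    obtain ⟨t, ht⟩ := exists_prime_orderOf_dvd_card' 2 h2e
    have htt : (t : G) * t = 1 := by
      have : t * t = 1 := by rw [← pow_two, ← ht, pow_orderOf_eq_one]
      exact congrArg Subtype.val this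
    have ht1 : (t : G) ≠ 1 := by
      intro h
      have : t = 1 := Subtype.ext h
      rw [this, orderOf_one] at ht
      omega
    have hfP : (t : G) • P = P := Sylow.smul_eq_iff_mem_normalizer.mpr t.2
    haveI : Fintype (Sylow p G) := Fintype.ofFinite _
    obtain ⟨s, hs⟩ := four_dvd_moved (X := Sylow p G) (t : G) htt (sign_act hNC t.1)
    have hpos : 0 < Nat.card {x : Sylow p G // (t : G) • x = x} :=
      Nat.card_pos_iff.mpr ⟨⟨⟨P, hfP⟩⟩, inferInstance⟩
    have h3 : 2 < Nat.card {x : Sylow p G // (t : G) • x = x} := by omega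
    obtain ⟨b, c, hb, hc, hbP, hcP', hbc⟩ := exists_two_others _ h3 P
    exact pplus_invol hNC P hcP hkp1 (by omega) t.1 htt ht1 hfP b c hbP hcP' hbc hb hc
  · intro ha2 hkmod
    obtain ⟨Q, hQ, hD⟩ := exists_index_p P hkmod
    have hne1 : Nat.card ((P : Subgroup G) ⊓ (Q : Subgroup G) : Subgroup G) ≠ 1 := by
      intro h
      rw [h, one_mul, hcP] at hD
      have : p ^ 1 = p ^ a := by rw [pow_one]; exact hD
      have := Nat.pow_right_injective hp.two_le this
      omega
    obtain ⟨hH, hP1, hP2⟩ := big_normalizer P Q hQ hD hne1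
    set H := Subgroup.normalizer ((((P : Subgroup G) ⊓ (Q : Subgroup G) : Subgroup G) : Subgroup G) : Set G) with hHdef
    obtain ⟨j, d, hj, hd1, hdp, hdj⟩ := two_sylow_numeric H P Q hQ hP1 hP2
    have hix := Subgroup.index_mul_card H
    rw [hj, hcP, hn] at hix
    have hm : n / p ^ a = H.index * j := by
      rw [← hix]
      have : H.index * (p ^ a * j) = p ^ a * (H.index * j) := by ring
      rw [this]
      exact Nat.mul_div_cancel_left _ (pow_pos hp.pos a)
    have hipos : 0 < H.index := Nat.pos_of_ne_zero Subgroup.index_ne_zero_of_finite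
    have hjpos : 0 < j := by
      rcases Nat.eq_zero_or_pos j with h | h
      · subst h
        simp at hix
        omega
      · exact h
    have hi1 : 1 < H.index := by
      have := index_ne_one hH
      omega
    refine ⟨H.index, ?_, d, ?_, hi1, hd1, hdp, Or.inr ?_⟩
    · rw [Nat.mem_divisors, hm]
      exact ⟨dvd_mul_right _ _, by positivity⟩
    · rw [hm, Nat.mul_div_cancel_left _ hipos, Nat.mem_divisors]
      exact ⟨hdj, by omega⟩
    · rw [← hn]
      exact two_mul_dvd_factorial hNC H hH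

end

end Cfsg.Agent.H09.Ord
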