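import Cfsg.Agent.Lib.H09.Ord4

/-!
Common tools for the exceptional orders; the orders 420, 840, 1008, 1080.
-/

set_option autoImplicit false

namespace Cfsg.Agent.H09.Ord

open Cfsg

variable {G : Type*} [Group G] [Finite G]

theorem exists_elt (K : Subgroup G) (p : ℕ) [Fact p.Prime] (h : p ∣ Nat.card K) :
    ∃ y ∈ K, y ^ p = 1 ∧ y ≠ 1 := by
  have hpp : p.Prime := Fact.out
  obtain ⟨t, ht⟩ := exists_prime_orderOf_dvd_card' p h
  refine ⟨t.1, t.2, ?_, ?_⟩
  · have : t ^ p = 1 := by rw [← ht, pow_orderOf_eq_one]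
    exact congrArg Subtype.val this
  · intro h1
    have : t = 1 := Subtype.ext h1
    rw [this, orderOf_one] at ht
    exact hpp.one_lt.ne ht

theorem exists_invol (K : Subgroup G) (h : 2 ∣ Nat.card K) : ∃ t ∈ K, t * t = 1 ∧ t ≠ 1 := by
  haveI : Fact (Nat.Prime 2) := ⟨Nat.prime_two⟩
  obtain ⟨t, ht, h1, h2⟩ := exists_elt K 2 h
  exact ⟨t, ht, by rw [← pow_two, h1], h2⟩

theorem no_fix_coset (H : Subgroup G) {p : ℕ} [Fact p.Prime] (y : G) (yy : y ^ p = 1) (y1 : y ≠ 1)
    (hp : ¬ p ∣ Nat.card H) (x : G ⧸ H) : y • x ≠ x := by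
  induction x using QuotientGroup.induction_on with
  | H g =>
    intro h
    rw [MulAction.Quotient.smul_coe, smul_eq_mul, QuotientGroup.eq] at h
    have h1 : (y * g)⁻¹ * g ∈ H := h
    have h2 : (g⁻¹ * y * g)⁻¹ ∈ H := by
      have e : (g⁻¹ * y * g)⁻¹ = (y * g)⁻¹ * g := by group
      rw [e]
      exact h1
    have h3 : g⁻¹ * y * g ∈ H := by simpa using H.inv_mem h2
    have h4 : (g⁻¹ * y * g) ^ p = 1 := by
      have e : g⁻¹ * y * g = g⁻¹ * y * (g⁻¹)⁻¹ := by simp
      rw [e, conj_pow, yy]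
      simp
    have h5 : g⁻¹ * y * g ≠ 1 := by
      intro h6
      apply y1
      have : y = g * (g⁻¹ * y * g) * g⁻¹ := by group
      rw [this, h6]
      simp
    have h6 : orderOf (g⁻¹ * y * g) = p := orderOf_eq_prime h4 h5
    apply hp
    rw [← h6]
    exact Subgroup.orderOf_dvd_natCard H h3

theorem coset_moves (H : Subgroup G) (hH : H ≠ ⊤) : ∃ (g : G) (x : G ⧸ H), g • x ≠ x := by
  by_contra hcon
  push Not at hcon
  apply hH
  rw [eq_top_iff]
  intro g _
  have h3 := hcon g ((1 : G) : G ⧸ H)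
  rw [MulAction.Quotient.smul_coe, smul_eq_mul, mul_one, eq_comm, QuotientGroup.eq] at h3
  simpa using h3

theorem sylow_moves {p : ℕ} [Fact p.Prime] (hk : 1 < Nat.card (Sylow p G)) :
    ∃ (g : G) (x : Sylow p G), g • x ≠ x := by
  haveI : Nontrivial (Sylow p G) := Finite.one_lt_card_iff_nontrivial.mp hk
  obtain ⟨P, Q, hPQ⟩ := exists_pair_ne (Sylow p G)
  obtain ⟨c, hc⟩ := MulAction.exists_smul_eq G P Q
  exact ⟨c, P, by rw [hc]; exact hPQ.symm⟩

theorem fix_sylow_one {p : ℕ} [Fact p.Prime] (P : Sylow p G) (hP : Nat.card (P : Subgroup G) = p)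
    {y : G} (hy : y ∈ (P : Subgroup G)) (y1 : y ≠ 1) :
    Nat.card {Q : Sylow p G // y • Q = Q} = 1 := by
  have h : ∀ Q : Sylow p G, y • Q = Q ↔ Q = P := by
    intro Q
    constructor
    · intro h
      by_contra hne
      exact y1 (eq_one_of_prime_smul P Q hne hP hy h)
    · rintro rfl
      exact smul_self_of_mem Q hy
  have e : {Q : Sylow p G // y • Q = Q} ≃ {Q : Sylow p G // Q = P} := Equiv.subtypeEquivRight h
  rw [Nat.card_congr e]
  simp

variable [IsSimpleGroup G]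

/-- An involution centralizing a Sylow subgroup of prime order. -/
theorem syl_numeric (hNC : ¬ IsMulCommutative G) {p : ℕ} [Fact p.Prime] (P : Sylow p G)
    (hP : Nat.card (P : Subgroup G) = p) (hk : 1 < Nat.card (Sylow p G)) (t : G) (tt : t * t = 1)
    (t1 : t ≠ 1) (tc : t ∈ Subgroup.centralizer ((P : Subgroup G) : Set G)) :
    ∃ u s, u % p = 1 % p ∧ u < Nat.card (Sylow p G) ∧ u + 4 * s = Nat.card (Sylow p G) := by
  obtain ⟨y, hyP, yy, y1⟩ := exists_elt (P : Subgroup G) p (by rw [hP])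
  have hc : t * y = y * t := ((Subgroup.mem_centralizer_iff.mp tc) y hyP).symm
  obtain ⟨⟨s, h1⟩, h2, h3, h4, h5, h6, h7⟩ := fix_numeric hNC (X := Sylow p G) (sylow_moves hk) p t y tt t1 yy hc
  have hf := fix_sylow_one P hP hyP y1
  rw [hf] at h4 h6 h7
  have hr : Nat.card {x : Sylow p G // t • x = x ∧ y • x = x} = 1 := by omega
  rw [hr] at h5
  exact ⟨_, s, h5, h2, h1⟩

/-- Two Sylow subgroups in a proper subgroup. -/
theorem exists_big_sub (hNC : ¬ IsMulCommutative G) (n p a : ℕ) [Fact p.Prime] (hn : Nat.card G = n)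
    (ha2 : 2 ≤ a) (hcP : ∀ P : Sylow p G, Nat.card (P : Subgroup G) = p ^ a) (P : Sylow p G)
    (hkmod : Nat.card (Sylow p G) % p ^ 2 ≠ 1) :
    ∃ Q : Sylow p G, Q ≠ P ∧
      Nat.card ((P : Subgroup G) ⊓ (Q : Subgroup G) : Subgroup G) * p = p ^ a ∧
      ∃ H : Subgroup G, H = Subgroup.normalizer (((P : Subgroup G) ⊓ (Q : Subgroup G) : Subgroup G) : Set G) ∧
        H ≠ ⊤ ∧ (P : Subgroup G) ≤ H ∧ (Q : Subgroup G) ≤ H ∧
      ∃ j d, Nat.card H = p ^ a * j ∧ H.index ∈ Nat.divisors (n / p ^ a) ∧ d ∈ Nat.divisors (n / p ^ a / H.index) ∧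
        1 < H.index ∧ 1 < d ∧ d % p = 1 ∧ 2 * n ∣ H.index.factorial := by
  have hp : p.Prime := Fact.out
  have hnpos : 0 < n := hn ▸ Nat.card_pos
  obtain ⟨Q, hQ, hD⟩ := exists_index_p P hkmod
  have hne1 : Nat.card ((P : Subgroup G) ⊓ (Q : Subgroup G) : Subgroup G) ≠ 1 := by
    intro h
    rw [h, one_mul, hcP] at hD
    have : p ^ 1 = p ^ a := by rw [pow_one]; exact hD
    have := Nat.pow_right_injective hp.two_le this
    omega
  obtain ⟨hH, hP1, hP2⟩ := big_normalizer P Q hQ hD hne1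
  rw [hcP] at hD
  refine ⟨Q, hQ, hD, _, rfl, hH, hP1, hP2, ?_⟩
  set H := Subgroup.normalizer ((((P : Subgroup G) ⊓ (Q : Subgroup G) : Subgroup G) : Subgroup G) : Set G) with hHdef
  obtain ⟨j, d, hj, hd1, hdp, hdj⟩ := two_sylow_numeric H P Q hQ hP1 hP2
  rw [hcP] at hj
  have hix := Subgroup.index_mul_card H
  rw [hj, hn] at hix
  have hm : n / p ^ a = H.index * j := by
    rw [← hix]
    have : H.index * (p ^ a * j) = p ^ a * (H.index * j) := by ring
    rw [this]
    exact Nat.mul_div_cancel_left _ (pow_pos hp.pos a)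
  have hipos : 0 < H.index := Nat.pos_of_ne_zero Subgroup.index_ne_zero_of_finite
  have hjpos : 0 < j := by
    rcases Nat.eq_zero_or_pos j with h | h
    · subst h
      simp at hix
      omega
    · exact h
  have hi1 : 1 < H.index := by
    have := index_ne_one hH
    omega
  refine ⟨j, d, hj, ?_, ?_, hi1, hd1, hdp, ?_⟩
  · rw [Nat.mem_divisors, hm]
    exact ⟨dvd_mul_right _ _, by positivity⟩
  · rw [hm, Nat.mul_div_cancel_left _ hipos, Nat.mem_divisors]
    exact ⟨hdj, by omega⟩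
  · rw [← hn]
    exact two_mul_dvd_factorial hNC H hH

theorem card_sylow_eq (hNC : ¬ IsMulCommutative G) (n p a : ℕ) [Fact p.Prime] (hn : Nat.card G = n)
    (ha : 1 ≤ a) (h1 : p ^ a ∣ n) (h2 : ¬ p ^ (a + 1) ∣ n) (P : Sylow p G) :
    Nat.card (P : Subgroup G) = p ^ a :=
  (sylow_facts hNC n p a hn Fact.out ha h1 h2 P).1

theorem card_norm_mul (hNC : ¬ IsMulCommutative G) (n p a : ℕ) [Fact p.Prime] (hn : Nat.card G = n)
    (ha : 1 ≤ a) (h1 : p ^ a ∣ n) (h2 : ¬ p ^ (a + 1) ∣ n) (P : Sylow p G) :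
    Nat.card (Subgroup.normalizer ((P : Subgroup G) : Set G)) * Nat.card (Sylow p G) = n :=
  (sylow_facts hNC n p a hn Fact.out ha h1 h2 P).2.2.2.2.2

/-- No simple groups of order 420 or 840. -/
theorem not_420_840 (hNC : ¬ IsMulCommutative G) (hn : Nat.card G = 420 ∨ Nat.card G = 840) : False := by
  classical
  haveI : Fact (Nat.Prime 7) := ⟨by norm_num⟩
  obtain ⟨P⟩ : Nonempty (Sylow 7 G) := inferInstance
  have hk15 : Nat.card (Sylow 7 G) = 15 := by
    rcases hn with hn | hn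
    · obtain ⟨h1, h2⟩ := kok_sylow hNC 420 7 1 hn (by norm_num) le_rfl (by norm_num) (by norm_num)
      have hd : ∀ k ∈ Nat.divisors (420 / 7 ^ 1), KOK 420 7 1 k → k = 15 := by decide +kernel
      exact hd _ h1 h2
    · obtain ⟨h1, h2⟩ := kok_sylow hNC 840 7 1 hn (by norm_num) le_rfl (by norm_num) (by norm_num)
      have hd : ∀ k ∈ Nat.divisors (840 / 7 ^ 1), KOK 840 7 1 k → k = 15 := by decide +kernel
      exact hd _ h1 h2
  have hP : Nat.card (P : Subgroup G) = 7 := by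
    rcases hn with hn | hn
    · simpa using card_sylow_eq hNC 420 7 1 hn le_rfl (by norm_num) (by norm_num) P
    · simpa using card_sylow_eq hNC 840 7 1 hn le_rfl (by norm_num) (by norm_num) P
  have hN : Nat.card (Subgroup.normalizer ((P : Subgroup G) : Set G)) = 28 ∨
      Nat.card (Subgroup.normalizer ((P : Subgroup G) : Set G)) = 56 := by
    rcases hn with hn | hn
    · have := card_norm_mul hNC 420 7 1 hn le_rfl (by norm_num) (by norm_num) P
      rw [hk15] at this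
      omega
    · have := card_norm_mul hNC 840 7 1 hn le_rfl (by norm_num) (by norm_num) P
      rw [hk15] at this
      omega
  have hdv := card_norm_dvd (P : Subgroup G) hP
  have h2 : 2 ∣ Nat.card (Subgroup.centralizer ((P : Subgroup G) : Set G)) := by
    rcases hN with h | h <;> rw [h] at hdv <;> omega
  obtain ⟨t, ht, tt, t1⟩ := exists_invol _ h2
  obtain ⟨u, s, h3, h4, h5⟩ := syl_numeric hNC P hP (by omega) t tt t1 ht
  rw [hk15] at h4 h5
  omega

/-- A subgroup of index 9 or 21 is impossible if an involution commutes with an element of order 7 -/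
theorem no_index_of_1008 (hNC : ¬ IsMulCommutative G) (hn : Nat.card G = 1008) (t y : G) (tt : t * t = 1)
    (t1 : t ≠ 1) (yy : y ^ 7 = 1) (y1 : y ≠ 1) (c : t * y = y * t) (H : Subgroup G)
    (hH : H.index = 9 ∨ H.index = 21) : False := by
  haveI : Fact (Nat.Prime 7) := ⟨by norm_num⟩
  have hHt : H ≠ ⊤ := by
    rintro rfl
    rw [Subgroup.index_top] at hH
    omega
  have hcard : Nat.card (G ⧸ H) = H.index := rfl
  obtain ⟨⟨s, h1⟩, h2, h3, h4, h5, h6, h7⟩ := fix_numeric hNC (X := G ⧸ H) (coset_moves H hHt) 7 t y tt t1 yy c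
  have hflt := fix_lt (X := G ⧸ H) (coset_moves H hHt) y y1
  rw [hcard] at h1 h2 h6 hflt
  rcases hH with hH | hH
  · rw [hH] at h1 h2 h6 hflt
    omega
  · rw [hH] at h1 h2 h6 hflt
    have hmul := Subgroup.index_mul_card H
    rw [hH, hn] at hmul
    have hcH : Nat.card H = 48 := by omega
    have hno : ¬ 7 ∣ Nat.card H := by rw [hcH]; norm_num
    have hf0 : Nat.card {x : G ⧸ H // y • x = x} = 0 := by
      haveI : IsEmpty {x : G ⧸ H // y • x = x} := ⟨fun x => no_fix_coset H y yy y1 hno x.1 x.2⟩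
      exact Nat.card_of_isEmpty
    rw [hf0] at h4
    omega

theorem not_1008 (hNC : ¬ IsMulCommutative G) (hn : Nat.card G = 1008) : False := by
  classical
  haveI : Fact (Nat.Prime 7) := ⟨by norm_num⟩
  haveI : Fact (Nat.Prime 2) := ⟨Nat.prime_two⟩
  obtain ⟨P⟩ : Nonempty (Sylow 7 G) := inferInstance
  obtain ⟨T⟩ : Nonempty (Sylow 2 G) := inferInstance
  have hk7 : Nat.card (Sylow 7 G) = 36 := by
    obtain ⟨h1, h2⟩ := kok_sylow hNC 1008 7 1 hn (by norm_num) le_rfl (by norm_num) (by norm_num)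
    have hd : ∀ k ∈ Nat.divisors (1008 / 7 ^ 1), KOK 1008 7 1 k → k = 36 := by decide +kernel
    exact hd _ h1 h2
  have hk2 : Nat.card (Sylow 2 G) = 9 ∨ Nat.card (Sylow 2 G) = 21 ∨ Nat.card (Sylow 2 G) = 63 := by
    obtain ⟨h1, h2⟩ := kok_sylow hNC 1008 2 4 hn (by norm_num) (by norm_num) (by norm_num) (by norm_num)
    have hd : ∀ k ∈ Nat.divisors (1008 / 2 ^ 4), KOK 1008 2 4 k → k = 9 ∨ k = 21 ∨ k = 63 := by decide +kernel
    exact hd _ h1 h2
  have hP : Nat.card (P : Subgroup G) = 7 := by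
    simpa using card_sylow_eq hNC 1008 7 1 hn le_rfl (by norm_num) (by norm_num) P
  have hN : Nat.card (Subgroup.normalizer ((P : Subgroup G) : Set G)) = 28 := by
    have := card_norm_mul hNC 1008 7 1 hn le_rfl (by norm_num) (by norm_num) P
    rw [hk7] at this
    omega
  have hdv := card_norm_dvd (P : Subgroup G) hP
  have h2 : 2 ∣ Nat.card (Subgroup.centralizer ((P : Subgroup G) : Set G)) := by
    rw [hN] at hdv
    omega
  obtain ⟨t, ht, tt, t1⟩ := exists_invol _ h2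
  obtain ⟨y, hyP, yy, y1⟩ := exists_elt (P : Subgroup G) 7 (by rw [hP])
  have hc : t * y = y * t := ((Subgroup.mem_centralizer_iff.mp ht) y hyP).symm
  have key := no_index_of_1008 hNC hn t y tt t1 yy y1 hc
  have hidx : Nat.card (Sylow 2 G) = (Subgroup.normalizer ((T : Subgroup G) : Set G)).index :=
    Sylow.card_eq_index_normalizer T
  rcases hk2 with h | h | h
  · exact key _ (Or.inl (hidx ▸ h))
  · exact key _ (Or.inr (hidx ▸ h))
  · have hcP : ∀ P : Sylow 2 G, Nat.card (P : Subgroup G) = 2 ^ 4 :=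
      fun P => card_sylow_eq hNC 1008 2 4 hn (by norm_num) (by norm_num) (by norm_num) P
    obtain ⟨Q, hQ, hD, H, hH, hHt, hT1, hT2, j, d, hj, hi, hd, hi1, hd1, hdp, hfac⟩ :=
      exists_big_sub hNC 1008 2 4 hn (by norm_num) hcP T (by rw [h]; norm_num)
    have hdec : ∀ i ∈ Nat.divisors (1008 / 2 ^ 4), ∀ d ∈ Nat.divisors (1008 / 2 ^ 4 / i),
        1 < i → 1 < d → d % 2 = 1 → 2 * 1008 ∣ i.factorial → i = 9 ∨ i = 21 := by decide +kernel
    exact key H (hdec _ hi _ hd hi1 hd1 hdp hfac)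

/-- A subgroup of index 10 is impossible if an element of order 3 commutes with one of order 5. -/
theorem no_index_of_1080 (hn : Nat.card G = 1080) (t y : G) (tt : t ^ 3 = 1)
    (t1 : t ≠ 1) (yy : y ^ 5 = 1) (y1 : y ≠ 1) (c : t * y = y * t) (H : Subgroup G)
    (hH : H.index = 10) : False := by
  haveI : Fact (Nat.Prime 5) := ⟨by norm_num⟩
  haveI : Fact (Nat.Prime 3) := ⟨by norm_num⟩
  have hHt : H ≠ ⊤ := by
    rintro rfl
    rw [Subgroup.index_top] at hH
    omega
  have hcard : Nat.card (G ⧸ H) = H.index := rfl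
  have h1 := card_fix_modEq (X := G ⧸ H) 5 t y c yy
  have h2 := card_modEq_fix (X := G ⧸ H) 3 t tt
  have h3 := fix_lt (X := G ⧸ H) (coset_moves H hHt) t t1
  have hmul := Subgroup.index_mul_card H
  rw [hH, hn] at hmul
  have hcH : Nat.card H = 108 := by omega
  have hno : ¬ 5 ∣ Nat.card H := by rw [hcH]; norm_num
  have hf0 : Nat.card {x : G ⧸ H // t • x = x ∧ y • x = x} = 0 := by
    haveI : IsEmpty {x : G ⧸ H // t • x = x ∧ y • x = x} := ⟨fun x => no_fix_coset H y yy y1 hno x.1 x.2.2⟩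
    exact Nat.card_of_isEmpty
  rw [hf0] at h1
  rw [hcard, hH] at h2 h3
  have h1' : Nat.card {x : G ⧸ H // t • x = x} % 5 = 0 % 5 := h1
  have h2' : 10 % 3 = Nat.card {x : G ⧸ H // t • x = x} % 3 := h2
  omega

theorem not_1080 (hNC : ¬ IsMulCommutative G) (hn : Nat.card G = 1080) : False := by
  classical
  haveI : Fact (Nat.Prime 5) := ⟨by norm_num⟩
  haveI : Fact (Nat.Prime 3) := ⟨by norm_num⟩
  obtain ⟨P⟩ : Nonempty (Sylow 5 G) := inferInstance
  obtain ⟨T⟩ : Nonempty (Sylow 3 G) := inferInstance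
  have hk5 : Nat.card (Sylow 5 G) = 36 := by
    obtain ⟨h1, h2⟩ := kok_sylow hNC 1080 5 1 hn (by norm_num) le_rfl (by norm_num) (by norm_num)
    have hd : ∀ k ∈ Nat.divisors (1080 / 5 ^ 1), KOK 1080 5 1 k → k = 36 := by decide +kernel
    exact hd _ h1 h2
  have hk3 : Nat.card (Sylow 3 G) = 10 ∨ Nat.card (Sylow 3 G) = 40 := by
    obtain ⟨h1, h2⟩ := kok_sylow hNC 1080 3 3 hn (by norm_num) (by norm_num) (by norm_num) (by norm_num)
    have hd : ∀ k ∈ Nat.divisors (1080 / 3 ^ 3), KOK 1080 3 3 k → k = 10 ∨ k = 40 := by decide +kernel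
    exact hd _ h1 h2
  have hP : Nat.card (P : Subgroup G) = 5 := by
    simpa using card_sylow_eq hNC 1080 5 1 hn le_rfl (by norm_num) (by norm_num) P
  have hN : Nat.card (Subgroup.normalizer ((P : Subgroup G) : Set G)) = 30 := by
    have := card_norm_mul hNC 1080 5 1 hn le_rfl (by norm_num) (by norm_num) P
    rw [hk5] at this
    omega
  have hdv := card_norm_dvd (P : Subgroup G) hP
  have h3 : 3 ∣ Nat.card (Subgroup.centralizer ((P : Subgroup G) : Set G)) := by
    rw [hN] at hdv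
    omega
  obtain ⟨t, ht, tt, t1⟩ := exists_elt _ 3 h3
  obtain ⟨y, hyP, yy, y1⟩ := exists_elt (P : Subgroup G) 5 (by rw [hP])
  have hc : t * y = y * t := ((Subgroup.mem_centralizer_iff.mp ht) y hyP).symm
  have key := no_index_of_1080 hn t y tt t1 yy y1 hc
  have hidx : Nat.card (Sylow 3 G) = (Subgroup.normalizer ((T : Subgroup G) : Set G)).index :=
    Sylow.card_eq_index_normalizer T
  rcases hk3 with h | h
  · exact key _ (hidx ▸ h)
  · have hcP : ∀ P : Sylow 3 G, Nat.card (P : Subgroup G) = 3 ^ 3 :=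
      fun P => card_sylow_eq hNC 1080 3 3 hn (by norm_num) (by norm_num) (by norm_num) P
    obtain ⟨Q, hQ, hD, H, hH, hHt, hT1, hT2, j, d, hj, hi, hd, hi1, hd1, hdp, hfac⟩ :=
      exists_big_sub hNC 1080 3 3 hn (by norm_num) hcP T (by rw [h]; norm_num)
    have hdec : ∀ i ∈ Nat.divisors (1080 / 3 ^ 3), ∀ d ∈ Nat.divisors (1080 / 3 ^ 3 / i),
        1 < i → 1 < d → d % 3 = 1 → 2 * 1080 ∣ i.factorial → i = 10 := by decide +kernel
    exact key H (hdec _ hi _ hd hi1 hd1 hdp hfac)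

end Cfsg.Agent.H09.Ord
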