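import Cfsg.Agent.Lib.H09.Ord6

/-!
The orders 612 and 1040.
-/

set_option autoImplicit false

namespace Cfsg.Agent.H09.Ord

open Cfsg

variable {G : Type*} [Group G] [Finite G]

theorem no_fix_sylow {p q : ℕ} [Fact p.Prime] [Fact q.Prime] (d : G) (dd : d ^ q = 1) (d1 : d ≠ 1)
    (Q : Sylow p G) (h : ¬ q ∣ Nat.card (Subgroup.normalizer ((Q : Subgroup G) : Set G))) : d • Q ≠ Q := by
  intro h1
  have h2 : d ∈ Subgroup.normalizer ((Q : Subgroup G) : Set G) := Sylow.smul_eq_iff_mem_normalizer.mp h1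
  have h3 : orderOf d = q := orderOf_eq_prime dd d1
  exact h (h3 ▸ Subgroup.orderOf_dvd_natCard _ h2)

theorem card_le_inf_mul {p : ℕ} [Fact p.Prime] (P Q : Sylow p G) (hQ : Q ≠ P) :
    Nat.card (P : Subgroup G) ≤
      Nat.card ((P : Subgroup G) ⊓ (Q : Subgroup G) : Subgroup G) * (Nat.card (Sylow p G) - 1) := by
  classical
  have h1 : (MulAction.stabilizer (P : Subgroup G) Q).index =
      Nat.card (MulAction.orbit (P : Subgroup G) Q) := MulAction.index_stabilizer _ _
  have h2 := Subgroup.card_mul_index (MulAction.stabilizer (P : Subgroup G) Q)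
  rw [card_stab_eq, h1] at h2
  rw [← h2]
  apply Nat.mul_le_mul_left
  have h3 := card_ne_add_one P
  have h4 : Nat.card (MulAction.orbit (P : Subgroup G) Q) ≤ Nat.card {x : Sylow p G // x ≠ P} := by
    apply Nat.card_le_card_of_injective
      (fun z : MulAction.orbit (P : Subgroup G) Q => (⟨z.1, ?_⟩ : {x : Sylow p G // x ≠ P}))
    · intro a b hab
      exact Subtype.ext (congrArg (fun w : {x : Sylow p G // x ≠ P} => w.1) hab)
    · obtain ⟨c, hc⟩ := z.2
      intro hzP
      apply hQ
      have h5 : (c : G) • Q = P := by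
        have : c • Q = z.1 := hc
        rw [hzP] at this
        exact this
      have h6 : (c : G) • P = P := smul_self_of_mem P c.2
      exact MulAction.injective (c : G) (h5.trans h6.symm)
  omega

variable [IsSimpleGroup G]

theorem not_612 (hNC : ¬ IsMulCommutative G) (hn : Nat.card G = 612) : False := by
  classical
  haveI : Fact (Nat.Prime 17) := ⟨by norm_num⟩
  haveI : Fact (Nat.Prime 3) := ⟨by norm_num⟩
  obtain ⟨P⟩ : Nonempty (Sylow 17 G) := inferInstance
  obtain ⟨R⟩ : Nonempty (Sylow 3 G) := inferInstance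
  have hk17 : Nat.card (Sylow 17 G) = 18 := by
    obtain ⟨h1, h2⟩ := kok_sylow hNC 612 17 1 hn (by norm_num) le_rfl (by norm_num) (by norm_num)
    have hd : ∀ k ∈ Nat.divisors (612 / 17 ^ 1), KOK 612 17 1 k → k = 18 := by decide +kernel
    exact hd _ h1 h2
  have hk3 : Nat.card (Sylow 3 G) = 34 := by
    obtain ⟨h1, h2⟩ := kok_sylow hNC 612 3 2 hn (by norm_num) (by norm_num) (by norm_num) (by norm_num)
    have hd : ∀ k ∈ Nat.divisors (612 / 3 ^ 2), KOK 612 3 2 k → k = 34 := by decide +kernel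
    exact hd _ h1 h2
  have hcP3 : ∀ P : Sylow 3 G, Nat.card (P : Subgroup G) = 3 ^ 2 :=
    fun P => card_sylow_eq hNC 612 3 2 hn (by norm_num) (by norm_num) (by norm_num) P
  have hcP17 : ∀ P : Sylow 17 G, Nat.card (P : Subgroup G) = 17 := fun P => by
    simpa using card_sylow_eq hNC 612 17 1 hn le_rfl (by norm_num) (by norm_num) P
  have hN17 : ∀ P : Sylow 17 G, Nat.card (Subgroup.normalizer ((P : Subgroup G) : Set G)) = 34 := fun P => by
    have := card_norm_mul hNC 612 17 1 hn le_rfl (by norm_num) (by norm_num) P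
    rw [hk17] at this
    omega
  obtain ⟨Q, hQ, hD, H, hH, hHt, hT1, hT2, j, d, hj, hi, hd, hi1, hd1, hdp, hfac⟩ :=
    exists_big_sub hNC 612 3 2 hn (by norm_num) hcP3 R (by rw [hk3]; norm_num)
  have hidx : H.index = 17 := by
    have hdec : ∀ i ∈ Nat.divisors (612 / 3 ^ 2), ∀ d ∈ Nat.divisors (612 / 3 ^ 2 / i),
        1 < i → 1 < d → d % 3 = 1 → 2 * 612 ∣ i.factorial → i = 17 := by decide +kernel
    exact hdec _ hi _ hd hi1 hd1 hdp hfac
  have hcH : Nat.card H = 36 := by
    have := Subgroup.index_mul_card H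
    rw [hidx, hn] at this
    omega
  have hcD : Nat.card ((R : Subgroup G) ⊓ (Q : Subgroup G) : Subgroup G) = 3 := by omega
  have hdv := card_norm_dvd ((R : Subgroup G) ⊓ (Q : Subgroup G) : Subgroup G) hcD
  rw [← hH, hcH] at hdv
  have h2 : 2 ∣ Nat.card (Subgroup.centralizer ((((R : Subgroup G) ⊓ (Q : Subgroup G) : Subgroup G) : Subgroup G) : Set G)) := by
    omega
  obtain ⟨a, ha, aa, a1⟩ := exists_invol _ h2
  obtain ⟨y, hy, yy, y1⟩ := exists_elt ((R : Subgroup G) ⊓ (Q : Subgroup G) : Subgroup G) 3 (by rw [hcD])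
  have hc : a * y = y * a := ((Subgroup.mem_centralizer_iff.mp ha) y hy).symm
  obtain ⟨⟨s, h1⟩, h3, h4, h5, h6, h7, h8⟩ := fix_numeric hNC (X := Sylow 17 G) (sylow_moves (by omega)) 3 a y aa a1 yy hc
  have hf0 : Nat.card {x : Sylow 17 G // y • x = x} = 0 := by
    haveI : IsEmpty {x : Sylow 17 G // y • x = x} :=
      ⟨fun x => no_fix_sylow y yy y1 x.1 (by rw [hN17]; norm_num) x.2⟩
    exact Nat.card_of_isEmpty
  rw [hf0] at h5 h7 h8
  rw [hk17] at h1 h3
  have hr0 : Nat.card {x : Sylow 17 G // a • x = x ∧ y • x = x} = 0 := by omega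
  rw [hr0] at h6
  have hu : 2 < Nat.card {x : Sylow 17 G // a • x = x} := by omega
  have hne : Nonempty {x : Sylow 17 G // a • x = x} := by
    by_contra hcon
    rw [not_nonempty_iff] at hcon
    have := Nat.card_of_isEmpty (α := {x : Sylow 17 G // a • x = x})
    omega
  obtain ⟨⟨x, hx⟩⟩ := hne
  obtain ⟨b, c, hb, hc', hbx, hcx, hbc⟩ := exists_two_others _ hu x
  exact pplus_invol hNC x (hcP17 x) hk17 (by norm_num) a aa a1 hx b c hbx hcx hbc hb hc'

theorem frob_1040 (hNC : ¬ IsMulCommutative G) (hn : Nat.card G = 1040) : H13.FrobCond 2 G := by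
  classical
  haveI h2' : Fact (Nat.Prime 2) := ⟨Nat.prime_two⟩
  haveI h5' : Fact (Nat.Prime 5) := ⟨by norm_num⟩
  haveI h13' : Fact (Nat.Prime 13) := ⟨by norm_num⟩
  apply H02.frobCond_of_primary
  intro Q hQ g hg hcop r k hr hord
  obtain ⟨m, hm⟩ := IsPGroup.iff_card.mp hQ
  have hQd : Nat.card Q ∣ 16 * 65 := by
    have := Subgroup.card_subgroup_dvd_card Q
    rw [hn] at this
    exact this
  have hQ16 : Nat.card Q ∣ 16 := by
    apply Nat.Coprime.dvd_of_dvd_mul_right _ hQd
    rw [hm]
    exact Nat.Coprime.pow_left _ (by norm_num)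
  set B : Subgroup G := Q ⊓ Subgroup.centralizer ({g} : Set G) with hB
  have hBd : Nat.card B ∣ Nat.card Q := Subgroup.card_dvd_of_le inf_le_left
  suffices hsuff : Nat.card B = Nat.card Q by
    have h1 : B = Q := Subgroup.eq_of_le_of_card_ge inf_le_left hsuff.ge
    rw [Subgroup.mem_centralizer_iff]
    intro x hx
    have hx' : x ∈ B := by rw [h1]; exact hx
    have h3 := Subgroup.mem_centralizer_iff.mp hx'.2 g (Set.mem_singleton g)
    exact h3.symm
  have hod : orderOf g ∣ 16 * 65 := by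
    have := orderOf_dvd_natCard g
    rw [hn] at this
    exact this
  have hc65 : orderOf g ∣ 65 := by
    apply Nat.Coprime.dvd_of_dvd_mul_left _ hod
    have h3 : Nat.Coprime (orderOf g) (2 ^ 4) := Nat.Coprime.pow_right _ hcop
    exact h3
  have hcases : orderOf g = 1 ∨ orderOf g = 5 ∨ orderOf g = 13 := by
    have hmem : orderOf g ∈ Nat.divisors 65 := Nat.mem_divisors.mpr ⟨hc65, by norm_num⟩
    have hd65 : Nat.divisors 65 = {1, 5, 13, 65} := by decide +kernel
    rw [hd65] at hmem
    simp only [Finset.mem_insert, Finset.mem_singleton] at hmem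
    rcases hmem with h | h | h | h
    · exact Or.inl h
    · exact Or.inr (Or.inl h)
    · exact Or.inr (Or.inr h)
    · exfalso
      rw [hord] at h
      have h5 : 5 ∣ r ^ k := by rw [h]; norm_num
      have h13 : 13 ∣ r ^ k := by rw [h]; norm_num
      have h6 := (Nat.prime_dvd_prime_iff_eq (by norm_num) hr).mp ((Nat.Prime.dvd_of_dvd_pow (by norm_num) h5))
      have h7 := (Nat.prime_dvd_prime_iff_eq (by norm_num) hr).mp ((Nat.Prime.dvd_of_dvd_pow (by norm_num) h13))
      omega
  have hg13 : orderOf g = 1 ∨ orderOf g = 13 → Nat.card B = Nat.card Q := by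
    intro hh
    have hpow : g ^ (13 ^ 1) = 1 := by
      rcases hh with h | h
      · rw [orderOf_eq_one_iff.mp h]; simp
      · rw [pow_one, ← h, pow_orderOf_eq_one]
    have hm := H02.card_modEq_centralizer Q g hg 13 1 hpow
    have hm' : Nat.card Q % 13 = Nat.card B % 13 := hm
    have hdec : ∀ q ∈ Nat.divisors 16, ∀ b ∈ Nat.divisors q, q % 13 = b % 13 → b = q := by decide +kernel
    have hq0 : Nat.card Q ≠ 0 := Nat.card_pos.ne'
    exact hdec _ (Nat.mem_divisors.mpr ⟨hQ16, by norm_num⟩) _ (Nat.mem_divisors.mpr ⟨hBd, hq0⟩) hm'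
  rcases hcases with h | h | h
  · exact hg13 (Or.inl h)
  · have gg : g ^ 5 = 1 := by rw [← h, pow_orderOf_eq_one]
    have hm0 := H02.card_modEq_centralizer Q g hg 5 1 (by rw [pow_one]; exact gg)
    have hm' : Nat.card Q % 5 = Nat.card B % 5 := hm0
    have hq0 : Nat.card Q ≠ 0 := Nat.card_pos.ne'
    have hdec : ∀ q ∈ Nat.divisors 16, ∀ b ∈ Nat.divisors q, q % 5 = b % 5 → b = q ∨ (q = 16 ∧ b = 1) := by
      decide +kernel
    rcases hdec _ (Nat.mem_divisors.mpr ⟨hQ16, by norm_num⟩) _ (Nat.mem_divisors.mpr ⟨hBd, hq0⟩) hm' with h1 | ⟨h1, h3⟩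
    · exact h1
    · exfalso
      obtain ⟨T, hQT⟩ := hQ.exists_le_sylow
      have hcT : Nat.card (T : Subgroup G) = 2 ^ 4 :=
        card_sylow_eq hNC 1040 2 4 hn (by norm_num) (by norm_num) (by norm_num) T
      have hQeq : Q = (T : Subgroup G) := Subgroup.eq_of_le_of_card_ge hQT (by rw [hcT, h1]; norm_num)
      subst hQeq
      have hk2 : Nat.card (Sylow 2 G) = 13 ∨ Nat.card (Sylow 2 G) = 65 := by
        obtain ⟨h1, h2⟩ := kok_sylow hNC 1040 2 4 hn (by norm_num) (by norm_num) (by norm_num) (by norm_num)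
        have hd : ∀ k ∈ Nat.divisors (1040 / 2 ^ 4), KOK 1040 2 4 k → k = 13 ∨ k = 65 := by decide +kernel
        exact hd _ h1 h2
      have hmul := card_norm_mul hNC 1040 2 4 hn (by norm_num) (by norm_num) (by norm_num) T
      have h5N : 5 ∣ Nat.card (Subgroup.normalizer ((T : Subgroup G) : Set G)) := by
        rw [← h]
        exact Subgroup.orderOf_dvd_natCard _ hg
      have hk13 : Nat.card (Sylow 2 G) = 13 := by
        rcases hk2 with h4 | h4
        · exact h4
        · exfalso
          rw [h4] at hmul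
          omega
      have hmod := card_modEq_fix (X := Sylow 2 G) 5 g gg
      have hmod' : Nat.card (Sylow 2 G) % 5 = Nat.card {x : Sylow 2 G // g • x = x} % 5 := hmod
      rw [hk13] at hmod'
      have hfT : g • T = T := Sylow.smul_eq_iff_mem_normalizer.mpr hg
      have hf2 : 2 < Nat.card {x : Sylow 2 G // g • x = x} := by omega
      obtain ⟨Q', _, hQ'fix, _, hQ'T, _, _⟩ := exists_two_others _ hf2 T
      have hQ'N : g ∈ Subgroup.normalizer ((Q' : Subgroup G) : Set G) :=
        Sylow.smul_eq_iff_mem_normalizer.mp hQ'fix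
      set A : Subgroup G := (T : Subgroup G) ⊓ (Q' : Subgroup G) with hA
      have hgA : g ∈ Subgroup.normalizer (A : Set G) := by
        rw [Subgroup.mem_normalizer_iff]
        intro x
        constructor
        · rintro ⟨h4, h5⟩
          exact ⟨(Subgroup.mem_normalizer_iff.mp hg x).mp h4, (Subgroup.mem_normalizer_iff.mp hQ'N x).mp h5⟩
        · rintro ⟨h4, h5⟩
          exact ⟨(Subgroup.mem_normalizer_iff.mp hg x).mpr h4, (Subgroup.mem_normalizer_iff.mp hQ'N x).mpr h5⟩
      have hle := card_le_inf_mul T Q' hQ'T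
      rw [hcT, hk13] at hle
      have hAd : Nat.card A ∣ 16 := by
        have := Subgroup.card_dvd_of_le (inf_le_left : A ≤ (T : Subgroup G))
        rw [hcT] at this
        exact this
      have hcQ' : Nat.card (Q' : Subgroup G) = 2 ^ 4 :=
        card_sylow_eq hNC 1040 2 4 hn (by norm_num) (by norm_num) (by norm_num) Q'
      have hAne : Nat.card A ≠ 16 := by
        intro h16
        apply hQ'T
        have e1 : A = (T : Subgroup G) := Subgroup.eq_of_le_of_card_ge inf_le_left (by rw [hcT, h16]; norm_num)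
        have e2 : A = (Q' : Subgroup G) := Subgroup.eq_of_le_of_card_ge inf_le_right (by rw [hcQ', h16]; norm_num)
        exact Sylow.ext (e2.symm.trans e1)
      have hm2 := H02.card_modEq_centralizer A g hgA 5 1 (by rw [pow_one]; exact gg)
      set C : Subgroup G := A ⊓ Subgroup.centralizer ({g} : Set G) with hC
      have hm2' : Nat.card A % 5 = Nat.card C % 5 := hm2
      have hCB : Nat.card C ∣ Nat.card B := Subgroup.card_dvd_of_le (inf_le_inf_right _ inf_le_left)
      rw [h3] at hCB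
      have hC1 : Nat.card C = 1 := Nat.dvd_one.mp hCB
      rw [hC1] at hm2'
      have hdec2 : ∀ a ∈ Nat.divisors 16, a % 5 = 1 % 5 → a = 1 ∨ a = 16 := by decide +kernel
      rcases hdec2 _ (Nat.mem_divisors.mpr ⟨hAd, by norm_num⟩) hm2' with h6 | h6
      · rw [h6] at hle
        norm_num at hle
      · exact hAne h6
  · exact hg13 (Or.inr h)

theorem not_1040 (hNC : ¬ IsMulCommutative G) (hn : Nat.card G = 1040) : False := by
  haveI h2' : Fact (Nat.Prime 2) := ⟨Nat.prime_two⟩
  exact H02.not_hasNormalPComplement hNC 2 (by rw [hn]; norm_num)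
    (H13.hasNormalPComplement_of_frobCond (frob_1040 hNC hn))

end Cfsg.Agent.H09.Ord
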