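import Cfsg.Agent.Lib.H09.Ord7

/-!
The order 756.
-/

set_option autoImplicit false

namespace Cfsg.Agent.H09.Ord

open Cfsg

variable {G : Type*} [Group G] [Finite G]

theorem le_norm_of_index {p : ℕ} [Fact p.Prime] (W : Subgroup G) (R : Sylow p G)
    (hR : W ≤ (R : Subgroup G)) (hD : Nat.card W * p = Nat.card (R : Subgroup G)) :
    (R : Subgroup G) ≤ Subgroup.normalizer (W : Set G) := by
  have hpp : (p : ℕ).Prime := Fact.out
  rw [← Subgroup.normal_subgroupOf_iff_le_normalizer hR]
  obtain ⟨a, ha⟩ := IsPGroup.iff_card.mp R.isPGroup'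
  have hidx : (W.subgroupOf (R : Subgroup G)).index = p := by
    have h1 := Subgroup.card_mul_index (W.subgroupOf (R : Subgroup G))
    have h2 : Nat.card (W.subgroupOf (R : Subgroup G)) = Nat.card W :=
      Nat.card_congr (Subgroup.subgroupOfEquivOfLe hR).toEquiv
    rw [h2, ← hD] at h1
    have hpos : 0 < Nat.card W := Nat.card_pos
    exact (Nat.eq_of_mul_eq_mul_left hpos h1)
  apply Subgroup.normal_of_index_eq_minFac_card
  rw [hidx, ha]
  have hane : a ≠ 0 := by
    rintro rfl
    have h0 : Nat.card (R : Subgroup G) = 1 := by rw [ha, pow_zero]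
    have : p ∣ 1 := by rw [← h0, ← hD]; exact Dvd.intro_left _ rfl
    exact hpp.one_lt.ne' (Nat.dvd_one.mp this)
  exact (Nat.Prime.pow_minFac hpp hane).symm

theorem smul_le_of_mem {p : ℕ} [Fact p.Prime] (H : Subgroup G) (R : Sylow p G)
    (hR : (R : Subgroup G) ≤ H) {h : G} (hh : h ∈ H) : ((h • R : Sylow p G) : Subgroup G) ≤ H := by
  intro y hy
  rw [Sylow.coe_subgroup_smul, Subgroup.mem_pointwise_smul_iff_inv_smul_mem] at hy
  have hy2 : h⁻¹ * y * h ∈ (R : Subgroup G) := by
    have e : (MulAut.conj h)⁻¹ • y = h⁻¹ * y * h := by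
      rw [MulAut.smul_def, MulAut.conj_inv_apply]
    rwa [e] at hy
  have e : y = h * (h⁻¹ * y * h) * h⁻¹ := by group
  rw [e]
  exact H.mul_mem (H.mul_mem hh (hR hy2)) (H.inv_mem hh)

theorem le_norm_of_unique {p : ℕ} [Fact p.Prime] (H : Subgroup G) (R : Sylow p G)
    (hR : (R : Subgroup G) ≤ H) (hu : ∀ Q : Sylow p G, Q ≠ R → (Q : Subgroup G) ≤ H → False) :
    H ≤ Subgroup.normalizer ((R : Subgroup G) : Set G) := by
  intro h hh
  apply Sylow.smul_eq_iff_mem_normalizer.mp
  by_contra hne
  exact hu _ hne (smul_le_of_mem H R hR hh)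

/-- The centralizer is normalized by the normalizer. -/
theorem norm_le_norm_cent (Q : Subgroup G) :
    Subgroup.normalizer (Q : Set G) ≤ Subgroup.normalizer ((Subgroup.centralizer (Q : Set G) : Subgroup G) : Set G) := by
  have key : ∀ h ∈ Subgroup.normalizer (Q : Set G), ∀ z ∈ Subgroup.centralizer (Q : Set G),
      h * z * h⁻¹ ∈ Subgroup.centralizer (Q : Set G) := by
    intro h hh z hz
    rw [Subgroup.mem_centralizer_iff]
    intro q hq
    have h1 : h⁻¹ * q * h ∈ Q := by
      have h2 := (Subgroup.mem_normalizer_iff.mp hh (h⁻¹ * q * h)).mpr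
      apply h2
      have e : h * (h⁻¹ * q * h) * h⁻¹ = q := by group
      rw [e]
      exact hq
    have h3 := Subgroup.mem_centralizer_iff.mp hz _ h1
    calc q * (h * z * h⁻¹) = h * ((h⁻¹ * q * h) * z) * h⁻¹ := by group
      _ = h * (z * (h⁻¹ * q * h)) * h⁻¹ := by rw [h3]
      _ = h * z * h⁻¹ * q := by group
  intro h hh
  rw [Subgroup.mem_normalizer_iff]
  intro z
  constructor
  · exact key h hh z
  · intro hz
    have h1 := key h⁻¹ (Subgroup.inv_mem _ hh) _ hz
    have e : h⁻¹ * (h * z * h⁻¹) * h⁻¹⁻¹ = z := by group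
    rwa [e] at h1

variable [IsSimpleGroup G]

theorem norm_ne_top_of_card (W : Subgroup G) (h1 : Nat.card W ≠ 1) (h2 : Nat.card W ≠ Nat.card G) :
    Subgroup.normalizer (W : Set G) ≠ ⊤ := by
  intro h
  have hnorm : W.Normal := Subgroup.normalizer_eq_top_iff.mp h
  rcases hnorm.eq_bot_or_eq_top with h3 | h3
  · apply h1
    rw [h3, Subgroup.card_bot]
  · apply h2
    rw [h3, Subgroup.card_top]

theorem no_even_norm_756 (hNC : ¬ IsMulCommutative G) (hn : Nat.card G = 756) (W : Subgroup G)
    (hW : Nat.card W = 9) (h2 : 2 ∣ Nat.card (Subgroup.normalizer (W : Set G))) : False := by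
  classical
  haveI : Fact (Nat.Prime 3) := ⟨by norm_num⟩
  have hWp : IsPGroup 3 W := IsPGroup.of_card (n := 2) (by rw [hW]; norm_num)
  obtain ⟨R, hWR⟩ := hWp.exists_le_sylow
  have hcR : ∀ R : Sylow 3 G, Nat.card (R : Subgroup G) = 3 ^ 3 :=
    fun R => card_sylow_eq hNC 756 3 3 hn (by norm_num) (by norm_num) (by norm_num) R
  have hk3 : Nat.card (Sylow 3 G) = 28 := by
    obtain ⟨h1, h2⟩ := kok_sylow hNC 756 3 3 hn (by norm_num) (by norm_num) (by norm_num) (by norm_num)
    have hd : ∀ k ∈ Nat.divisors (756 / 3 ^ 3), KOK 756 3 3 k → k = 28 := by decide +kernel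
    exact hd _ h1 h2
  have hNR : Nat.card (Subgroup.normalizer ((R : Subgroup G) : Set G)) = 27 := by
    have := card_norm_mul hNC 756 3 3 hn (by norm_num) (by norm_num) (by norm_num) R
    rw [hk3] at this
    omega
  have hRW : (R : Subgroup G) ≤ Subgroup.normalizer (W : Set G) :=
    le_norm_of_index W R hWR (by rw [hW, hcR]; norm_num)
  have hHt := norm_ne_top_of_card W (by omega) (by omega)
  set H := Subgroup.normalizer (W : Set G) with hH
  have h27 : 27 ∣ Nat.card H := by
    have := Subgroup.card_dvd_of_le hRW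
    rw [hcR] at this
    exact this
  have h54 : 27 * 2 ∣ Nat.card H := Nat.Coprime.mul_dvd_of_dvd_of_dvd (by norm_num) h27 h2
  obtain ⟨e, he⟩ := h54
  have hfac := two_mul_dvd_factorial hNC H hHt
  rw [hn] at hfac
  have hmul := Subgroup.index_mul_card H
  rw [hn, he] at hmul
  have hie : H.index * e = 14 := by nlinarith
  have hdec : ∀ i ∈ Nat.divisors 14, 2 * 756 ∣ i.factorial → i = 14 := by decide +kernel
  have hi14 : H.index = 14 := hdec _ (Nat.mem_divisors.mpr ⟨⟨e, hie.symm⟩, by norm_num⟩) hfac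
  have hcH : Nat.card H = 54 := by
    rw [hi14] at hmul
    omega
  have hle : H ≤ Subgroup.normalizer ((R : Subgroup G) : Set G) := by
    apply le_norm_of_unique H R hRW
    intro Q hQ hQH
    obtain ⟨j, d, hj, hd1, hdp, hdj⟩ := two_sylow_numeric H R Q hQ hRW hQH
    rw [hcH, hcR] at hj
    have hj2 : j = 2 := by omega
    subst hj2
    have := Nat.le_of_dvd (by norm_num) hdj
    omega
  have := Subgroup.card_dvd_of_le hle
  rw [hcH, hNR] at this
  norm_num at this

theorem cent_of_order3_756 (hNC : ¬ IsMulCommutative G) (hn : Nat.card G = 756) (Q : Subgroup G)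
    (hQ : Nat.card Q = 3) (g : G) (hg : g ∈ Subgroup.normalizer (Q : Set G)) :
    g ∈ Subgroup.centralizer (Q : Set G) := by
  classical
  haveI : Fact (Nat.Prime 3) := ⟨by norm_num⟩
  by_contra hgC
  have hKH : Subgroup.centralizer (Q : Set G) ≤ Subgroup.normalizer (Q : Set G) :=
    Subgroup.centralizer_le_normalizer _
  have hdv := card_norm_dvd Q hQ
  have hKnorm := norm_le_norm_cent Q
  have hHt := norm_ne_top_of_card Q (by omega) (by omega)
  set H := Subgroup.normalizer (Q : Set G) with hH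
  set K := Subgroup.centralizer (Q : Set G) with hK
  obtain ⟨e, he⟩ := Subgroup.card_dvd_of_le hKH
  have hKpos : 0 < Nat.card K := Nat.card_pos
  have he2 : e = 2 := by
    rw [he] at hdv
    have h1 : e ∣ 2 := Nat.dvd_of_mul_dvd_mul_left hKpos hdv
    rcases (Nat.dvd_prime Nat.prime_two).mp h1 with h2 | h2
    · exfalso
      rw [h2, mul_one] at he
      have : K = H := Subgroup.eq_of_le_of_card_ge hKH he.le
      exact hgC (this ▸ hg)
    · exact h2
  subst he2
  obtain ⟨W, hcW, hQW⟩ := Sylow.exists_subgroup_card_pow_prime_le 3 (n := 1) (m := 2)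
    (by rw [hn]; norm_num) Q (by rw [hQ]; norm_num) (by norm_num)
  have hWab : IsMulCommutative W := IsPGroup.isMulCommutative_of_card_eq_prime_sq (p := 3) hcW
  have hWK : W ≤ K := by
    intro x hx
    rw [hK, Subgroup.mem_centralizer_iff]
    intro q hq
    have := hWab.is_comm.comm ⟨q, hQW hq⟩ ⟨x, hx⟩
    exact congrArg Subtype.val this
  obtain ⟨c, hc⟩ := Subgroup.card_dvd_of_le hWK
  rw [hcW] at hc
  have hfac := two_mul_dvd_factorial hNC H hHt
  rw [hn] at hfac
  have hmul := Subgroup.index_mul_card H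
  rw [hn, he, hc] at hmul
  have hic : H.index * c = 42 := by nlinarith
  have hdec : ∀ i ∈ Nat.divisors 42, 2 * 756 ∣ i.factorial → i = 14 ∨ i = 21 ∨ i = 42 := by decide +kernel
  have hi := hdec _ (Nat.mem_divisors.mpr ⟨⟨c, hic.symm⟩, by norm_num⟩) hfac
  have hcK : Nat.card K = 27 ∨ Nat.card K = 18 ∨ Nat.card K = 9 := by
    rcases hi with h | h | h <;> rw [h] at hic <;> rw [hc] <;> omega
  have h2H : 2 ∣ Nat.card H := by rw [he]; exact dvd_mul_left _ _
  rcases hcK with h27 | h18 | h9
  · have hKp : IsPGroup 3 K := IsPGroup.of_card (n := 3) (by rw [h27]; norm_num)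
    obtain ⟨T, hKT⟩ := hKp.exists_le_sylow
    have hcT : Nat.card (T : Subgroup G) = 3 ^ 3 :=
      card_sylow_eq hNC 756 3 3 hn (by norm_num) (by norm_num) (by norm_num) T
    have hKeq : K = (T : Subgroup G) := Subgroup.eq_of_le_of_card_ge hKT (by rw [hcT, h27]; norm_num)
    have hk3 : Nat.card (Sylow 3 G) = 28 := by
      obtain ⟨h1, h2⟩ := kok_sylow hNC 756 3 3 hn (by norm_num) (by norm_num) (by norm_num) (by norm_num)
      have hd : ∀ k ∈ Nat.divisors (756 / 3 ^ 3), KOK 756 3 3 k → k = 28 := by decide +kernel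
      exact hd _ h1 h2
    have hNR : Nat.card (Subgroup.normalizer ((T : Subgroup G) : Set G)) = 27 := by
      have := card_norm_mul hNC 756 3 3 hn (by norm_num) (by norm_num) (by norm_num) T
      rw [hk3] at this
      omega
    rw [hKeq] at hKnorm
    have h3 := Subgroup.card_dvd_of_le hKnorm
    rw [hNR] at h3
    have := h2H.trans h3
    norm_num at this
  · -- the subgroup `W` has index two in `K`
    have hidx : (W.subgroupOf K).index = 2 := by
      have h1 := Subgroup.card_mul_index (W.subgroupOf K)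
      have h2 : Nat.card (W.subgroupOf K) = Nat.card W :=
        Nat.card_congr (Subgroup.subgroupOfEquivOfLe hWK).toEquiv
      rw [h2, hcW, h18] at h1
      omega
    have hkey : ∀ z ∈ K, z ^ 9 = 1 → z ∈ W := by
      intro z hz hz9
      have h1 := Subgroup.mul_self_mem_of_index_two hidx (⟨z, hz⟩ : K)
      rw [Subgroup.mem_subgroupOf] at h1
      have h2 : z * z ∈ W := h1
      have h3 : z = (z * z) ^ 5 := by
        have : (z * z) ^ 5 = z ^ 9 * z := by
          calc (z * z) ^ 5 = z ^ (2 * 5) := by rw [← pow_two, ← pow_mul]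
            _ = z ^ 9 * z := by rw [← pow_succ]
        rw [this, hz9, one_mul]
      rw [h3]
      exact W.pow_mem h2 5
    have hW9 : ∀ x ∈ W, x ^ 9 = 1 := by
      intro x hx
      have := pow_card_eq_one' (G := W) (x := ⟨x, hx⟩)
      rw [hcW] at this
      have h3 : ((⟨x, hx⟩ : W) ^ (3 ^ 2) : W).1 = 1 := by rw [this]; rfl
      simpa using h3
    have hstep : ∀ h ∈ H, ∀ x ∈ W, h * x * h⁻¹ ∈ W := by
      intro h hh x hx
      apply hkey
      · exact (Subgroup.mem_normalizer_iff.mp (hKnorm hh) x).mp (hWK hx)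
      · rw [conj_pow, hW9 x hx]
        simp
    have hle : H ≤ Subgroup.normalizer (W : Set G) := by
      intro h hh
      rw [Subgroup.mem_normalizer_iff]
      intro x
      constructor
      · exact hstep h hh x
      · intro hx
        have h1 := hstep h⁻¹ (H.inv_mem hh) _ hx
        have e : h⁻¹ * (h * x * h⁻¹) * h⁻¹⁻¹ = x := by group
        rwa [e] at h1
    exact no_even_norm_756 hNC hn W (by rw [hcW]; norm_num) (h2H.trans (Subgroup.card_dvd_of_le hle))
  · exact no_even_norm_756 hNC hn K h9 (h2H.trans (Subgroup.card_dvd_of_le hKnorm))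

theorem frob_756 (hNC : ¬ IsMulCommutative G) (hn : Nat.card G = 756) : H13.FrobCond 3 G := by
  classical
  haveI h3' : Fact (Nat.Prime 3) := ⟨by norm_num⟩
  haveI h7' : Fact (Nat.Prime 7) := ⟨by norm_num⟩
  apply H02.frobCond_of_primary
  intro Q hQ g hg hcop r k hr hord
  obtain ⟨m, hm⟩ := IsPGroup.iff_card.mp hQ
  have hQd : Nat.card Q ∣ 27 * 28 := by
    have := Subgroup.card_subgroup_dvd_card Q
    rw [hn] at this
    exact this
  have hQ27 : Nat.card Q ∣ 27 := by
    apply Nat.Coprime.dvd_of_dvd_mul_right _ hQd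
    rw [hm]
    exact Nat.Coprime.pow_left _ (by norm_num)
  set B : Subgroup G := Q ⊓ Subgroup.centralizer ({g} : Set G) with hB
  have hBd : Nat.card B ∣ Nat.card Q := Subgroup.card_dvd_of_le inf_le_left
  suffices hsuff : Nat.card B = Nat.card Q by
    have h1 : B = Q := Subgroup.eq_of_le_of_card_ge inf_le_left hsuff.ge
    rw [Subgroup.mem_centralizer_iff]
    intro x hx
    have hx' : x ∈ B := by rw [h1]; exact hx
    have h3 := Subgroup.mem_centralizer_iff.mp hx'.2 g (Set.mem_singleton g)
    exact h3.symm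
  have hod : orderOf g ∣ 27 * 28 := by
    have := orderOf_dvd_natCard g
    rw [hn] at this
    exact this
  have hc28 : orderOf g ∣ 28 := by
    apply Nat.Coprime.dvd_of_dvd_mul_left _ hod
    have h3 : Nat.Coprime (orderOf g) (3 ^ 3) := Nat.Coprime.pow_right _ hcop
    exact h3
  have hno : ¬ (2 ∣ orderOf g ∧ 7 ∣ orderOf g) := by
    rintro ⟨h5, h13⟩
    rw [hord] at h5 h13
    have h6 := (Nat.prime_dvd_prime_iff_eq (by norm_num) hr).mp ((Nat.Prime.dvd_of_dvd_pow (by norm_num) h5))
    have h7 := (Nat.prime_dvd_prime_iff_eq (by norm_num) hr).mp ((Nat.Prime.dvd_of_dvd_pow (by norm_num) h13))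
    omega
  have hcases : orderOf g = 1 ∨ orderOf g = 7 ∨ 2 ∣ orderOf g := by
    have hmem : orderOf g ∈ Nat.divisors 28 := Nat.mem_divisors.mpr ⟨hc28, by norm_num⟩
    have hd28 : Nat.divisors 28 = {1, 2, 4, 7, 14, 28} := by decide +kernel
    rw [hd28] at hmem
    simp only [Finset.mem_insert, Finset.mem_singleton] at hmem
    rcases hmem with h | h | h | h | h | h
    · exact Or.inl h
    · exact Or.inr (Or.inr (by rw [h]))
    · exact Or.inr (Or.inr (by rw [h]; norm_num))
    · exact Or.inr (Or.inl h)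
    · exact Or.inr (Or.inr (by rw [h]; norm_num))
    · exact Or.inr (Or.inr (by rw [h]; norm_num))
  have hg7 : orderOf g = 1 ∨ orderOf g = 7 → Nat.card B = Nat.card Q := by
    intro hh
    have hpow : g ^ (7 ^ 1) = 1 := by
      rcases hh with h | h
      · rw [orderOf_eq_one_iff.mp h]; simp
      · rw [pow_one, ← h, pow_orderOf_eq_one]
    have hm := H02.card_modEq_centralizer Q g hg 7 1 hpow
    have hm' : Nat.card Q % 7 = Nat.card B % 7 := hm
    have hdec : ∀ q ∈ Nat.divisors 27, ∀ b ∈ Nat.divisors q, q % 7 = b % 7 → b = q := by decide +kernel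
    have hq0 : Nat.card Q ≠ 0 := Nat.card_pos.ne'
    exact hdec _ (Nat.mem_divisors.mpr ⟨hQ27, by norm_num⟩) _ (Nat.mem_divisors.mpr ⟨hBd, hq0⟩) hm'
  rcases hcases with h | h | h
  · exact hg7 (Or.inl h)
  · exact hg7 (Or.inr h)
  · have hN2 : 2 ∣ Nat.card (Subgroup.normalizer (Q : Set G)) :=
      h.trans (Subgroup.orderOf_dvd_natCard _ hg)
    have hmem : Nat.card Q ∈ Nat.divisors 27 := Nat.mem_divisors.mpr ⟨hQ27, by norm_num⟩
    have hd27 : Nat.divisors 27 = {1, 3, 9, 27} := by decide +kernel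
    rw [hd27] at hmem
    simp only [Finset.mem_insert, Finset.mem_singleton] at hmem
    rcases hmem with h1 | h1 | h1 | h1
    · rw [h1] at hBd ⊢
      exact Nat.dvd_one.mp hBd
    · have hgC := cent_of_order3_756 hNC hn Q h1 g hg
      have : B = Q := by
        apply le_antisymm inf_le_left
        intro x hx
        refine ⟨hx, ?_⟩
        show x ∈ Subgroup.centralizer ({g} : Set G)
        rw [Subgroup.mem_centralizer_iff]
        intro y hy
        rw [Set.mem_singleton_iff] at hy
        rw [hy]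
        exact (Subgroup.mem_centralizer_iff.mp hgC x hx).symm
      rw [this]
    · exact (no_even_norm_756 hNC hn Q h1 hN2).elim
    · exfalso
      obtain ⟨T, hQT⟩ := hQ.exists_le_sylow
      have hcT : Nat.card (T : Subgroup G) = 3 ^ 3 :=
        card_sylow_eq hNC 756 3 3 hn (by norm_num) (by norm_num) (by norm_num) T
      have hQeq : Q = (T : Subgroup G) := Subgroup.eq_of_le_of_card_ge hQT (by rw [hcT, h1]; norm_num)
      have hk3 : Nat.card (Sylow 3 G) = 28 := by
        obtain ⟨h1, h2⟩ := kok_sylow hNC 756 3 3 hn (by norm_num) (by norm_num) (by norm_num) (by norm_num)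
        have hd : ∀ k ∈ Nat.divisors (756 / 3 ^ 3), KOK 756 3 3 k → k = 28 := by decide +kernel
        exact hd _ h1 h2
      have hNR : Nat.card (Subgroup.normalizer ((T : Subgroup G) : Set G)) = 27 := by
        have := card_norm_mul hNC 756 3 3 hn (by norm_num) (by norm_num) (by norm_num) T
        rw [hk3] at this
        omega
      rw [hQeq, hNR] at hN2
      norm_num at hN2

theorem not_756 (hNC : ¬ IsMulCommutative G) (hn : Nat.card G = 756) : False := by
  haveI h3' : Fact (Nat.Prime 3) := ⟨by norm_num⟩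
  exact H02.not_hasNormalPComplement hNC 3 (by rw [hn]; norm_num)
    (H13.hasNormalPComplement_of_frobCond (frob_756 hNC hn))

end Cfsg.Agent.H09.Ord
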