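import Cfsg.Agent.Lib.H09.Ord8
import Cfsg.Agent.Lib.H01.Transfer

/-!
The order 720: the cases of 16 and 40 Sylow 3-subgroups.
-/

set_option autoImplicit false

namespace Cfsg.Agent.H09.Ord

open Cfsg
open scoped commutatorElement

variable {G : Type*} [Group G] [Finite G] [IsSimpleGroup G]

theorem commutator_eq_top_of_simple (hNC : ¬ IsMulCommutative G) : commutator G = ⊤ := by
  rcases (inferInstance : (commutator G).Normal).eq_bot_or_eq_top with h | h
  · exfalso
    apply hNC
    refine ⟨⟨fun a b => ?_⟩⟩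
    have h1 : ⁅a, b⁆ ∈ commutator G := by
      rw [commutator_def]
      exact Subgroup.commutator_mem_commutator (Subgroup.mem_top a) (Subgroup.mem_top b)
    rw [h, Subgroup.mem_bot] at h1
    exact commutatorElement_eq_one_iff_mul_comm.mp h1
  · exact h

/-- An involution in the normalizer of an abelian Sylow subgroup of index two inverts it. -/
theorem inverts_of_index_two (hNC : ¬ IsMulCommutative G) {p : ℕ} [Fact p.Prime] (P : Sylow p G)
    (hab : IsMulCommutative (P : Subgroup G))
    (hN : Nat.card (Subgroup.normalizer ((P : Subgroup G) : Set G)) = 2 * Nat.card (P : Subgroup G))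
    (t : G) (ht : t ∈ Subgroup.normalizer ((P : Subgroup G) : Set G)) (tt : t * t = 1)
    (htP : t ∉ (P : Subgroup G)) : ∀ x ∈ (P : Subgroup G), t * x * t⁻¹ = x⁻¹ := by
  classical
  have hcomm : ∀ a ∈ (P : Subgroup G), ∀ b ∈ (P : Subgroup G), a * b = b * a := fun a ha b hb =>
    congrArg Subtype.val (hab.is_comm.comm ⟨a, ha⟩ ⟨b, hb⟩)
  have htinv : t⁻¹ = t := inv_eq_of_mul_eq_one_left tt
  have hconj : ∀ x ∈ (P : Subgroup G), t * x * t⁻¹ ∈ (P : Subgroup G) := fun x hx =>
    (Subgroup.mem_normalizer_iff.mp ht x).mp hx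
  let I : Subgroup G :=
    { carrier := {x | x ∈ (P : Subgroup G) ∧ t * x * t⁻¹ = x⁻¹}
      one_mem' := ⟨Subgroup.one_mem _, by group⟩
      mul_mem' := by
        rintro a b ⟨ha, ha'⟩ ⟨hb, hb'⟩
        refine ⟨Subgroup.mul_mem _ ha hb, ?_⟩
        have e : t * (a * b) * t⁻¹ = (t * a * t⁻¹) * (t * b * t⁻¹) := by group
        rw [e, ha', hb', mul_inv_rev, ← hcomm _ (Subgroup.inv_mem _ hb) _ (Subgroup.inv_mem _ ha)]
      inv_mem' := by
        rintro a ⟨ha, ha'⟩
        refine ⟨Subgroup.inv_mem _ ha, ?_⟩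
        have e : t * a⁻¹ * t⁻¹ = (t * a * t⁻¹)⁻¹ := by group
        rw [e, ha'] }
  have hPI : (P : Subgroup G) ≤ I := by
    have h1 : (P : Subgroup G) = (P : Subgroup G).focalSubgroup := by
      rw [← Subgroup.commutator_inf_eq_focalSubgroup, commutator_eq_top_of_simple hNC, top_inf_eq]
    rw [h1]
    apply Cfsg.Agent.H01.focal_le_of
    intro x hx u hu
    haveI : IsMulCommutative P := hab
    obtain ⟨n, hn, hne⟩ := P.conj_eq_normalizer_conj_of_mem x u⁻¹ hx (by rw [inv_inv]; exact hu)
    have e1 : u * x * u⁻¹ = n⁻¹ * x * n := by simpa using hne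
    rw [e1]
    set N := Subgroup.normalizer ((P : Subgroup G) : Set G) with hNdef
    have hmN : n⁻¹ ∈ N := N.inv_mem hn
    have hidx : ((P : Subgroup G).subgroupOf N).index = 2 := by
      have h2 := Subgroup.card_mul_index ((P : Subgroup G).subgroupOf N)
      have h3 : Nat.card ((P : Subgroup G).subgroupOf N) = Nat.card (P : Subgroup G) :=
        Nat.card_congr (Subgroup.subgroupOfEquivOfLe Subgroup.le_normalizer).toEquiv
      rw [h3, hN] at h2
      have hpos : 0 < Nat.card (P : Subgroup G) := Nat.card_pos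
      have h4 : Nat.card (P : Subgroup G) * ((P : Subgroup G).subgroupOf N).index = Nat.card (P : Subgroup G) * 2 := by
        rw [h2]; ring
      exact Nat.eq_of_mul_eq_mul_left hpos h4
    by_cases hmP : n⁻¹ ∈ (P : Subgroup G)
    · have e2 : n⁻¹ * x * n = x := by
        have : n⁻¹ * x = x * n⁻¹ := hcomm _ hmP _ hx
        rw [this]
        group
      rw [e2, inv_mul_cancel]
      exact Subgroup.one_mem _
    · -- `n⁻¹ * t` lies in `P`
      have h5 : (⟨n⁻¹, hmN⟩ : N) * ⟨t, ht⟩ ∈ (P : Subgroup G).subgroupOf N := by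
        rw [Subgroup.mul_mem_iff_of_index_two hidx]
        constructor
        · intro h
          exact absurd h hmP
        · intro h
          exact absurd h htP
      have h6 : n⁻¹ * t ∈ (P : Subgroup G) := h5
      set r := n⁻¹ * t with hr
      have e3 : n⁻¹ = r * t := by
        rw [hr, mul_assoc, tt, mul_one]
      have e4 : n⁻¹ * x * n = r * (t * x * t⁻¹) * r⁻¹ := by
        have hn2 : n = t⁻¹ * r⁻¹ := by rw [← mul_inv_rev, ← e3, inv_inv]
        calc n⁻¹ * x * n = (r * t) * x * (t⁻¹ * r⁻¹) := by rw [← e3, ← hn2]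
          _ = r * (t * x * t⁻¹) * r⁻¹ := by group
      have hy := hconj x hx
      have e5 : r * (t * x * t⁻¹) * r⁻¹ = t * x * t⁻¹ := by
        rw [hcomm _ h6 _ hy]
        group
      rw [e4, e5]
      refine ⟨Subgroup.mul_mem _ (Subgroup.inv_mem _ hx) hy, ?_⟩
      rw [htinv]
      have e6 : t * (x⁻¹ * (t * x * t)) * t = (t * x⁻¹ * t) * x * (t * t) := by group
      rw [e6, tt, mul_one]
      have e7 : (x⁻¹ * (t * x * t))⁻¹ = (t * x * t)⁻¹ * x := by group
      rw [e7]
      congr 1
      have e8 : (t * x * t)⁻¹ = t⁻¹ * x⁻¹ * t⁻¹ := by group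
      rw [e8, htinv]
  intro x hx
  exact (hPI hx).2

/-- In the case of 40 Sylow 3-subgroups. -/
theorem not_720_k40 (hNC : ¬ IsMulCommutative G) (hn : Nat.card G = 720)
    (hk : Nat.card (Sylow 3 G) = 40) : False := by
  classical
  haveI : Fact (Nat.Prime 3) := ⟨by norm_num⟩
  haveI : Fact (Nat.Prime 2) := ⟨Nat.prime_two⟩
  obtain ⟨R⟩ : Nonempty (Sylow 3 G) := inferInstance
  have hcP : ∀ P : Sylow 3 G, Nat.card (P : Subgroup G) = 3 ^ 2 :=
    fun P => card_sylow_eq hNC 720 3 2 hn (by norm_num) (by norm_num) (by norm_num) P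
  have hab : ∀ P : Sylow 3 G, IsMulCommutative (P : Subgroup G) := fun P =>
    IsPGroup.isMulCommutative_of_card_eq_prime_sq (p := 3) (hcP P)
  have hN : ∀ P : Sylow 3 G, Nat.card (Subgroup.normalizer ((P : Subgroup G) : Set G)) = 18 := fun P => by
    have := card_norm_mul hNC 720 3 2 hn (by norm_num) (by norm_num) (by norm_num) P
    rw [hk] at this
    omega
  -- the action of normalizers
  have hact : ∀ P : Sylow 3 G, ∀ n ∈ Subgroup.normalizer ((P : Subgroup G) : Set G), ∀ x ∈ (P : Subgroup G),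
      n * x * n⁻¹ = x ∨ n * x * n⁻¹ = x⁻¹ := by
    intro P n hn' x hx
    have hcomm : ∀ a ∈ (P : Subgroup G), ∀ b ∈ (P : Subgroup G), a * b = b * a := fun a ha b hb =>
      congrArg Subtype.val ((hab P).is_comm.comm ⟨a, ha⟩ ⟨b, hb⟩)
    obtain ⟨t, ht, tt, t1⟩ := exists_invol _ (by rw [hN P]; norm_num : 2 ∣ Nat.card (Subgroup.normalizer ((P : Subgroup G) : Set G)))
    have htP : t ∉ (P : Subgroup G) := by
      intro h
      have h1 : orderOf t ∣ 3 ^ 2 := by
        rw [← hcP P]
        exact Subgroup.orderOf_dvd_natCard _ h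
      have h2 : orderOf t = 2 := orderOf_eq_prime (by rw [pow_two, tt]) t1
      rw [h2] at h1
      norm_num at h1
    have hinv := inverts_of_index_two hNC P (hab P) (by rw [hN P, hcP P]; norm_num) t ht tt htP
    by_cases hnP : n ∈ (P : Subgroup G)
    · left
      rw [hcomm _ hnP _ hx]
      group
    · right
      set N := Subgroup.normalizer ((P : Subgroup G) : Set G) with hNdef
      have hidx : ((P : Subgroup G).subgroupOf N).index = 2 := by
        have h2 := Subgroup.card_mul_index ((P : Subgroup G).subgroupOf N)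
        have h3 : Nat.card ((P : Subgroup G).subgroupOf N) = Nat.card (P : Subgroup G) :=
          Nat.card_congr (Subgroup.subgroupOfEquivOfLe Subgroup.le_normalizer).toEquiv
        rw [h3, hN P, hcP P] at h2
        omega
      have h5 : (⟨n, hn'⟩ : N) * ⟨t, ht⟩ ∈ (P : Subgroup G).subgroupOf N := by
        rw [Subgroup.mul_mem_iff_of_index_two hidx]
        constructor
        · intro h
          exact absurd h hnP
        · intro h
          exact absurd h htP
      have h6 : n * t ∈ (P : Subgroup G) := h5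
      have e3 : n = (n * t) * t := by rw [mul_assoc, tt, mul_one]
      have hy := hinv x hx
      have e4 : n * x * n⁻¹ = (n * t) * (t * x * t⁻¹) * (n * t)⁻¹ := by
        have htinv : t⁻¹ = t := inv_eq_of_mul_eq_one_left tt
        calc n * x * n⁻¹ = ((n * t) * t) * x * ((n * t) * t)⁻¹ := by rw [← e3]
          _ = (n * t) * (t * x * t⁻¹) * (n * t)⁻¹ := by group
      rw [e4, hy, hcomm _ h6 _ (Subgroup.inv_mem _ hx)]
      group
  obtain ⟨Q, hQ, hD, H, hH, hHt, hR1, hR2, j0, d0, hj0, hi, hd, hi1, hd1, hdp, hfac⟩ :=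
    exists_big_sub hNC 720 3 2 hn (by norm_num) hcP R (by rw [hk]; norm_num)
  set D : Subgroup G := (R : Subgroup G) ⊓ (Q : Subgroup G) with hDdef
  have hcD : Nat.card D = 3 := by omega
  obtain ⟨y, hyD, yy, y1⟩ := exists_elt D 3 (by rw [hcD])
  have hDz : Subgroup.zpowers y = D := zpowers_eq_of_prime_card D hcD hyD y1
  set K := Subgroup.centralizer (D : Set G) with hK
  have hRK : (R : Subgroup G) ≤ K := by
    intro x hx
    rw [hK, Subgroup.mem_centralizer_iff]
    intro q hq
    exact congrArg Subtype.val ((hab R).is_comm.comm ⟨q, hq.1⟩ ⟨x, hx⟩)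
  have hQK : (Q : Subgroup G) ≤ K := by
    intro x hx
    rw [hK, Subgroup.mem_centralizer_iff]
    intro q hq
    exact congrArg Subtype.val ((hab Q).is_comm.comm ⟨q, hq.2⟩ ⟨x, hx⟩)
  obtain ⟨j, d, hj, hd1', hdp', hdj⟩ := two_sylow_numeric K R Q hQ hRK hQK
  rw [hcP] at hj
  -- an involution inverting `R`
  obtain ⟨t, ht, tt, t1⟩ := exists_invol _ (by rw [hN R]; norm_num : 2 ∣ Nat.card (Subgroup.normalizer ((R : Subgroup G) : Set G)))
  have htP : t ∉ (R : Subgroup G) := by
    intro h
    have h1 : orderOf t ∣ 3 ^ 2 := by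
      rw [← hcP R]
      exact Subgroup.orderOf_dvd_natCard _ h
    have h2 : orderOf t = 2 := orderOf_eq_prime (by rw [pow_two, tt]) t1
    rw [h2] at h1
    norm_num at h1
  have hinv := inverts_of_index_two hNC R (hab R) (by rw [hN R, hcP R]; norm_num) t ht tt htP
  have htinv : t⁻¹ = t := inv_eq_of_mul_eq_one_left tt
  have htH : t ∈ H := by
    rw [hH, Subgroup.mem_normalizer_iff]
    intro x
    constructor
    · intro hx
      have : x ∈ D := hx
      rw [hinv x this.1]
      exact D.inv_mem this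
    · intro hx
      have hx' : t * x * t⁻¹ ∈ D := hx
      have h2 := hinv _ hx'.1
      have e : t * (t * x * t⁻¹) * t⁻¹ = x := by
        rw [htinv]
        calc t * (t * x * t) * t = (t * t) * x * (t * t) := by group
          _ = x := by rw [tt]; group
      rw [e] at h2
      rw [h2]
      exact D.inv_mem hx'
  have htK : t ∉ K := by
    intro h
    have h1 := Subgroup.mem_centralizer_iff.mp h y hyD
    have h2 := hinv y hyD.1
    have h3 : t * y * t⁻¹ = y := by
      rw [← h1]
      group
    rw [h3] at h2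
    -- `y = y⁻¹`, with `y ^ 3 = 1`
    apply y1
    have h4 : y * y = 1 := by
      nth_rewrite 1 [h2]
      exact inv_mul_cancel y
    rw [pow_three, h4, mul_one] at yy
    exact yy
  have hKH : K ≤ H := by
    rw [hH]
    exact Subgroup.centralizer_le_normalizer _
  have hdv := card_norm_dvd D hcD
  rw [← hH, ← hK] at hdv
  obtain ⟨e, he⟩ := Subgroup.card_dvd_of_le hKH
  have hKpos : 0 < Nat.card K := Nat.card_pos
  have he2 : e = 2 := by
    rw [he] at hdv
    have h1 : e ∣ 2 := Nat.dvd_of_mul_dvd_mul_left hKpos hdv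
    rcases (Nat.dvd_prime Nat.prime_two).mp h1 with h2 | h2
    · exfalso
      rw [h2, mul_one] at he
      have : K = H := Subgroup.eq_of_le_of_card_ge hKH he.le
      exact htK (this ▸ htH)
    · exact h2
  subst he2
  have hmul := Subgroup.index_mul_card H
  rw [hn, he, hj] at hmul
  have hij : H.index * j = 40 := by nlinarith
  have hjdiv : j ∈ Nat.divisors 40 := Nat.mem_divisors.mpr ⟨⟨H.index, by rw [← hij]; ring⟩, by norm_num⟩
  have hidiv : H.index ∈ Nat.divisors 40 := Nat.mem_divisors.mpr ⟨⟨j, hij.symm⟩, by norm_num⟩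
  have hdiv2 : d ∈ Nat.divisors (40 / H.index) := by
    have hipos : 0 < H.index := by
      rcases Nat.eq_zero_or_pos H.index with h | h
      · rw [h] at hij; omega
      · exact h
    have : 40 / H.index = j := by
      rw [← hij]
      exact Nat.mul_div_cancel_left _ hipos
    rw [this, Nat.mem_divisors]
    refine ⟨hdj, ?_⟩
    rintro rfl
    omega
  have hdec : ∀ i ∈ Nat.divisors 40, ∀ d ∈ Nat.divisors (40 / i), 1 < d → d % 3 = 1 → 2 * 720 ∣ i.factorial → i = 10 := by
    decide +kernel
  have hi10 : H.index = 10 := hdec _ hidiv _ hdiv2 hd1' hdp' hfac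
  have hcK : Nat.card K = 36 := by
    rw [hi10] at hij
    rw [hj]
    omega
  obtain ⟨s, hs, ss, s1⟩ := exists_invol K (by rw [hcK]; norm_num)
  have hsy : s * y = y * s := (Subgroup.mem_centralizer_iff.mp hs y hyD).symm
  -- the unique fixed point of `y`
  have hfix : ∀ x : G ⧸ H, y • x = x → x = ((1 : G) : G ⧸ H) := by
    intro x
    induction x using QuotientGroup.induction_on with
    | H g =>
      intro h
      rw [MulAction.Quotient.smul_coe, smul_eq_mul, QuotientGroup.eq] at h
      have h1 : (y * g)⁻¹ * g ∈ H := h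
      have hw : g⁻¹ * y * g ∈ H := by
        have e : g⁻¹ * y * g = ((y * g)⁻¹ * g)⁻¹ := by group
        rw [e]
        exact H.inv_mem h1
      -- the conjugate subgroup
      let D' : Subgroup G := D.comap (MulAut.conj g⁻¹).toMonoidHom
      have hmem : ∀ v, v ∈ D' ↔ g⁻¹ * v * g ∈ D := by
        intro v
        show (MulAut.conj g⁻¹) v ∈ D ↔ _
        rw [MulAut.conj_apply, inv_inv]
      have hDp : IsPGroup 3 D := IsPGroup.of_card (n := 1) (by rw [hcD]; norm_num)
      have hDp' : IsPGroup 3 D' := hDp.comap_of_injective (MulAut.conj g⁻¹).toMonoidHom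
        (MulAut.conj g⁻¹).injective
      have hyN : y ∈ Subgroup.normalizer (D' : Set G) := by
        rw [Subgroup.mem_normalizer_iff]
        intro v
        rw [hmem, hmem]
        have hw' : g⁻¹ * y * g ∈ Subgroup.normalizer (D : Set G) := hH ▸ hw
        have h2 := Subgroup.mem_normalizer_iff.mp hw' (g⁻¹ * v * g)
        have e : g⁻¹ * y * g * (g⁻¹ * v * g) * (g⁻¹ * y * g)⁻¹ = g⁻¹ * (y * v * y⁻¹) * g := by group
        rwa [e] at h2
      have hDN : D ≤ Subgroup.normalizer (D' : Set G) := by
        rw [← hDz]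
        exact Subgroup.zpowers_le.mpr hyN
      have hsup := hDp.to_sup_of_normal_right' hDp' hDN
      obtain ⟨S, hS⟩ := hsup.exists_le_sylow
      have hyS : y ∈ (S : Subgroup G) := hS (Subgroup.mem_sup_left hyD)
      have hy'D' : g * y * g⁻¹ ∈ D' := by
        rw [hmem]
        have e : g⁻¹ * (g * y * g⁻¹) * g = y := by group
        rw [e]
        exact hyD
      have hy'S : g * y * g⁻¹ ∈ (S : Subgroup G) := hS (Subgroup.mem_sup_right hy'D')
      haveI : IsMulCommutative S := hab S
      obtain ⟨n, hnN, hne⟩ := S.conj_eq_normalizer_conj_of_mem y g⁻¹ hyS (by rw [inv_inv]; exact hy'S)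
      have e1 : g * y * g⁻¹ = n⁻¹ * y * n := by simpa using hne
      have h3 := hact S n⁻¹ (Subgroup.inv_mem _ hnN) y hyS
      rw [inv_inv, ← e1] at h3
      have hy'mem : g * y * g⁻¹ ∈ D := by
        rcases h3 with h3 | h3
        · rw [h3]
          exact hyD
        · rw [h3]
          exact D.inv_mem hyD
      have hy'1 : g * y * g⁻¹ ≠ 1 := by
        intro h4
        apply y1
        have e : y = g⁻¹ * (g * y * g⁻¹) * g := by group
        rw [e, h4]
        group
      have hDz' : Subgroup.zpowers (g * y * g⁻¹) = D := zpowers_eq_of_prime_card D hcD hy'mem hy'1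
      have hgH : g ∈ H := by
        rw [hH, Subgroup.mem_normalizer_iff]
        intro x
        constructor
        · intro hx
          rw [← hDz] at hx
          obtain ⟨k, rfl⟩ := hx
          rw [← hDz']
          refine ⟨k, ?_⟩
          show (g * y * g⁻¹) ^ k = g * y ^ k * g⁻¹
          rw [conj_zpow]
        · intro hx
          rw [← hDz'] at hx
          obtain ⟨k, hk'⟩ := hx
          have hk2 : (g * y * g⁻¹) ^ k = g * x * g⁻¹ := hk'
          rw [conj_zpow] at hk2
          have e2 : x = y ^ k := by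
            have : g * x * g⁻¹ = g * y ^ k * g⁻¹ := hk2.symm
            simpa using this
          rw [e2, ← hDz]
          exact Subgroup.zpow_mem_zpowers y k
      rw [QuotientGroup.eq]
      simpa using H.inv_mem hgH
  have hHne : H ≠ ⊤ := hHt
  have hsH : s • ((1 : G) : G ⧸ H) = ((1 : G) : G ⧸ H) := by
    rw [MulAction.Quotient.smul_coe, smul_eq_mul, mul_one, QuotientGroup.eq]
    simpa using H.inv_mem (hKH hs)
  have hyH : y • ((1 : G) : G ⧸ H) = ((1 : G) : G ⧸ H) := by
    rw [MulAction.Quotient.smul_coe, smul_eq_mul, mul_one, QuotientGroup.eq]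
    have : y ∈ H := by
      rw [hH]
      exact Subgroup.le_normalizer hyD
    simpa using H.inv_mem this
  have hr1 : Nat.card {x : G ⧸ H // s • x = x ∧ y • x = x} = 1 := by
    rw [Nat.card_eq_one_iff_unique]
    refine ⟨⟨fun a b => Subtype.ext ((hfix a.1 a.2.2).trans (hfix b.1 b.2.2).symm)⟩, ⟨⟨_, hsH, hyH⟩⟩⟩
  obtain ⟨⟨a, h1⟩, h2, h3, h4, h5, h6, h7⟩ := fix_numeric hNC (X := G ⧸ H) (coset_moves H hHne) 3 s y ss s1 yy hsy
  have hcard : Nat.card (G ⧸ H) = H.index := rfl
  rw [hr1] at h5
  rw [hcard, hi10] at h1 h2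
  omega

end Cfsg.Agent.H09.Ord
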