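import Cfsg.Agent.Lib.H09.ThApp

/-! Groups of small `p`-length are `p`-stable in every section. -/

set_option autoImplicit false
set_option linter.unusedSectionVars false
set_option linter.unusedVariables false

namespace Cfsg.Agent.H09

open Cfsg Cfsg.Agent.H13 Cfsg.Agent.H14
open scoped commutatorElement

universe u

section Comm
variable {p : ℕ} [hp : Fact p.Prime] {N : Type*} [Group N]

/-- A `p'`-element commuting with its commutator with `t`, when the latter is a `p`-element,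
commutes with `t`. -/
theorem commute_of_coprime_of_comm {y t : N} (hyc : (orderOf y).Coprime p)
    (hz : y * (y * t * y⁻¹ * t⁻¹) = (y * t * y⁻¹ * t⁻¹) * y) {k : ℕ}
    (hk : (y * t * y⁻¹ * t⁻¹) ^ p ^ k = 1) : y * t = t * y := by
  obtain ⟨z, hzz⟩ : ∃ z, z = y * t * y⁻¹ * t⁻¹ := ⟨_, rfl⟩
  rw [← hzz] at hz hk
  have hgt : y * t * y⁻¹ = z * t := by rw [hzz]; group
  have hyzc : y * z * y⁻¹ = z := by rw [hz]; group
  have hpow : ∀ j : ℕ, y ^ j * t * (y ^ j)⁻¹ = z ^ j * t := by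
    intro j
    induction j with
    | zero => simp
    | succ j ih =>
      calc y ^ (j + 1) * t * (y ^ (j + 1))⁻¹ = y * (y ^ j * t * (y ^ j)⁻¹) * y⁻¹ := by
            rw [pow_succ']; group
        _ = y * (z ^ j * t) * y⁻¹ := by rw [ih]
        _ = (y * z ^ j * y⁻¹) * (y * t * y⁻¹) := by group
        _ = z ^ j * (z * t) := by
            rw [hgt, ← conj_pow, hyzc]
        _ = z ^ (j + 1) * t := by rw [pow_succ, mul_assoc]
  have h6 := hpow (orderOf y)
  rw [pow_orderOf_eq_one] at h6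
  have h7 : z ^ orderOf y = 1 := by
    have : t = z ^ orderOf y * t := by simpa using h6
    exact (mul_eq_right.mp this.symm)
  have h8 : z = 1 := eq_one_of_pow_of_coprime hk h7 hyc
  have h9 : y * t * y⁻¹ = t := by rw [hgt, h8, one_mul]
  exact mul_inv_eq_iff_eq_mul.mp h9

end Comm

section Core
variable {p : ℕ} [hp : Fact p.Prime] {N : Type*} [Group N] [Finite N]

/-- The stabilizer of the chief factors inside a normal `p`-subgroup. -/
def chiefStab (P : Subgroup N) : Subgroup N where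
  carrier := {n | ∀ U V : Subgroup N, IsChiefFactor U V → U ≤ P → ∀ u ∈ U, n * u * n⁻¹ * u⁻¹ ∈ V}
  one_mem' := by
    intro U V _ _ u _
    simp
  mul_mem' := by
    intro a b ha hb U V hc hU u hu
    have h1 := hc.2.2.1.conj_mem _ (hb U V hc hU u hu) a
    have h2 := ha U V hc hU u hu
    have e : a * b * u * (a * b)⁻¹ * u⁻¹ =
        a * (b * u * b⁻¹ * u⁻¹) * a⁻¹ * (a * u * a⁻¹ * u⁻¹) := by group
    rw [e]
    exact V.mul_mem h1 h2
  inv_mem' := by
    intro a ha U V hc hU u hu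
    have h1 := ha U V hc hU (a⁻¹ * u * a) (by
      have h2 := hc.2.1.conj_mem u hu a⁻¹
      simpa using h2)
    have e : a⁻¹ * u * a⁻¹⁻¹ * u⁻¹ = (a * (a⁻¹ * u * a) * a⁻¹ * (a⁻¹ * u * a)⁻¹)⁻¹ := by group
    rw [e]
    exact V.inv_mem h1

theorem mem_chiefStab {P : Subgroup N} {n : N} : n ∈ chiefStab P ↔
    ∀ U V : Subgroup N, IsChiefFactor U V → U ≤ P → ∀ u ∈ U, n * u * n⁻¹ * u⁻¹ ∈ V := Iff.rfl

theorem chiefStab_normal (P : Subgroup N) : (chiefStab P).Normal := by
  refine ⟨fun c hc' y U V hc hU u hu => ?_⟩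
  have h1 := hc' U V hc hU (y⁻¹ * u * y) (by
    have h2 := hc.2.1.conj_mem u hu y⁻¹
    simpa using h2)
  have h2 := hc.2.2.1.conj_mem _ h1 y
  have e : y * c * y⁻¹ * u * (y * c * y⁻¹)⁻¹ * u⁻¹ =
      y * (c * (y⁻¹ * u * y) * c⁻¹ * (y⁻¹ * u * y)⁻¹) * y⁻¹ := by group
  rw [e]
  exact h2

/-- `p'`-elements of the stabilizer centralize. -/
theorem chiefStab_pprime {P : Subgroup N} (hPn : P.Normal) (hPp : IsPGroup p P) {y : N}
    (hy : y ∈ chiefStab P) (hyc : (orderOf y).Coprime p) : ∀ u ∈ P, y * u = u * y := by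
  classical
  have key : ∀ (n : ℕ) (A : Subgroup N), Nat.card A ≤ n → A.Normal → A ≤ P → ∀ a ∈ A, y * a = a * y := by
    intro n
    induction n with
    | zero =>
      intro A hc
      have : 0 < Nat.card A := Nat.card_pos
      omega
    | succ n ih =>
      intro A hc hAn hAP a ha
      by_cases hbot : A = ⊥
      · rw [hbot, Subgroup.mem_bot] at ha
        rw [ha, one_mul, mul_one]
      · obtain ⟨V, hV⟩ := exists_chief_below hAn (bot_lt_iff_ne_bot.2 hbot)
        have hcV := card_lt_of_lt' hV.1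
        have hyV := ih V (by omega) hV.2.2.1 (hV.1.le.trans hAP)
        have hz := hy A V hV hAP a ha
        have hzP : y * a * y⁻¹ * a⁻¹ ∈ P :=
          P.mul_mem (hPn.conj_mem a (hAP ha) y) (P.inv_mem (hAP ha))
        obtain ⟨k, hk⟩ := hPp ⟨_, hzP⟩
        exact commute_of_coprime_of_comm hyc (hyV _ hz) (congrArg Subtype.val hk)
  exact key _ P le_rfl hPn le_rfl

/-- The stabilizer maps into `O_p` of the automizer. -/
theorem mem_core_of_chief_trivial {P : Subgroup N} (hPn : P.Normal) (hPp : IsPGroup p P)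
    {C : Subgroup N} [hCn : C.Normal] (hC : ∀ n, n ∈ C ↔ ∀ u ∈ P, n * u = u * n) {t : N}
    (ht : t ∈ chiefStab P) : (QuotientGroup.mk t : N ⧸ C) ∈ pCore p (N ⧸ C) := by
  classical
  let π := QuotientGroup.mk' C
  have hπ : Function.Surjective π := QuotientGroup.mk'_surjective C
  have h1 : (chiefStab P).map π ≤ pCore p (N ⧸ C) := by
    refine H01.le_pCore ((chiefStab_normal P).map π hπ) ?_
    rintro ⟨_, s, hs, rfl⟩
    obtain ⟨a, ha⟩ := exists_pprime_part (p := p) s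
    have h2 : s ^ p ^ a ∈ C :=
      (hC _).2 (chiefStab_pprime hPn hPp ((chiefStab P).pow_mem hs _) ha)
    refine ⟨a, Subtype.ext ?_⟩
    show (π s) ^ p ^ a = 1
    rw [← map_pow]
    exact (QuotientGroup.eq_one_iff _).2 h2
  exact h1 ⟨t, ht, rfl⟩

end Core

section PL
variable {p : ℕ} [hp : Fact p.Prime]

/-- The class of groups with a series `Q ≤ X`. -/
def PL (p : ℕ) (Z : Type*) [Group Z] : Prop :=
  ∃ Q X : Subgroup Z, Q.Normal ∧ X.Normal ∧ IsPGroup p Q ∧
    (∀ a ∈ X, ∀ b ∈ X, a * b * a⁻¹ * b⁻¹ ∈ Q) ∧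
    (∃ m : ℕ, m.Coprime p ∧ ∀ x ∈ X, x ^ m ∈ Q) ∧ ∀ z : Z, ∃ k : ℕ, z ^ p ^ k ∈ X

theorem PL.subgroup {Z : Type*} [Group Z] (h : PL p Z) (H : Subgroup Z) : PL p H := by
  obtain ⟨Q, X, hQn, hXn, hQp, hXQ, ⟨m, hm, hmX⟩, hz⟩ := h
  refine ⟨Q.subgroupOf H, X.subgroupOf H, hQn.subgroupOf H, hXn.subgroupOf H, hQp.comap_subtype,
    ?_, ⟨m, hm, ?_⟩, ?_⟩
  · intro a ha b hb
    rw [Subgroup.mem_subgroupOf] at ha hb ⊢
    exact hXQ a ha b hb
  · intro x hx
    rw [Subgroup.mem_subgroupOf] at hx ⊢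
    exact hmX x hx
  · intro z
    obtain ⟨k, hk⟩ := hz z
    exact ⟨k, Subgroup.mem_subgroupOf.2 hk⟩

theorem PL.map {Z Z' : Type*} [Group Z] [Group Z'] (h : PL p Z) (f : Z →* Z')
    (hf : Function.Surjective f) : PL p Z' := by
  obtain ⟨Q, X, hQn, hXn, hQp, hXQ, ⟨m, hm, hmX⟩, hz⟩ := h
  refine ⟨Q.map f, X.map f, hQn.map f hf, hXn.map f hf, hQp.map f, ?_, ⟨m, hm, ?_⟩, ?_⟩
  · rintro _ ⟨a, ha, rfl⟩ _ ⟨b, hb, rfl⟩
    exact ⟨_, hXQ a ha b hb, by simp only [map_mul, map_inv]⟩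
  · rintro _ ⟨x, hx, rfl⟩
    exact ⟨_, hmX x hx, by simp only [map_pow]⟩
  · intro z
    obtain ⟨z', rfl⟩ := hf z
    obtain ⟨k, hk⟩ := hz z'
    exact ⟨k, _, hk, by simp only [map_pow]⟩

theorem PL.involves {Z Z' : Type*} [Group Z] [Group Z'] (h : PL p Z) (hi : Involves Z' Z) :
    PL p Z' := by
  obtain ⟨K, θ, hθ⟩ := exists_of_involves hi
  exact (h.subgroup K).map θ hθ

/-- The core of the stability statement. -/
theorem stable_core (hp2 : p ≠ 2) {N : Type*} [Group N] [Finite N] (h : PL p N) {P : Subgroup N}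
    (hPn : P.Normal) (hPp : IsPGroup p P)
    {C : Subgroup N} [hCn : C.Normal] (hC : ∀ n, n ∈ C ↔ ∀ u ∈ P, n * u = u * n) (g : N)
    (hq : ⁅⁅P, Subgroup.zpowers g⁆, Subgroup.zpowers g⁆ = ⊥) :
    (QuotientGroup.mk g : N ⧸ C) ∈ pCore p (N ⧸ C) := by
  classical
  obtain ⟨Q, X, hQn, hXn, hQp, hXQ, hm, hz⟩ := h
  have hp3 : 2 ≤ p - 1 := by
    have h3 := hp.out.two_le
    omega
  have hbot : ∀ U : Subgroup N, U ≤ P → iterCommutator U (Subgroup.zpowers g) (p - 1) = ⊥ := by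
    intro U hU
    obtain ⟨k, hk⟩ := Nat.exists_eq_add_of_le hp3
    rw [hk]
    have h2 : iterCommutator U (Subgroup.zpowers g) 2 = ⊥ := by
      rw [eq_bot_iff, ← hq]
      exact iterCommutator_mono_left hU 2
    have h3 : ∀ j : ℕ, iterCommutator U (Subgroup.zpowers g) (2 + j) = ⊥ := by
      intro j
      induction j with
      | zero => exact h2
      | succ j ih =>
        show ⁅iterCommutator U (Subgroup.zpowers g) (2 + j), Subgroup.zpowers g⁆ = ⊥
        rw [ih]
        exact Subgroup.commutator_bot_left _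
    exact h3 k
  have hact : ∀ U V : Subgroup N, IsChiefFactor U V → U ≤ P →
      (∀ x ∈ X, ∀ u ∈ U, (g * x * g⁻¹ * x⁻¹) * u * (g * x * g⁻¹ * x⁻¹)⁻¹ * u⁻¹ ∈ V) ∧
      ∀ u ∈ U, g ^ p * u * (g ^ p)⁻¹ * u⁻¹ ∈ V := by
    intro U V hc hU
    refine hh_chief hc (hPp.to_le hU) hXn hQn hQp hXQ hm ?_
    rw [hbot U hU]
    exact bot_le
  let π := QuotientGroup.mk' C
  have hπ : Function.Surjective π := QuotientGroup.mk'_surjective C
  have hO1 : ∀ x ∈ X, π (g * x * g⁻¹ * x⁻¹) ∈ pCore p (N ⧸ C) := fun x hx =>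
    mem_core_of_chief_trivial hPn hPp hC (fun U V hc hU => (hact U V hc hU).1 x hx)
  have hO2 : π (g ^ p) ∈ pCore p (N ⧸ C) :=
    mem_core_of_chief_trivial hPn hPp hC (fun U V hc hU => (hact U V hc hU).2)
  -- the image of `g` is a `p`-element
  have hgp : IsPGroup p (Subgroup.zpowers (π g)) := by
    rw [IsPGroup.iff_orderOf]
    rintro ⟨_, k, rfl⟩
    have h1 : π g ^ p ∈ pCore p (N ⧸ C) := by rw [← map_pow]; exact hO2
    obtain ⟨j, hj⟩ := (H01.pCore_isPGroup p) ⟨_, h1⟩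
    have hj' : (π g ^ p) ^ p ^ j = 1 := congrArg Subtype.val hj
    have h2 : (π g) ^ p ^ (j + 1) = 1 := by
      rw [pow_succ', pow_mul]
      exact hj'
    have h3 : orderOf (π g) ∣ p ^ (j + 1) := orderOf_dvd_of_pow_eq_one h2
    have h4 : orderOf ((⟨_, k, rfl⟩ : Subgroup.zpowers (π g))) ∣ p ^ (j + 1) := by
      apply orderOf_dvd_of_pow_eq_one
      apply Subtype.ext
      show ((π g) ^ k) ^ p ^ (j + 1) = 1
      rw [← zpow_natCast, ← zpow_mul, mul_comm, zpow_mul, zpow_natCast, h2, one_zpow]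
    obtain ⟨i, -, hi⟩ := (Nat.dvd_prime_pow hp.out).1 h4
    exact ⟨i, hi⟩
  obtain ⟨S, hS⟩ := hgp.exists_le_sylow
  have hgS : π g ∈ (S : Subgroup (N ⧸ C)) := hS (Subgroup.mem_zpowers _)
  have hXS : X.map π ⊔ (S : Subgroup (N ⧸ C)) = ⊤ := by
    set J := X.map π ⊔ (S : Subgroup (N ⧸ C)) with hJ
    have h1 : J.index ∣ (S : Subgroup (N ⧸ C)).index := Subgroup.index_dvd_of_le le_sup_right
    haveI hXb : (X.map π).Normal := hXn.map π hπ
    have h2 : IsPGroup p ((N ⧸ C) ⧸ X.map π) := by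
      intro q
      induction q using QuotientGroup.induction_on with
      | H b =>
        obtain ⟨b', rfl⟩ := hπ b
        obtain ⟨k, hk⟩ := hz b'
        refine ⟨k, ?_⟩
        rw [← QuotientGroup.mk_pow, QuotientGroup.eq_one_iff]
        exact ⟨_, hk, by simp only [map_pow]⟩
    obtain ⟨n, hn⟩ := IsPGroup.iff_card.1 h2
    have h3 : J.index ∣ p ^ n := by
      have h4 : J.index ∣ (X.map π).index := Subgroup.index_dvd_of_le le_sup_left
      rw [Subgroup.index_eq_card (X.map π), hn] at h4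
      exact h4
    obtain ⟨j, -, hj⟩ := (Nat.dvd_prime_pow hp.out).1 h3
    rcases j with _ | j
    · rw [pow_zero] at hj
      exact Subgroup.index_eq_one.1 hj
    · exfalso
      apply S.not_dvd_index
      refine dvd_trans ?_ h1
      rw [hj]
      exact dvd_pow_self p (by omega)
  refine mem_pCore_of_comm S (X.map π) (hXn.map π hπ) hXS hgS ?_
  rintro _ ⟨x, hx, rfl⟩
  have h1 := hO1 x hx
  have h2 := (pCore p (N ⧸ C)).inv_mem h1
  have e : (π (g * x * g⁻¹ * x⁻¹))⁻¹ = π x * π g * (π x)⁻¹ * (π g)⁻¹ := by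
    simp only [map_mul, map_inv]
    group
  rwa [e] at h2

/-- Groups of class `PL` are `p`-stable. -/
theorem stable_of_PL (hp2 : p ≠ 2) {Z : Type*} [Group Z] [Finite Z] (h : PL p Z) :
    IsNormalizerPStable p Z := by
  classical
  intro P hP g hg hq
  set N := Subgroup.normalizer (P : Set Z) with hN
  have hP' : IsPGroup p (P.subgroupOf N) := hP.comap_subtype
  have hPn : (P.subgroupOf N).Normal := Subgroup.normal_in_normalizer
  refine stable_core hp2 (h.subgroup N) hPn hP' ?_ (⟨g, hg⟩ : N) ?_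
  · intro n
    rw [Subgroup.mem_subgroupOf, Subgroup.mem_centralizer_iff]
    constructor
    · intro h1 u hu
      apply Subtype.ext
      exact (h1 (u : Z) (Subgroup.mem_subgroupOf.1 hu)).symm
    · intro h1 u hu
      have h2 := h1 ⟨u, Subgroup.le_normalizer hu⟩ (Subgroup.mem_subgroupOf.2 hu)
      exact (congrArg Subtype.val h2).symm
  · rw [← Subgroup.map_eq_bot_iff_of_injective _ (Subgroup.subtype_injective N),
      Subgroup.map_commutator, Subgroup.map_commutator, MonoidHom.map_zpowers]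
    rw [eq_bot_iff, ← hq]
    refine Subgroup.commutator_mono (Subgroup.commutator_mono ?_ le_rfl) le_rfl
    rintro _ ⟨u, hu, rfl⟩
    exact Subgroup.mem_subgroupOf.1 hu

end PL

section Ctl
variable {p : ℕ} [hp : Fact p.Prime]

/-- Control of fusion by a `p`-group gives the Frobenius condition. -/
theorem frob_of_control {Z : Type*} [Group Z] [Finite Z] {T₁ : Sylow p Z} {R : Subgroup Z}
    (hR : IsPGroup p R)
    (hctrl : ∀ A : Set Z, A ⊆ (T₁ : Subgroup Z) → ControlsStrongFusionOf R (T₁ : Subgroup Z) A) :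
    FrobCond p Z := by
  classical
  intro P hP y hy hyc
  obtain ⟨T₂, hT₂⟩ := hP.exists_le_sylow
  obtain ⟨c, hc⟩ := MulAction.exists_smul_eq Z T₂ T₁
  have hPc : ∀ a ∈ P, c * a * c⁻¹ ∈ (T₁ : Subgroup Z) := by
    intro a ha
    rw [← hc]
    exact ⟨a, hT₂ ha, rfl⟩
  set y' := c * y * c⁻¹ with hy'
  set A : Set Z := (fun a => c * a * c⁻¹) '' (P : Set Z) with hA
  have hAT : A ⊆ (T₁ : Subgroup Z) := by
    rintro _ ⟨a, ha, rfl⟩
    exact hPc a ha
  have hAy : ∀ b ∈ A, y' * b * y'⁻¹ ∈ A := by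
    rintro _ ⟨a, ha, rfl⟩
    refine ⟨y * a * y⁻¹, (Subgroup.mem_normalizer_iff.1 hy a).1 ha, ?_⟩
    show c * (y * a * y⁻¹) * c⁻¹ = y' * (c * a * c⁻¹) * y'⁻¹
    rw [hy']
    group
  obtain ⟨x, hxR, hx⟩ := (hctrl A hAT).2 y' (by
    rintro _ ⟨b, hb, rfl⟩
    exact hAT (hAy b hb))
  have hpow : ∀ (k : ℕ) (b : Z), b ∈ A → y' ^ k * b * (y' ^ k)⁻¹ = x ^ k * b * (x ^ k)⁻¹ := by
    intro k
    induction k with
    | zero => intro b _; simp
    | succ k ih =>
      intro b hb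
      have h1 := ih _ (hAy b hb)
      rw [hx b hb] at h1
      calc y' ^ (k + 1) * b * (y' ^ (k + 1))⁻¹ = y' ^ k * (y' * b * y'⁻¹) * (y' ^ k)⁻¹ := by
            rw [pow_succ]; group
        _ = y' ^ k * (x * b * x⁻¹) * (y' ^ k)⁻¹ := by rw [hx b hb]
        _ = x ^ k * (x * b * x⁻¹) * (x ^ k)⁻¹ := h1
        _ = x ^ (k + 1) * b * (x ^ (k + 1))⁻¹ := by rw [pow_succ]; group
  have hoy : orderOf y' = orderOf y := by
    rw [hy']
    exact H14.orderOf_conj_eq c y
  obtain ⟨i, hi⟩ := (IsPGroup.iff_orderOf.1 hR) ⟨x, hxR⟩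
  have hi' : orderOf x = p ^ i := by rw [← Subgroup.orderOf_mk x hxR]; exact hi
  have hcop : Nat.Coprime (orderOf y') (orderOf x) := by
    rw [hoy, hi']
    exact Nat.Coprime.pow_right i hyc
  obtain ⟨m, hm⟩ := exists_pow_eq_self_of_coprime hcop
  have hxfix : ∀ b ∈ A, x * b * x⁻¹ = b := by
    intro b hb
    have h1 := hpow (orderOf y') b hb
    rw [pow_orderOf_eq_one] at h1
    have h2 : x ^ orderOf y' * b = b * x ^ orderOf y' := by
      have h3 : b = x ^ orderOf y' * b * (x ^ orderOf y')⁻¹ := by simpa using h1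
      calc x ^ orderOf y' * b = (x ^ orderOf y' * b * (x ^ orderOf y')⁻¹) * x ^ orderOf y' := by group
        _ = b * x ^ orderOf y' := by rw [← h3]
    have h4 : Commute (x ^ orderOf y') b := h2
    have h5 : Commute ((x ^ orderOf y') ^ m) b := h4.pow_left m
    rw [hm] at h5
    have h6 : x * b = b * x := h5
    rw [h6]
    group
  rw [Subgroup.mem_centralizer_iff]
  intro a ha
  have hb : c * a * c⁻¹ ∈ A := ⟨a, ha, rfl⟩
  have h1 := hx _ hb
  rw [hxfix _ hb] at h1
  have h2 : y * a * y⁻¹ = a := by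
    have e : y' * (c * a * c⁻¹) * y'⁻¹ = c * (y * a * y⁻¹) * c⁻¹ := by rw [hy']; group
    rw [e] at h1
    have h3 := mul_left_cancel (mul_right_cancel h1)
    exact h3
  exact (mul_inv_eq_iff_eq_mul.1 h2).symm

/-- The final configuration in the strong fusion form. -/
theorem th_hfin_stable {G : Type u} [Group G] [Finite G] {W : ∀ (Q : Type u) [Group Q], Subgroup Q}
    (hp2 : p ≠ 2) (hW : IsCharPFunctor.{u} p W)
    (hctl : ∀ (K R : Subgroup G) [hR : (R.subgroupOf K).Normal],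
      (∀ (K' R' : Subgroup (↥K ⧸ R.subgroupOf K)) [hR' : (R'.subgroupOf K').Normal],
        IsNormalizerPStable p (↥K' ⧸ R'.subgroupOf K')) →
      ∀ T : Sylow p (↥K ⧸ R.subgroupOf K),
        ControlsStrongFusion p (inducedFunctor (G := (↥K ⧸ R.subgroupOf K)) W
          (T : Subgroup (↥K ⧸ R.subgroupOf K)))) :
    ∀ (Y : Type u) [Group Y] [Finite Y], Involves Y G → ∀ (S : Sylow p Y) (X : Subgroup Y),
      ThConf p Y S X → (inducedFunctor W (S : Subgroup Y)).Normal ∨ FrobCond p Y := by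
  intro Y _ _ hY S X hX
  by_cases hn : (inducedFunctor W (S : Subgroup Y)).Normal
  · exact Or.inl hn
  right
  have hPL : PL p Y := by
    refine ⟨pCore p Y, X, H01.pCore_normal p, hX.hXn, H01.pCore_isPGroup p, hX.hXQ, hX.hXm, ?_⟩
    intro z
    obtain ⟨k, hk⟩ := hX.hXidx
    haveI := hX.hXn
    refine ⟨k, ?_⟩
    rw [← hk]
    exact Subgroup.pow_index_mem X z
  obtain ⟨K, R, hR, ⟨e⟩⟩ := hY
  haveI := hR
  let f : Y ≃* (↥K ⧸ R.subgroupOf K) := e.symm
  have hPLZ : PL p (↥K ⧸ R.subgroupOf K) := hPL.map f.toMonoidHom f.surjective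
  have hst : ∀ (K' R' : Subgroup (↥K ⧸ R.subgroupOf K)) [hR' : (R'.subgroupOf K').Normal],
      IsNormalizerPStable p (↥K' ⧸ R'.subgroupOf K') := by
    intro K' R' hR'
    haveI := hR'
    exact stable_of_PL hp2 (hPLZ.involves (involves_section K' R'))
  let T : Sylow p (↥K ⧸ R.subgroupOf K) := S.mapSurjective (f := f.toMonoidHom) f.surjective
  have hT : (T : Subgroup (↥K ⧸ R.subgroupOf K)) = (S : Subgroup Y).map f.toMonoidHom :=
    Sylow.coe_mapSurjective (f := f.toMonoidHom) f.surjective S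
  obtain ⟨T₁, -, hctrl⟩ := hctl K R hst T
  have hUe : inducedFunctor (G := (↥K ⧸ R.subgroupOf K)) W (T : Subgroup (↥K ⧸ R.subgroupOf K)) =
      (inducedFunctor W (S : Subgroup Y)).map f.toMonoidHom := by
    rw [hT]
    exact ind_map_of_inj hW f.toMonoidHom S.isPGroup' (fun x _ hx => f.injective (by simpa using hx))
  have hconj := ind_conj_functor hW (Y := Y)
  have hNS : Subgroup.normalizer ((inducedFunctor W (S : Subgroup Y) : Subgroup Y) : Set Y) ≤ (S : Subgroup Y) := by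
    by_contra hcon
    have hlt : (S : Subgroup Y) < Subgroup.normalizer ((inducedFunctor W (S : Subgroup Y) : Subgroup Y) : Set Y) := by
      refine lt_of_le_of_ne (Subgroup.le_normalizer.trans (inf_normalizer_le_functor hconj S.isPGroup')) ?_
      intro heq
      exact hcon heq.ge
    have h1 := hX.coatom.2 _ hlt
    exact hn (Subgroup.normalizer_eq_top_iff.1 h1)
  have hNR : Subgroup.normalizer ((inducedFunctor (G := (↥K ⧸ R.subgroupOf K)) W (T : Subgroup (↥K ⧸ R.subgroupOf K)) : Subgroup _) : Set _) ≤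
      (T : Subgroup (↥K ⧸ R.subgroupOf K)) := by
    intro z hz
    rw [hUe] at hz
    rw [hT]
    have h1 : e z ∈ Subgroup.normalizer ((inducedFunctor W (S : Subgroup Y) : Subgroup Y) : Set Y) := by
      rw [Subgroup.mem_normalizer_iff]
      intro a
      have h2 := Subgroup.mem_normalizer_iff.1 hz (f a)
      have e1 : z * f a * z⁻¹ = f (e z * a * (e z)⁻¹) := by
        simp only [map_mul, map_inv]
        have : f (e z) = z := e.symm_apply_apply z
        rw [this]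
      rw [e1, mem_map_equiv_iff f, mem_map_equiv_iff f] at h2
      exact h2
    exact ⟨e z, hNS h1, e.symm_apply_apply z⟩
  have hZ : FrobCond p (↥K ⧸ R.subgroupOf K) := by
    refine frob_of_control (T₁ := T₁) (R := (T : Subgroup (↥K ⧸ R.subgroupOf K))) T.isPGroup' ?_
    intro A hA
    refine ⟨hA, fun g hg => ?_⟩
    obtain ⟨x, hx, hxe⟩ := (hctrl A hA).2 g hg
    exact ⟨x, hNR hx, hxe⟩
  exact frobCond_of_injective f.toMonoidHom f.injective hZ

end Ctl

end Cfsg.Agent.H09
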