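import Cfsg.Agent.Lib.H09.SchurLocal
import Cfsg.Agent.Lib.Lead.PSL27
import Cfsg.Agent.Lib.H04.Small.O168

/-! The Schur multiplier of `PSL_3(2)`. -/

set_option autoImplicit false
set_option linter.unusedSectionVars false
set_option linter.unusedVariables false
set_option linter.style.haveILetI false

namespace Cfsg.Agent.H09

open Matrix

universe u

section
variable {F : Type u} [Field F] [Fintype F]

theorem card_psl32 (hF : Fintype.card F = 2) :
    Nat.card (ProjectiveSpecialLinearGroup (Fin 3) F) = 168 := by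
  have h := Cfsg.Agent.Lead.card_PSL (F := F) 3 (by norm_num)
  rw [hF, Fin.prod_univ_three] at h
  generalize Nat.card (ProjectiveSpecialLinearGroup (Fin 3) F) = N at h ⊢
  norm_num at h
  omega

/-- A stem extension with kernel of order two. -/
theorem exists_stem_psl32 (hF : Fintype.card F = 2) :
    ∃ (Γ : Type u) (_ : Group Γ) (_ : Finite Γ) (σ : Γ →* ProjectiveSpecialLinearGroup (Fin 3) F),
      Cfsg.IsStemExtension σ ∧ Nonempty (σ.ker ≃* Multiplicative (ZMod 2)) := by
  classical
  let K : Type u := ULift.{u} (ZMod 7)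
  have hK : Fintype.card K = 7 := by
    simp [K, Fintype.card_ulift, ZMod.card]
  obtain ⟨e⟩ := Lead.PSL27.psl27_equiv (F := K) (K := F) hK hF
  let π₀ : SpecialLinearGroup (Fin 2) K →* ProjectiveSpecialLinearGroup (Fin 2) K :=
    QuotientGroup.mk' (Subgroup.center (SpecialLinearGroup (Fin 2) K))
  let σ : SpecialLinearGroup (Fin 2) K →* ProjectiveSpecialLinearGroup (Fin 3) F :=
    e.toMonoidHom.comp π₀
  have hker : σ.ker = Subgroup.center (SpecialLinearGroup (Fin 2) K) := by
    ext x
    rw [MonoidHom.mem_ker]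
    constructor
    · intro h
      have h1 : π₀ x = 1 := e.injective (by rw [map_one]; exact h)
      exact (QuotientGroup.eq_one_iff x).1 h1
    · intro h
      have h1 : π₀ x = 1 := (QuotientGroup.eq_one_iff x).2 h
      show e (π₀ x) = 1
      rw [h1, map_one]
  refine ⟨_, inferInstance, inferInstance, σ, ⟨?_, ?_, ?_⟩, ?_⟩
  · exact e.surjective.comp (QuotientGroup.mk'_surjective _)
  · rw [hker]
  · rw [H11.commutator_SL2_eq_top (by rw [hK]; norm_num)]
    exact le_top
  · rw [hker]
    have hc : CharP K 7 := by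
      refine charP_of_injective_algebraMap (R := ZMod 7) ?_ 7
      exact ULift.up_injective
    haveI : Fact (Nat.Prime 2) := ⟨Nat.prime_two⟩
    have h1 : Nat.card (rootsOfUnity 2 K) = 2 :=
      (IsPrimitiveRoot.neg_one (R := K) 7 (by norm_num)).card_rootsOfUnity
    have e1 := Matrix.SpecialLinearGroup.center_equiv_rootsOfUnity' (n := Fin 2) (R := K) 0
    have h2 : Nat.card (Subgroup.center (SpecialLinearGroup (Fin 2) K)) = 2 := by
      rw [Nat.card_congr e1.toEquiv]
      simpa using h1
    have h3 : Nat.card (Multiplicative (ZMod 2)) = 2 := by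
      simp [Nat.card_eq_fintype_card]
    exact ⟨mulEquivOfPrimeCardEq h2 h3⟩

theorem psl32_multiplier (hF : Fintype.card F = 2) :
    Cfsg.HasCyclicSchurMultiplier (ProjectiveSpecialLinearGroup (Fin 3) F) 2 := by
  classical
  have hc := card_psl32 hF
  haveI hfin : Finite (ProjectiveSpecialLinearGroup (Fin 3) F) :=
    Nat.finite_of_card_ne_zero (by omega)
  haveI hsimp : IsSimpleGroup (ProjectiveSpecialLinearGroup (Fin 3) F) :=
    Lead.PSL_simple (by simp)
  refine ⟨exists_stem_psl32 hF, ?_⟩
  intro Γ _ _ σ hσ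
  have hodd : ∀ (r : ℕ) [Fact r.Prime], r ≠ 2 → ∀ R : Sylow r Γ, IsCyclic ((R : Subgroup Γ).map σ) := by
    intro r _ hr2 R
    have hrp : r.Prime := Fact.out
    have hP : IsPGroup r ((R : Subgroup Γ).map σ) := R.isPGroup'.map σ
    obtain ⟨k, hk⟩ := IsPGroup.iff_card.1 hP
    have hd : r ^ k ∣ 168 := by
      rw [← hk, ← hc]
      exact Subgroup.card_subgroup_dvd_card _
    have hk1 : k ≤ 1 := by
      by_contra hk2
      have h3 : r ^ 2 ∣ 168 := (pow_dvd_pow r (by omega)).trans hd
      have h4 : r ^ 2 ∣ 2 ^ 3 * 21 := h3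
      have hcop : Nat.Coprime (r ^ 2) (2 ^ 3) := by
        apply Nat.Coprime.pow
        exact (Nat.coprime_primes hrp Nat.prime_two).2 hr2
      have h5 : r ^ 2 ∣ 21 := hcop.dvd_of_dvd_mul_left h4
      have h6 : r ^ 2 ≤ 21 := Nat.le_of_dvd (by norm_num) h5
      have h7 : r ≤ 4 := by nlinarith
      interval_cases r <;> first | omega | (revert hrp; norm_num; done) | (revert h5; norm_num)
    interval_cases k
    · rw [pow_zero] at hk
      haveI : Subsingleton ((R : Subgroup Γ).map σ) := (Nat.card_eq_one_iff_unique.1 hk).1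
      exact isCyclic_of_subsingleton
    · rw [pow_one] at hk
      exact isCyclic_of_prime_card hk
  have h2 : ∀ R : Sylow 2 Γ, Nonempty (((R : Subgroup Γ).map σ) ≃* DihedralGroup 4) := by
    intro R
    haveI : Fact (Nat.Prime 2) := ⟨Nat.prime_two⟩
    obtain ⟨-, -, -, -, -, -, he, -⟩ := H04.Small.o_T_data hc (Sylow.mapSurjective hσ.1 R)
    rwa [Sylow.coe_mapSurjective] at he
  have hle := ker_card_le_two σ hσ hodd h2
  haveI : Fact (Nat.Prime 2) := ⟨Nat.prime_two⟩
  have hpos : 0 < Nat.card σ.ker := Nat.card_pos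
  have hcases : Nat.card σ.ker = 1 ∨ Nat.card σ.ker = 2 := by omega
  rcases hcases with h1 | h1
  · haveI : Subsingleton σ.ker := (Nat.card_eq_one_iff_unique.1 h1).1
    exact ⟨1, fun x => ⟨1, Subsingleton.elim _ _⟩⟩
  · have h3 : Nat.card (Multiplicative (ZMod 2)) = 2 := by
      simp [Nat.card_eq_fintype_card]
    let e2 := mulEquivOfPrimeCardEq h3 h1
    exact ⟨e2.toMonoidHom, e2.surjective⟩

end

end Cfsg.Agent.H09
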