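import Cfsg.Agent.Lib.H19.SchurDih
import Cfsg.Agent.Lib.H19.Hopf2

/-! Local control of the kernel of a stem extension. -/

set_option autoImplicit false
set_option linter.unusedSectionVars false
set_option linter.unusedVariables false
set_option linter.style.haveILetI false

namespace Cfsg.Agent.H09

open Cfsg.Agent.H19

universe u v w

/-- Central extensions of a group with multiplier `A`: the part of the kernel in the commutator
subgroup is an image of `A`. -/
theorem image_of_mult {Q : Type u} [Group Q] [Finite Q] {A : Type v} [CommGroup A]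
    (hA : Cfsg.HasSchurMultiplier Q A) {X : Type w} [Group X] (ξ : X →* Q)
    (hξ : Function.Surjective ξ) (hcen : ξ.ker ≤ Subgroup.center X) :
    ∃ π : A →* X, ∀ y, y ∈ ξ.ker → y ∈ commutator X → y ∈ π.range := by
  let ε := Hopf.canon Q
  have hε := Hopf.canon_surjective Q
  obtain ⟨e⟩ := Hopf.nonempty_equiv_covM ε hε hA
  obtain ⟨θ, hθ⟩ := Hopf.exists_cov_lift ε ξ hξ hcen
  refine ⟨θ.comp ((Hopf.covM ε).subtype.comp e.toMonoidHom), ?_⟩
  intro y hy hy2
  obtain ⟨w, hw, hwy⟩ := Hopf.mem_image_covM ε ξ hcen θ hθ hε hξ hy hy2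
  exact ⟨e.symm ⟨w, hw⟩, by simp [hwy]⟩

/-- A trivial multiplier kills the part of the kernel in the commutator subgroup. -/
theorem eq_one_of_trivial_mult {Q : Type u} [Group Q] [Finite Q] (hA : Cfsg.HasCyclicSchurMultiplier Q 1)
    {X : Type w} [Group X] (ξ : X →* Q)
    (hξ : Function.Surjective ξ) (hcen : ξ.ker ≤ Subgroup.center X) {y : X} (hy : y ∈ ξ.ker)
    (hy2 : y ∈ commutator X) : y = 1 := by
  obtain ⟨π, hπ⟩ := image_of_mult hA ξ hξ hcen
  obtain ⟨a, rfl⟩ := hπ y hy hy2
  have h1 : a = 1 := by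
    haveI hU : Unique (Multiplicative (ZMod 1)) := inferInstanceAs (Unique (ZMod 1))
    exact Subsingleton.elim _ _
  rw [h1, map_one]

/-- Transfer into a subgroup for a central element of the commutator subgroup. -/
theorem transfer_central {G : Type*} [Group G] [Finite G] (H : Subgroup G) {z : G}
    (hzC : z ∈ commutator G) (hzZ : z ∈ Subgroup.center G) :
    ∃ h : z ^ H.index ∈ H, (⟨z ^ H.index, h⟩ : H) ∈ commutator H := by
  classical
  let ϕ : H →* Abelianization H := Abelianization.of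
  let V : G →* Abelianization H := MonoidHom.transfer ϕ
  have h1 : V z = 1 := by
    have : commutator G ≤ V.ker := Abelianization.commutator_subset_ker V
    exact this hzC
  have hkey : ∀ (k : ℕ) (g₀ : G), g₀⁻¹ * z ^ k * g₀ ∈ H → g₀⁻¹ * z ^ k * g₀ = z ^ k := by
    intro k g₀ _
    have h3 : z ^ k ∈ Subgroup.center G := (Subgroup.center G).pow_mem hzZ k
    have h4 := Subgroup.mem_center_iff.mp h3 g₀
    rw [mul_assoc, ← h4]
    group
  have h2 := MonoidHom.transfer_eq_pow ϕ z hkey
  refine ⟨MonoidHom.transfer_eq_pow_aux z hkey, ?_⟩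
  have h5 : ϕ ⟨z ^ H.index, MonoidHom.transfer_eq_pow_aux z hkey⟩ = 1 := by
    rw [← h2]
    exact h1
  exact (QuotientGroup.eq_one_iff _).1 h5

/-- A central element of the commutator subgroup lying in a Sylow subgroup lies in its commutator
subgroup. -/
theorem mem_commutator_sylow {G : Type*} [Group G] [Finite G] {r : ℕ} [Fact r.Prime] (R : Sylow r G)
    {z : G} (hzR : z ∈ (R : Subgroup G)) (hzC : z ∈ commutator G) (hzZ : z ∈ Subgroup.center G) :
    (⟨z, hzR⟩ : (R : Subgroup G)) ∈ commutator (R : Subgroup G) := by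
  obtain ⟨h, h1⟩ := transfer_central (R : Subgroup G) hzC hzZ
  have hcop : Nat.Coprime (R : Subgroup G).index (orderOf z) := by
    obtain ⟨k, hk⟩ : ∃ k, orderOf z = r ^ k := by
      have h2 := (R.isPGroup' ⟨z, hzR⟩)
      obtain ⟨n, hn⟩ := h2
      have h3 : z ^ r ^ n = 1 := by
        have := congrArg Subtype.val hn
        simpa using this
      have := (Nat.dvd_prime_pow (Fact.out : r.Prime)).1 (orderOf_dvd_of_pow_eq_one h3)
      obtain ⟨m, -, hm⟩ := this
      exact ⟨m, hm⟩
    rw [hk]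
    exact (Nat.Coprime.pow_right k ((Nat.Prime.coprime_iff_not_dvd (Fact.out : r.Prime)).2 R.not_dvd_index).symm)
  obtain ⟨m, hm⟩ := exists_pow_eq_self_of_coprime hcop
  have h3 : (⟨z, hzR⟩ : (R : Subgroup G)) = (⟨z ^ (R : Subgroup G).index, h⟩ : (R : Subgroup G)) ^ m := by
    apply Subtype.ext
    simpa using hm.symm
  rw [h3]
  exact Subgroup.pow_mem _ h1 m

/-- Reduction of the triviality of a stem extension to the primes. -/
theorem ker_eq_bot_of_local {Δ : Type*} {Q : Type*} [Group Δ] [Finite Δ] [Group Q] (τ : Δ →* Q)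
    (hτ : Cfsg.IsStemExtension τ)
    (h : ∀ (r : ℕ) [Fact r.Prime] (R : Sylow r Δ) (z : Δ) (hzR : z ∈ (R : Subgroup Δ)), orderOf z = r →
      z ∈ τ.ker → z ∈ Subgroup.center Δ → z ∈ commutator Δ →
      (⟨z, hzR⟩ : (R : Subgroup Δ)) ∈ commutator (R : Subgroup Δ) → z = 1) : τ.ker = ⊥ := by
  rw [eq_bot_iff]
  intro z hz
  rw [Subgroup.mem_bot]
  by_contra hz1
  have hord : orderOf z ≠ 1 := fun h' => hz1 (orderOf_eq_one_iff.mp h')
  obtain ⟨r, hr, m, hm⟩ := Nat.exists_prime_and_dvd hord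
  haveI := Fact.mk hr
  have hpos : 0 < orderOf z := orderOf_pos z
  have hm0 : m ≠ 0 := by
    intro h0
    rw [h0, mul_zero] at hm
    omega
  set y := z ^ m with hy
  have hyord : orderOf y = r := by
    rw [hy, orderOf_pow_of_dvd hm0 ⟨r, by rw [hm]; ring⟩, hm]
    exact Nat.mul_div_left r (Nat.pos_of_ne_zero hm0)
  have hyk : y ∈ τ.ker := Subgroup.pow_mem _ hz m
  have hyp : IsPGroup r (Subgroup.zpowers y) :=
    IsPGroup.of_card (n := 1) (by rw [Nat.card_zpowers, hyord, pow_one])
  obtain ⟨R, hR⟩ := hyp.exists_le_sylow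
  have hyR : y ∈ (R : Subgroup Δ) := hR (Subgroup.mem_zpowers y)
  have hyZ := hτ.2.1 hyk
  have hyC := hτ.2.2 hyk
  have := h r R y hyR hyord hyk hyZ hyC (mem_commutator_sylow R hyR hyC hyZ)
  rw [this, orderOf_one] at hyord
  exact hr.one_lt.ne hyord


/-- A commutator subgroup vanishes when the image of a subgroup is cyclic and the kernel central. -/
theorem eq_one_of_cyclic_image {Δ Q : Type*} [Group Δ] [Group Q] (τ : Δ →* Q)
    (hcen : τ.ker ≤ Subgroup.center Δ) {R : Subgroup Δ} (hc : IsCyclic (R.map τ)) {z : Δ}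
    (hz : z ∈ R) (hzc : (⟨z, hz⟩ : R) ∈ commutator R) : z = 1 := by
  let f := τ.subgroupMap R
  have hf : f.ker ≤ Subgroup.center R := by
    intro x hx
    have h1 : τ x = 1 := congrArg Subtype.val hx
    have h2 := hcen h1
    rw [Subgroup.mem_center_iff]
    intro g
    exact Subtype.ext (Subgroup.mem_center_iff.1 h2 g)
  have hcomm := f.isMulCommutative_of_isCyclic_of_ker_le_center hf
  have hbot : commutator R = ⊥ := by
    rw [commutator_eq_closure, Subgroup.closure_eq_bot_iff]
    rintro _ ⟨a, b, rfl⟩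
    rw [Set.mem_singleton_iff, commutatorElement_eq_one_iff_mul_comm]
    exact hcomm.is_comm.comm a b
  rw [hbot] at hzc
  exact congrArg Subtype.val (Subgroup.mem_bot.1 hzc)

/-- The part of the kernel inside a subgroup whose image has a known multiplier. -/
theorem image_local {Δ Q X₀ : Type*} [Group Δ] [Group Q] [Group X₀] [Finite X₀] (τ : Δ →* Q)
    (hcen : τ.ker ≤ Subgroup.center Δ) {R : Subgroup Δ} {A : Type*} [CommGroup A]
    (hA : Cfsg.HasSchurMultiplier X₀ A) (e : R.map τ ≃* X₀) :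
    ∃ π : A →* R, ∀ z (hz : z ∈ R), z ∈ τ.ker → (⟨z, hz⟩ : R) ∈ commutator R → (⟨z, hz⟩ : R) ∈ π.range := by
  let f : R →* X₀ := e.toMonoidHom.comp (τ.subgroupMap R)
  have hf : Function.Surjective f := e.surjective.comp (MonoidHom.subgroupMap_surjective τ R)
  have hk : ∀ x : R, f x = 1 ↔ τ x = 1 := by
    intro x
    constructor
    · intro h
      have h2 : (τ.subgroupMap R) x = 1 := e.injective (by rw [map_one]; exact h)
      exact congrArg Subtype.val h2
    · intro h
      have h2 : (τ.subgroupMap R) x = 1 := Subtype.ext h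
      show e ((τ.subgroupMap R) x) = 1
      rw [h2, map_one]
  have hfc : f.ker ≤ Subgroup.center R := by
    intro x hx
    have h1 : τ x = 1 := (hk x).1 hx
    have h2 := hcen h1
    rw [Subgroup.mem_center_iff]
    intro g
    exact Subtype.ext (Subgroup.mem_center_iff.1 h2 g)
  obtain ⟨π, hπ⟩ := image_of_mult hA f hf hfc
  exact ⟨π, fun z hz hzk hzc => hπ _ ((hk _).2 hzk) hzc⟩

/-- Reduction of the bound on the kernel: kernel of order at most two. -/
theorem ker_card_le_two {Δ Q : Type*} [Group Δ] [Finite Δ] [Group Q] [Finite Q] (τ : Δ →* Q)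
    (hτ : Cfsg.IsStemExtension τ)
    (hodd : ∀ (r : ℕ) [Fact r.Prime], r ≠ 2 → ∀ R : Sylow r Δ, IsCyclic ((R : Subgroup Δ).map τ))
    (h2 : ∀ R : Sylow 2 Δ, Nonempty (((R : Subgroup Δ).map τ) ≃* DihedralGroup 4)) :
    Nat.card τ.ker ≤ 2 := by
  classical
  haveI : Fact (Nat.Prime 2) := ⟨Nat.prime_two⟩
  -- only the prime `2` occurs
  have honly : ∀ z ∈ τ.ker, ∀ r : ℕ, r.Prime → orderOf z = r → r = 2 := by
    intro z hz r hr hord
    by_contra hr2
    haveI := Fact.mk hr
    have hzp : IsPGroup r (Subgroup.zpowers z) :=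
      IsPGroup.of_card (n := 1) (by rw [Nat.card_zpowers, hord, pow_one])
    obtain ⟨R, hR⟩ := hzp.exists_le_sylow
    have hzR : z ∈ (R : Subgroup Δ) := hR (Subgroup.mem_zpowers z)
    have h1 := mem_commutator_sylow R hzR (hτ.2.2 hz) (hτ.2.1 hz)
    have h3 := eq_one_of_cyclic_image τ hτ.2.1 (hodd r hr2 R) hzR h1
    rw [h3, orderOf_one] at hord
    exact hr.one_lt.ne hord
  have hKp : IsPGroup 2 τ.ker := by
    obtain ⟨k, hk⟩ : ∃ k, Nat.card τ.ker = 2 ^ k := by
      refine ⟨_, (Nat.eq_prime_pow_of_unique_prime_dvd (Nat.card_pos.ne') ?_)⟩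
      intro r hr hd
      haveI := Fact.mk hr
      obtain ⟨x, hx⟩ := exists_prime_orderOf_dvd_card' (G := τ.ker) r hd
      refine honly x x.2 r hr ?_
      rw [Subgroup.orderOf_coe]
      exact hx
    exact IsPGroup.of_card hk
  obtain ⟨R⟩ : Nonempty (Sylow 2 Δ) := inferInstance
  have hKR : τ.ker ≤ (R : Subgroup Δ) := by
    have h3 := IsPGroup.to_sup_of_normal_right (H := (R : Subgroup Δ)) (K := τ.ker) R.isPGroup' hKp
    have h4 := R.is_maximal' h3 le_sup_left
    rw [← h4]
    exact le_sup_right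
  obtain ⟨e⟩ := h2 R
  obtain ⟨π, hπ⟩ := image_local τ hτ.2.1 (H19.dihedral_even 4 (by decide)) e
  have hall : ∀ z : τ.ker, ∃ a, π a = ⟨z.1, hKR z.2⟩ := by
    intro z
    exact hπ z.1 (hKR z.2) z.2 (mem_commutator_sylow R (hKR z.2) (hτ.2.2 z.2) (hτ.2.1 z.2))
  choose g hg using hall
  have hinj : Function.Injective g := by
    intro x y hxy
    have h5 : π (g x) = π (g y) := by rw [hxy]
    rw [hg, hg] at h5
    exact Subtype.ext (Subtype.mk.inj h5)
  have h6 := Nat.card_le_card_of_injective g hinj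
  have h7 : Nat.card (Multiplicative (ZMod 2)) = 2 := by
    simp [Nat.card_eq_fintype_card]
  rwa [h7] at h6

end Cfsg.Agent.H09
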