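import Cfsg.Agent.Lib.H02.SL2b
import Cfsg.Agent.Lib.H14.UniqueSub
import Cfsg.Agent.Lib.H09.SchurLocal

/-! Sylow subgroups of `SL_2` for primes away from the characteristic. -/

set_option autoImplicit false
set_option linter.unusedSectionVars false
set_option linter.unusedVariables false
set_option linter.style.haveILetI false

namespace Cfsg.Agent.H09

open Matrix

section eigen

variable {K : Type*} [Field K] [IsAlgClosed K]

theorem sl2_det_entries (Z : SpecialLinearGroup (Fin 2) K) :
    Z.1 0 0 * Z.1 1 1 - Z.1 0 1 * Z.1 1 0 = 1 := by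
  have := Z.2
  rwa [Matrix.det_fin_two] at this

theorem mulVec_two (M : Matrix (Fin 2) (Fin 2) K) (x : Fin 2 → K) (i : Fin 2) :
    M.mulVec x i = M i 0 * x 0 + M i 1 * x 1 := by
  simp [Matrix.mulVec, dotProduct, Fin.sum_univ_two]

/-- A common eigenvector. -/
theorem exists_eigen (Z : SpecialLinearGroup (Fin 2) K) (hZ : Z ^ 2 ≠ 1) :
    ∃ v : Fin 2 → K, v ≠ 0 ∧ ∀ Y : SpecialLinearGroup (Fin 2) K, Y * Z = Z * Y →
      ∃ μ : K, Y.1.mulVec v = μ • v := by
  classical
  set t : K := Z.1 0 0 + Z.1 1 1 with ht
  obtain ⟨l, hl⟩ : ∃ l : K, l ^ 2 - t * l + 1 = 0 := by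
    have hdeg : (Polynomial.X ^ 2 - Polynomial.C t * Polynomial.X + 1 : Polynomial K).degree ≠ 0 := by
      have : (Polynomial.X ^ 2 - Polynomial.C t * Polynomial.X + 1 : Polynomial K).natDegree = 2 := by
        compute_degree!
      intro h
      have h2 : (Polynomial.X ^ 2 - Polynomial.C t * Polynomial.X + 1 : Polynomial K).natDegree = 0 :=
        Polynomial.natDegree_eq_of_degree_eq_some (n := 0) (by simpa using h)
      rw [this] at h2
      exact absurd h2 (by norm_num)
    obtain ⟨l, hl⟩ := IsAlgClosed.exists_root _ hdeg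
    refine ⟨l, ?_⟩
    simpa [Polynomial.IsRoot] using hl
  set a : K := Z.1 0 0 - l with ha
  set b : K := Z.1 0 1 with hb
  set c : K := Z.1 1 0 with hc
  set d : K := Z.1 1 1 - l with hd
  have hdet : a * d - b * c = 0 := by
    have h1 := sl2_det_entries Z
    rw [ha, hb, hc, hd]
    rw [ht] at hl
    linear_combination h1 + hl
  have hne : ¬ (a = 0 ∧ b = 0 ∧ c = 0 ∧ d = 0) := by
    rintro ⟨h1, h2, h3, h4⟩
    apply hZ
    have e00 : Z.1 0 0 = l := by rw [ha] at h1; linear_combination h1
    have e11 : Z.1 1 1 = l := by rw [hd] at h4; linear_combination h4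
    have hdet1 := sl2_det_entries Z
    rw [e00, e11, ← hb, ← hc, h2, h3] at hdet1
    have hl2 : l * l = 1 := by linear_combination hdet1
    apply Subtype.ext
    have hz : Z.1 = !![l, 0; 0, l] := by
      ext i j
      fin_cases i <;> fin_cases j <;> simp [e00, e11] <;> first | exact h2 | exact h3
    have e2 : (Z ^ 2).1 = Z.1 * Z.1 := by
      rw [pow_two]
      rfl
    have e3 : (1 : SpecialLinearGroup (Fin 2) K).1 = 1 := rfl
    rw [e2, e3, hz]
    ext i j
    fin_cases i <;> fin_cases j <;> simp [Matrix.mul_apply, Fin.sum_univ_two, hl2]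
  -- the kernel of the matrix is one-dimensional
  have key : ∀ x y : Fin 2 → K, a * x 0 + b * x 1 = 0 → c * x 0 + d * x 1 = 0 →
      a * y 0 + b * y 1 = 0 → c * y 0 + d * y 1 = 0 → x 0 * y 1 = x 1 * y 0 := by
    intro x y h1 h2 h3 h4
    by_cases h5 : a = 0
    · by_cases h6 : b = 0
      · by_cases h7 : c = 0
        · have h8 : d ≠ 0 := fun h8 => hne ⟨h5, h6, h7, h8⟩
          apply mul_left_cancel₀ h8
          rw [h7] at h2 h4
          linear_combination (y 1) * (-h2) * (-1) * 0 + (x 0) * (h4) - (y 0) * h2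
        · apply mul_left_cancel₀ h7
          linear_combination (y 1) * h2 - (x 1) * h4
      · apply mul_left_cancel₀ h6
        linear_combination (x 0) * h3 - (y 0) * h1
    · apply mul_left_cancel₀ h5
      linear_combination (y 1) * h1 - (x 1) * h3
  -- the eigenvector
  obtain ⟨v, hv0, hv1, hv2⟩ : ∃ v : Fin 2 → K, v ≠ 0 ∧ a * v 0 + b * v 1 = 0 ∧ c * v 0 + d * v 1 = 0 := by
    by_cases h : a = 0 ∧ b = 0
    · refine ⟨![d, -c], ?_, ?_, ?_⟩
      · intro h0
        have h1 := congrFun h0 0
        have h2 := congrFun h0 1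
        simp at h1 h2
        exact hne ⟨h.1, h.2, h2, h1⟩
      · simp [h.1, h.2]
      · simp
        ring
    · refine ⟨![b, -a], ?_, ?_, ?_⟩
      · intro h0
        have h1 := congrFun h0 0
        have h2 := congrFun h0 1
        simp at h1 h2
        exact h ⟨h2, h1⟩
      · simp
        ring
      · simp
        linear_combination -hdet
  refine ⟨v, hv0, ?_⟩
  intro Y hY
  set M : Matrix (Fin 2) (Fin 2) K := Z.1 - l • 1 with hM
  have hM00 : M 0 0 = a := by simp [hM, ha]
  have hM01 : M 0 1 = b := by simp [hM, hb]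
  have hM10 : M 1 0 = c := by simp [hM, hc]
  have hM11 : M 1 1 = d := by simp [hM, hd]
  have hMv : M.mulVec v = 0 := by
    ext i
    rw [mulVec_two]
    fin_cases i
    · simpa [hM00, hM01] using hv1
    · simpa [hM10, hM11] using hv2
  have hcomm : M * Y.1 = Y.1 * M := by
    have h0 : Z.1 * Y.1 = Y.1 * Z.1 := by
      have := congrArg Subtype.val hY
      exact this.symm
    rw [hM, sub_mul, mul_sub, h0]
    simp
  set w : Fin 2 → K := Y.1.mulVec v with hw
  have hMw : M.mulVec w = 0 := by
    rw [hw, Matrix.mulVec_mulVec, hcomm, ← Matrix.mulVec_mulVec, hMv, Matrix.mulVec_zero]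
  have hw1 : a * w 0 + b * w 1 = 0 := by
    have := congrFun hMw 0
    rw [mulVec_two, hM00, hM01] at this
    exact this
  have hw2 : c * w 0 + d * w 1 = 0 := by
    have := congrFun hMw 1
    rw [mulVec_two, hM10, hM11] at this
    exact this
  have hprop := key v w hv1 hv2 hw1 hw2
  by_cases h0 : v 0 = 0
  · have h1 : v 1 ≠ 0 := by
      intro h1
      apply hv0
      ext i
      fin_cases i
      · exact h0
      · exact h1
    refine ⟨w 1 / v 1, ?_⟩
    ext i
    fin_cases i
    · have h2 : w 0 = 0 := by
        rw [h0, zero_mul] at hprop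
        exact (mul_eq_zero.1 hprop.symm).resolve_left h1
      simp [h0, h2]
    · simp
      field_simp
  · refine ⟨w 0 / v 0, ?_⟩
    ext i
    fin_cases i
    · simp
      field_simp
    · simp
      field_simp
      linear_combination hprop

end eigen

section main

variable {K : Type*} [Field K] [IsAlgClosed K]

theorem isCyclic_of_odd_pgroup {I : Type*} [Group I] [Finite I]
    (ι : I →* SpecialLinearGroup (Fin 2) K) (hι : Function.Injective ι) {r p : ℕ} [hr : Fact r.Prime]
    [hp : Fact p.Prime] [CharP K p] (hr2 : r ≠ 2) (hrp : r ≠ p) (hI : IsPGroup r I) : IsCyclic I := by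
  classical
  by_cases hsub : Subsingleton I
  · exact isCyclic_of_subsingleton
  rw [not_subsingleton_iff_nontrivial] at hsub
  haveI := hI.center_nontrivial
  obtain ⟨z, hz⟩ := exists_ne (1 : Subgroup.center I)
  have hz1 : (z : I) ≠ 1 := fun h => hz (Subtype.ext h)
  have hZ : (ι z) ^ 2 ≠ 1 := by
    intro h
    have h1 : (z : I) ^ 2 = 1 := hι (by rw [map_pow, h, map_one])
    obtain ⟨k, hk⟩ := hI z
    have h2 : (z : I) ^ r ^ k = 1 := by
      have := hk
      simpa using this
    have h3 := orderOf_dvd_of_pow_eq_one h1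
    have h4 := orderOf_dvd_of_pow_eq_one h2
    have hcop : Nat.Coprime 2 (r ^ k) := by
      apply Nat.Coprime.pow_right
      exact (Nat.coprime_primes Nat.prime_two hr.out).2 (Ne.symm hr2)
    have h5 := Nat.eq_one_of_dvd_coprimes hcop h3 h4
    exact hz1 (orderOf_eq_one_iff.1 h5)
  obtain ⟨v, hv, hmain⟩ := exists_eigen (ι z) hZ
  have hcomm : ∀ y : I, ι y * ι z = ι z * ι y := by
    intro y
    rw [← map_mul, ← map_mul, (Subgroup.mem_center_iff.1 z.2 y)]
  choose μ hμ using fun y : I => hmain (ι y) (hcomm y)
  have hcancel : ∀ s t : K, s • v = t • v → s = t := by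
    intro s t h
    exact smul_left_injective K hv h
  have hmul : ∀ x y : I, μ (x * y) = μ x * μ y := by
    intro x y
    apply hcancel
    have e : (ι x * ι y).1 = (ι x).1 * (ι y).1 := rfl
    rw [← hμ, map_mul, e, ← Matrix.mulVec_mulVec, hμ y,
      Matrix.mulVec_smul, hμ x, smul_smul, mul_comm]
  have hone : μ 1 = 1 := by
    apply hcancel
    rw [← hμ, map_one, one_smul]
    simp
  let f : I →* K :=
    { toFun := μ
      map_one' := hone
      map_mul' := hmul }
  have hinj : Function.Injective f := by
    intro x y hxy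
    have h1 : μ (x⁻¹ * y) = 1 := by
      rw [hmul]
      have : μ y = μ x := hxy.symm
      rw [this, ← hmul, inv_mul_cancel, hone]
    have h2 := hμ (x⁻¹ * y)
    rw [h1, one_smul] at h2
    have hdet : Matrix.det (((ι (x⁻¹ * y) : SpecialLinearGroup (Fin 2) K) : Matrix (Fin 2) (Fin 2) K) - 1) = 0 := by
      rw [← Matrix.exists_mulVec_eq_zero_iff]
      refine ⟨v, hv, ?_⟩
      rw [Matrix.sub_mulVec, h2, Matrix.one_mulVec, sub_self]
    by_contra hne
    have hne2 : ι (x⁻¹ * y) ≠ 1 := by
      intro h
      have := hι (h.trans (map_one ι).symm)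
      exact hne (by rwa [inv_mul_eq_one] at this)
    have hm : (ι (x⁻¹ * y)) ^ (Nat.card I) = 1 := by
      rw [← map_pow, pow_card_eq_one', map_one]
    obtain ⟨k, hk⟩ := IsPGroup.iff_card.1 hI
    have hc : (Nat.card I).Coprime p := by
      rw [hk]
      apply Nat.Coprime.pow_left
      exact (Nat.coprime_primes hr.out hp.out).2 hrp
    exact Cfsg.Agent.H02.sl2_det_sub_one_ne_zero p _ hne2 _ hm hc hdet
  exact isCyclic_of_subgroup_isDomain f hinj

end main


section local_part

variable {F : Type*} [Field F] [Finite F] {p : ℕ} [hp : Fact p.Prime] [CharP F p]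

/-- The image of a central extension on a subgroup of order prime to the characteristic has trivial
multiplier. -/
theorem sl2_local_one {Δ : Type*} [Group Δ] (τ : Δ →* SpecialLinearGroup (Fin 2) F)
    (hcen : τ.ker ≤ Subgroup.center Δ) {r : ℕ} [hr : Fact r.Prime] (hrp : r ≠ p) {R : Subgroup Δ}
    (hR : IsPGroup r R) {z : Δ} (hz : z ∈ R) (hzk : z ∈ τ.ker)
    (hzc : (⟨z, hz⟩ : R) ∈ commutator R) : z = 1 := by
  classical
  haveI : Finite (SpecialLinearGroup (Fin 2) F) := by
    haveI := Fintype.ofFinite F
    infer_instance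
  have hP : IsPGroup r (R.map τ) := hR.map τ
  by_cases hr2 : r = 2
  · subst hr2
    have h2 : (2 : F) ≠ 0 := by
      intro h
      have h3 : ((2 : ℕ) : F) = 0 := by exact_mod_cast h
      rw [CharP.cast_eq_zero_iff F p] at h3
      have := (Nat.prime_dvd_prime_iff_eq hp.out Nat.prime_two).1 h3
      exact hrp this.symm
    have hu : H14.UniqueP 2 (R.map τ) := by
      intro x y hx hy
      have hx2 : (x : SpecialLinearGroup (Fin 2) F) ^ 2 = 1 := by
        have := pow_orderOf_eq_one x
        rw [hx] at this
        exact congrArg Subtype.val this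
      have hy2 : (y : SpecialLinearGroup (Fin 2) F) ^ 2 = 1 := by
        have := pow_orderOf_eq_one y
        rw [hy] at this
        exact congrArg Subtype.val this
      have hx1 : (x : SpecialLinearGroup (Fin 2) F) ≠ 1 := by
        intro h
        have h3 : x = 1 := Subtype.ext h
        rw [h3, orderOf_one] at hx
        omega
      have hy1 : (y : SpecialLinearGroup (Fin 2) F) ≠ 1 := by
        intro h
        have h3 : y = 1 := Subtype.ext h
        rw [h3, orderOf_one] at hy
        omega
      have h3 := H02.sl2_involution_unique h2 _ _ hx2 hy2 hx1 hy1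
      have h4 : x = y := Subtype.ext h3
      rw [← h4]
      exact Subgroup.mem_zpowers x
    rcases H14.isCyclic_or_quaternion hP hu with hc | ⟨-, k, -, ⟨e⟩⟩
    · exact eq_one_of_cyclic_image τ hcen hc hz hzc
    · haveI : NeZero (2 ^ k) := ⟨by positivity⟩
      obtain ⟨π, hπ⟩ := image_local τ hcen (H19.quaternion_trivial (2 ^ k)) e
      obtain ⟨a, ha⟩ := hπ z hz hzk hzc
      have h1 : a = 1 := by
        haveI hU : Unique (Multiplicative (ZMod 1)) := inferInstanceAs (Unique (ZMod 1))
        exact Subsingleton.elim _ _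
      rw [h1, map_one] at ha
      exact (congrArg Subtype.val ha).symm
  · let K := AlgebraicClosure F
    let ι : (R.map τ) →* SpecialLinearGroup (Fin 2) K :=
      (SpecialLinearGroup.map (algebraMap F K)).comp (R.map τ).subtype
    have hι : Function.Injective ι := by
      intro x y hxy
      apply Subtype.ext
      apply Subtype.ext
      ext i j
      have h1 := congrFun (congrFun (congrArg Subtype.val hxy) i) j
      exact (algebraMap F K).injective h1
    haveI : CharP K p := charP_of_injective_algebraMap (algebraMap F K).injective p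
    exact eq_one_of_cyclic_image τ hcen (isCyclic_of_odd_pgroup (p := p) ι hι hr2 hrp hP) hz hzc

end local_part

end Cfsg.Agent.H09
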