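import Cfsg.Agent.Lib.H09.SL2Cyc
import Cfsg.Agent.Lib.H10.CardSL
import Cfsg.Agent.Lib.H19.SchurProd

/-! The commutator form on the preimage of the unipotent subgroup of `SL_2`. -/

set_option autoImplicit false
set_option linter.unusedSectionVars false
set_option linter.unusedVariables false
set_option linter.style.haveILetI false

namespace Cfsg.Agent.H09

open Matrix
open scoped commutatorElement

section abstract

variable {F : Type*} [Field F] {Z : Type*} [CommGroup Z] {c : F → F → Z}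

theorem form_zero_left (hl : ∀ x x' y, c (x + x') y = c x y * c x' y) (y : F) : c 0 y = 1 := by
  have := hl 0 0 y
  rw [add_zero] at this
  exact (mul_eq_left.1 this.symm)

theorem form_zero_right (hr : ∀ x y y', c x (y + y') = c x y * c x y') (x : F) : c x 0 = 1 := by
  have := hr x 0 0
  rw [add_zero] at this
  exact (mul_eq_left.1 this.symm)

theorem form_trivial (hl : ∀ x x' y, c (x + x') y = c x y * c x' y)
    (hr : ∀ x y y', c x (y + y') = c x y * c x y')
    (hinv : ∀ s x y, s ≠ 0 → c (s ^ 2 * x) (s ^ 2 * y) = c x y)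
    {u v : F} (hu : u ≠ 0) (hv : v ≠ 0) (huv : 1 + u ^ 2 = v ^ 2) (hw : 1 + u ^ 2 + (u ^ 2)⁻¹ ≠ 0) :
    ∀ x y, c x y = 1 := by
  intro x y₀
  set w : F := 1 + u ^ 2 + (u ^ 2)⁻¹ with hwdef
  have hu2 : u ^ 2 ≠ 0 := pow_ne_zero 2 hu
  have key : ∀ y, c x (w * y) = 1 := by
    intro y
    have h1 : c x y = c (v ^ 2 * x) (v ^ 2 * y) := (hinv v x y hv).symm
    have h2 : v ^ 2 * x = x + u ^ 2 * x := by rw [← huv]; ring
    have h3 : v ^ 2 * y = y + u ^ 2 * y := by rw [← huv]; ring
    rw [h2, h3, hl, hr, hr] at h1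
    have h4 : c (u ^ 2 * x) (u ^ 2 * y) = c x y := hinv u x y hu
    have h5 : c (u ^ 2 * x) y = c x ((u ^ 2)⁻¹ * y) := by
      have := hinv u x ((u ^ 2)⁻¹ * y) hu
      rw [← this]
      congr 1
      field_simp
    rw [h4, h5] at h1
    have h6 : w * y = y + u ^ 2 * y + (u ^ 2)⁻¹ * y := by
      rw [hwdef]
      ring
    rw [h6, hr, hr]
    have h7 : c x y * (c x (u ^ 2 * y) * (c x ((u ^ 2)⁻¹ * y) * c x y)) = c x y * 1 := by
      rw [mul_one]
      rw [mul_assoc] at h1
      exact h1.symm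
    have h8 := mul_left_cancel h7
    rw [← h8]
    rw [mul_comm (c x ((u ^ 2)⁻¹ * y)) (c x y)]
    simp only [mul_assoc, mul_left_comm, mul_comm]
  have := key (w⁻¹ * y₀)
  rwa [mul_inv_cancel_left₀ hw] at this

theorem form_trivial_prime (hl : ∀ x x' y, c (x + x') y = c x y * c x' y)
    (hr : ∀ x y y', c x (y + y') = c x y * c x y') (h11 : c 1 1 = 1)
    (hp : ∀ x : F, ∃ k : ℕ, x = k) : ∀ x y, c x y = 1 := by
  have h1 : ∀ (n : ℕ) y, c (n : F) y = c 1 y ^ n := by
    intro n y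
    induction n with
    | zero => simpa using form_zero_left hl y
    | succ n ih =>
      rw [Nat.cast_succ, hl, ih, pow_succ]
  have h2 : ∀ (m : ℕ) x, c x (m : F) = c x 1 ^ m := by
    intro m x
    induction m with
    | zero => simpa using form_zero_right hr x
    | succ m ih =>
      rw [Nat.cast_succ, hr, ih, pow_succ]
  intro x y
  obtain ⟨a, rfl⟩ := hp x
  obtain ⟨b, rfl⟩ := hp y
  rw [h1, h2, h11]
  simp

end abstract

section group

variable {F : Type*} [Field F]

/-- unipotent element -/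
def up₂ (x : F) : SpecialLinearGroup (Fin 2) F := ⟨!![1, x; 0, 1], by simp [det_fin_two]⟩

/-- diagonal element -/
noncomputable def dg₂ (s : F) (hs : s ≠ 0) : SpecialLinearGroup (Fin 2) F :=
  ⟨!![s, 0; 0, s⁻¹], by simp [det_fin_two, hs]⟩

theorem up₂_add (x y : F) : up₂ x * up₂ y = up₂ (x + y) := by
  apply Subtype.ext
  show !![1, x; 0, 1] * !![1, y; 0, 1] = !![1, x + y; 0, 1]
  simp [Matrix.mul_fin_two, add_comm]

theorem dg₂_up₂ (s : F) (hs : s ≠ 0) (x : F) : dg₂ s hs * up₂ x * (dg₂ s hs)⁻¹ = up₂ (s ^ 2 * x) := by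
  rw [mul_inv_eq_iff_eq_mul]
  apply Subtype.ext
  show !![s, 0; 0, s⁻¹] * !![1, x; 0, 1] = !![1, s ^ 2 * x; 0, 1] * !![s, 0; 0, s⁻¹]
  simp only [Matrix.mul_fin_two]
  congr 1
  simp
  field_simp

/-- The condition on the field. -/
def FormCond (F : Type*) [Field F] : Prop :=
  (∃ u v : F, u ≠ 0 ∧ v ≠ 0 ∧ 1 + u ^ 2 = v ^ 2 ∧ 1 + u ^ 2 + (u ^ 2)⁻¹ ≠ 0) ∨ ∀ x : F, ∃ k : ℕ, x = k

theorem lifts_commute {Δ : Type*} [Group Δ] (τ : Δ →* SpecialLinearGroup (Fin 2) F)
    (hs : Function.Surjective τ) (hcen : τ.ker ≤ Subgroup.center Δ) (hC : FormCond F) {a b : Δ} {x y : F}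
    (ha : τ a = up₂ x) (hb : τ b = up₂ y) : a * b = b * a := by
  classical
  choose X hX using fun x : F => hs (up₂ x)
  have hker : ∀ x y, ⁅X x, X y⁆ ∈ τ.ker := by
    intro x y
    rw [MonoidHom.mem_ker, map_commutatorElement, hX, hX, commutatorElement_eq_one_iff_mul_comm,
      up₂_add, up₂_add, add_comm]
  have hcc : ∀ x y g, g * ⁅X x, X y⁆ = ⁅X x, X y⁆ * g := fun x y g =>
    Subgroup.mem_center_iff.1 (hcen (hker x y)) g
  have hwd : ∀ a b x y, τ a = up₂ x → τ b = up₂ y → ⁅a, b⁆ = ⁅X x, X y⁆ := by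
    intro a b x y ha hb
    have h1 : (X x)⁻¹ * a ∈ τ.ker := by
      rw [MonoidHom.mem_ker, map_mul, map_inv, hX, ha, inv_mul_cancel]
    have h2 : (X y)⁻¹ * b ∈ τ.ker := by
      rw [MonoidHom.mem_ker, map_mul, map_inv, hX, hb, inv_mul_cancel]
    have h3 : a = X x * ((X x)⁻¹ * a) := by group
    have h4 : b = X y * ((X y)⁻¹ * b) := by group
    rw [h3, h4, H19.Hopf.comm_mul_central_left (Subgroup.mem_center_iff.1 (hcen h1)),
      H19.Hopf.comm_mul_central_right (Subgroup.mem_center_iff.1 (hcen h2))]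
  letI : CommGroup (Subgroup.center Δ) :=
    { (inferInstance : Group (Subgroup.center Δ)) with
      mul_comm := fun a b => Subtype.ext (Subgroup.mem_center_iff.1 b.2 a.1) }
  let c : F → F → Subgroup.center Δ := fun x y => ⟨⁅X x, X y⁆, hcen (hker x y)⟩
  have hl : ∀ x x' y, c (x + x') y = c x y * c x' y := by
    intro x x' y
    apply Subtype.ext
    show ⁅X (x + x'), X y⁆ = ⁅X x, X y⁆ * ⁅X x', X y⁆
    rw [← hwd (X x * X x') (X y) (x + x') y (by rw [map_mul, hX, hX, up₂_add]) (hX y)]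
    exact H19.comm_mul_left_of_central _ _ _ (hcc x' y)
  have hr : ∀ x y y', c x (y + y') = c x y * c x y' := by
    intro x y y'
    apply Subtype.ext
    show ⁅X x, X (y + y')⁆ = ⁅X x, X y⁆ * ⁅X x, X y'⁆
    rw [← hwd (X x) (X y * X y') x (y + y') (hX x) (by rw [map_mul, hX, hX, up₂_add])]
    exact H19.comm_mul_right_of_central _ _ _ (hcc x y')
  have hinv : ∀ s x y, s ≠ 0 → c (s ^ 2 * x) (s ^ 2 * y) = c x y := by
    intro s x y hs0
    apply Subtype.ext
    show ⁅X (s ^ 2 * x), X (s ^ 2 * y)⁆ = ⁅X x, X y⁆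
    obtain ⟨h, hh⟩ := hs (dg₂ s hs0)
    rw [← hwd (h * X x * h⁻¹) (h * X y * h⁻¹) (s ^ 2 * x) (s ^ 2 * y)
      (by rw [map_mul, map_mul, map_inv, hh, hX, dg₂_up₂])
      (by rw [map_mul, map_mul, map_inv, hh, hX, dg₂_up₂]), ← conjugate_commutatorElement, hcc]
    group
  have hc1 : ∀ x y, c x y = 1 := by
    rcases hC with ⟨u, v, hu, hv, huv, hw⟩ | hp
    · exact form_trivial hl hr hinv hu hv huv hw
    · refine form_trivial_prime hl hr ?_ hp
      apply Subtype.ext
      show ⁅X 1, X 1⁆ = 1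
      exact commutatorElement_self _
  have h1 := hwd a b x y ha hb
  have h2 : ⁅X x, X y⁆ = 1 := congrArg Subtype.val (hc1 x y)
  rw [h2] at h1
  exact commutatorElement_eq_one_iff_mul_comm.1 h1

end group

section cond

variable {F : Type*} [Field F] [Fintype F]

theorem formCond_two (h2 : (2 : F) = 0) (hq : 4 < Fintype.card F) : FormCond F := by
  left
  classical
  let P : Polynomial F := Polynomial.X * (Polynomial.X + 1) * (Polynomial.X ^ 2 + Polynomial.X + 1)
  have hdeg : P.natDegree = 4 := by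
    simp only [P]
    compute_degree!
  have hne : P ≠ 0 := Polynomial.ne_zero_of_natDegree_gt (n := 0) (by omega)
  have hlt : P.natDegree < Fintype.card F := by omega
  obtain ⟨u, hu⟩ := Polynomial.exists_eval_ne_zero_of_natDegree_lt_card P hne (by simpa using hlt)
  simp only [P, Polynomial.eval_mul, Polynomial.eval_add, Polynomial.eval_X, Polynomial.eval_one,
    Polynomial.eval_pow] at hu
  have hu0 : u ≠ 0 := fun h => hu (by simp [h])
  have hu1 : u + 1 ≠ 0 := fun h => hu (by simp [h])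
  have hu2 : u ^ 2 + u + 1 ≠ 0 := fun h => hu (by simp [h])
  refine ⟨u, u + 1, hu0, hu1, ?_, ?_⟩
  · linear_combination (-u) * h2
  · have hu3 : u ^ 2 ≠ 0 := pow_ne_zero 2 hu0
    intro h
    apply hu2
    have h3 : (u ^ 2 + u + 1) ^ 2 = 0 := by
      have h4 : (1 + u ^ 2 + (u ^ 2)⁻¹) * u ^ 2 = u ^ 2 + u ^ 4 + 1 := by
        field_simp
      rw [h, zero_mul] at h4
      linear_combination (-1) * h4 + (u ^ 3 + u ^ 2 + u) * h2
    exact pow_eq_zero_iff (by norm_num) |>.1 h3

theorem formCond_odd (h2 : (2 : F) ≠ 0) (hq : 13 < Fintype.card F) : FormCond F := by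
  left
  classical
  let P : Polynomial F := Polynomial.X * (Polynomial.X ^ 2 - 1) * (Polynomial.X ^ 2 + 1) *
    (Polynomial.X ^ 8 + 14 * Polynomial.X ^ 4 + 1)
  have hdeg : P.natDegree = 13 := by
    simp only [P]
    compute_degree!
  have hne : P ≠ 0 := Polynomial.ne_zero_of_natDegree_gt (n := 0) (by omega)
  have hlt : P.natDegree < Fintype.card F := by omega
  obtain ⟨m, hm⟩ := Polynomial.exists_eval_ne_zero_of_natDegree_lt_card P hne (by simpa using hlt)
  simp only [P, Polynomial.eval_mul, Polynomial.eval_add, Polynomial.eval_X, Polynomial.eval_one,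
    Polynomial.eval_pow, Polynomial.eval_sub, Polynomial.eval_ofNat] at hm
  have h0 : m ≠ 0 := fun h => hm (by simp [h])
  have h1 : m ^ 2 - 1 ≠ 0 := fun h => hm (by simp [h])
  have h3 : m ^ 2 + 1 ≠ 0 := fun h => hm (by simp [h])
  have h4 : m ^ 8 + 14 * m ^ 4 + 1 ≠ 0 := fun h => hm (by simp [h])
  have h5 : 1 - m ^ 2 ≠ 0 := fun h => h1 (by linear_combination -h)
  refine ⟨2 * m / (1 - m ^ 2), (1 + m ^ 2) / (1 - m ^ 2), ?_, ?_, ?_, ?_⟩
  · exact div_ne_zero (mul_ne_zero h2 h0) h5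
  · refine div_ne_zero ?_ h5
    rwa [add_comm]
  · field_simp
    ring
  · have h6 : 2 * m ≠ 0 := mul_ne_zero h2 h0
    have e : 1 + (2 * m / (1 - m ^ 2)) ^ 2 + ((2 * m / (1 - m ^ 2)) ^ 2)⁻¹ =
        (m ^ 8 + 14 * m ^ 4 + 1) / ((2 * m) ^ 2 * (1 - m ^ 2) ^ 2) := by
      field_simp
      ring
    rw [e]
    exact div_ne_zero h4 (mul_ne_zero (pow_ne_zero 2 h6) (pow_ne_zero 2 h5))

theorem formCond_of_card (h4 : Fintype.card F ≠ 4) (h9 : Fintype.card F ≠ 9) : FormCond F := by
  classical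
  obtain ⟨n, hp, hq⟩ := FiniteField.card F (ringChar F)
  set p := ringChar F with hpdef
  haveI : CharP F p := ringChar.charP F
  haveI : Fact p.Prime := ⟨hp⟩
  rcases Nat.eq_or_lt_of_le (Nat.succ_le_of_lt n.pos) with h1 | h1
  · -- prime field
    right
    have hn1 : (n : ℕ) = 1 := h1.symm
    rw [hn1, pow_one] at hq
    let f : ZMod p →+* F := ZMod.castHom (dvd_refl p) F
    have hf : Function.Bijective f := by
      refine (Fintype.bijective_iff_injective_and_card f).2 ⟨f.injective, ?_⟩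
      rw [ZMod.card, hq]
    intro x
    obtain ⟨a, rfl⟩ := hf.2 x
    refine ⟨a.val, ?_⟩
    conv_lhs => rw [← ZMod.natCast_zmod_val a]
    rw [map_natCast]
  · have hn2 : 2 ≤ (n : ℕ) := h1
    by_cases hp2 : p = 2
    · apply formCond_two
      · have : ((2 : ℕ) : F) = 0 := by
          rw [← hp2]
          exact CharP.cast_eq_zero F p
        exact_mod_cast this
      · rw [hq, hp2]
        rw [hq, hp2] at h4
        have hn3 : (n : ℕ) ≠ 2 := fun h => h4 (by rw [h]; norm_num)
        have hn4 : 3 ≤ (n : ℕ) := by omega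
        calc 4 < 2 ^ 3 := by norm_num
          _ ≤ 2 ^ (n : ℕ) := Nat.pow_le_pow_right (by norm_num) hn4
    · apply formCond_odd
      · intro h
        have h3 : ((2 : ℕ) : F) = 0 := by exact_mod_cast h
        rw [CharP.cast_eq_zero_iff F p] at h3
        exact hp2 ((Nat.prime_dvd_prime_iff_eq hp Nat.prime_two).1 h3)
      · rw [hq]
        rw [hq] at h9
        have hp3 : 3 ≤ p := by
          have := hp.two_le
          omega
        by_cases hp33 : p = 3
        · rw [hp33] at h9 ⊢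
          have hn3 : (n : ℕ) ≠ 2 := fun h => h9 (by rw [h]; norm_num)
          have hn4 : 3 ≤ (n : ℕ) := by omega
          calc 13 < 3 ^ 3 := by norm_num
            _ ≤ 3 ^ (n : ℕ) := Nat.pow_le_pow_right (by norm_num) hn4
        · have hp5 : 5 ≤ p := by
            by_contra h
            have : p = 4 := by omega
            rw [this] at hp
            exact absurd hp (by norm_num)
          calc 13 < 5 ^ 2 := by norm_num
            _ ≤ p ^ 2 := Nat.pow_le_pow_left hp5 2
            _ ≤ p ^ (n : ℕ) := Nat.pow_le_pow_right (by omega) hn2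

end cond

end Cfsg.Agent.H09
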