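import Cfsg.Agent.Lib.H09.SL2Form

/-! The Schur multiplier of `SL_2(q)`, `q ≠ 4, 9`. -/

set_option autoImplicit false
set_option linter.unusedSectionVars false
set_option linter.unusedVariables false
set_option linter.style.haveILetI false

namespace Cfsg.Agent.H09

open Matrix

variable {F : Type*} [Field F] [Fintype F]

/-- The unipotent subgroup. -/
def upHom (F : Type*) [Field F] : Multiplicative F →* SpecialLinearGroup (Fin 2) F where
  toFun x := up₂ (Multiplicative.toAdd x)
  map_one' := by
    apply Subtype.ext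
    show !![1, (0 : F); 0, 1] = 1
    ext i j
    fin_cases i <;> fin_cases j <;> simp
  map_mul' x y := (up₂_add _ _).symm

theorem upHom_injective : Function.Injective (upHom F) := by
  intro x y h
  have h1 := congrFun (congrFun (congrArg Subtype.val h) 0) 1
  exact h1

theorem index_up : (upHom F).range.index = Fintype.card F ^ 2 - 1 := by
  have h1 : Nat.card (upHom F).range = Fintype.card F := by
    rw [← Nat.card_congr (MonoidHom.ofInjective (upHom_injective (F := F))).toEquiv]
    simp [Nat.card_eq_fintype_card]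
  have h2 := Subgroup.card_mul_index (upHom F).range
  rw [h1, H10.card_SL_two] at h2
  exact Nat.eq_of_mul_eq_mul_left Fintype.card_pos h2

/-- The part of the kernel at the characteristic vanishes. -/
theorem sl2_p_part {Δ : Type*} [Group Δ] [Finite Δ] (τ : Δ →* SpecialLinearGroup (Fin 2) F)
    (hτ : Cfsg.IsStemExtension τ) (hC : FormCond F) {p : ℕ} [hp : Fact p.Prime] [CharP F p] {z : Δ}
    (hz : z ∈ τ.ker) (hord : orderOf z = p) : False := by
  classical
  set U : Subgroup Δ := (upHom F).range.comap τ with hU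
  have hcomm : ∀ a b : U, a * b = b * a := by
    rintro ⟨a, ha⟩ ⟨b, hb⟩
    obtain ⟨x, hx⟩ := ha
    obtain ⟨y, hy⟩ := hb
    exact Subtype.ext (lifts_commute τ hτ.1 hτ.2.1 hC hx.symm hy.symm)
  obtain ⟨h, h1⟩ := transfer_central U (hτ.2.2 hz) (hτ.2.1 hz)
  have hbot : commutator U = ⊥ := by
    rw [commutator_eq_closure, Subgroup.closure_eq_bot_iff]
    rintro _ ⟨a, b, rfl⟩
    rw [Set.mem_singleton_iff, commutatorElement_eq_one_iff_mul_comm]
    exact hcomm a b
  rw [hbot, Subgroup.mem_bot] at h1
  have h2 : z ^ U.index = 1 := congrArg Subtype.val h1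
  have h3 : U.index = Fintype.card F ^ 2 - 1 := by
    rw [hU, Subgroup.index_comap_of_surjective _ hτ.1, index_up]
  have h4 : p ∣ Fintype.card F ^ 2 - 1 := by
    rw [← h3, ← hord]
    exact orderOf_dvd_of_pow_eq_one h2
  have h5 : p ∣ Fintype.card F := by
    have := Nat.cast_card_eq_zero F
    exact (CharP.cast_eq_zero_iff F p _).1 this
  have h6 : p ∣ Fintype.card F ^ 2 := h5.trans (dvd_pow_self _ (by norm_num))
  have hq : 1 ≤ Fintype.card F ^ 2 := Nat.one_le_pow _ _ Fintype.card_pos
  have h7 : p ∣ 1 := by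
    have := (Nat.dvd_sub h6 h4)
    have e : Fintype.card F ^ 2 - (Fintype.card F ^ 2 - 1) = 1 := by omega
    rwa [e] at this
  exact hp.out.one_lt.ne' (Nat.dvd_one.1 h7)

/-- The multiplier of `SL_2(q)` is trivial for `q ≠ 4, 9`. -/
theorem sl2_multiplier (h4 : Fintype.card F ≠ 4) (h9 : Fintype.card F ≠ 9) :
    Cfsg.HasCyclicSchurMultiplier (SpecialLinearGroup (Fin 2) F) 1 := by
  classical
  have hC := formCond_of_card (F := F) h4 h9
  obtain ⟨n, hp, hq⟩ := FiniteField.card F (ringChar F)
  set p := ringChar F with hpdef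
  haveI : CharP F p := ringChar.charP F
  haveI : Fact p.Prime := ⟨hp⟩
  rw [H19.Hopf.hasCyclic_one_iff]
  intro Δ _ _ τ hτ
  refine ker_eq_bot_of_local τ hτ ?_
  intro r hr R z hzR hord hzk hzZ hzC hzc
  by_cases hrp : r = p
  · subst hrp
    exact (sl2_p_part τ hτ hC hzk hord).elim
  · exact sl2_local_one τ hτ.2.1 hrp R.isPGroup' hzR hzk hzc

end Cfsg.Agent.H09
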