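import Cfsg.Agent.Lib.H09.SchurLocal

/-! Local analysis of stem extensions: a semidihedral subgroup of order 16 and an elementary abelian
subgroup of order 9 with an inverting element. -/

set_option autoImplicit false
set_option linter.unusedSectionVars false
set_option linter.unusedVariables false
set_option linter.style.haveILetI false

namespace Cfsg.Agent.H09

open scoped commutatorElement
open Cfsg.Agent.H19

/-- The order of a metacyclic subgroup with two generators. -/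
theorem card_closure_pair {Q : Type*} [Group Q] [Finite Q] (x y : Q) (m e : ℕ) (hm0 : 0 < m)
    (hm : y ^ m = 1) (hrel : y * x * y⁻¹ = x ^ e)
    (hdis : ∀ j, 0 < j → j < m → y ^ j ∉ Subgroup.zpowers x) :
    Nat.card (Subgroup.closure ({x, y} : Set Q)) = orderOf x * m := by
  classical
  have hn : 0 < orderOf x := orderOf_pos x
  let f : Fin (orderOf x) × Fin m → Q := fun p => x ^ (p.1 : ℕ) * y ^ (p.2 : ℕ)
  have hconj : ∀ i : ℕ, y * x ^ i = x ^ (e * i) * y := by
    intro i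
    have h1 : y * x ^ i * y⁻¹ = (y * x * y⁻¹) ^ i := (conj_pow).symm
    rw [hrel, ← pow_mul] at h1
    rw [← h1]
    group
  -- the normal form set
  have hP : ∀ g ∈ Subgroup.closure ({x, y} : Set Q), ∃ i j : ℕ, g = x ^ i * y ^ j := by
    intro g hg
    have stepx : ∀ (k : ℕ) (u : Q), (∃ i j : ℕ, u = x ^ i * y ^ j) → ∃ i j : ℕ, x ^ k * u = x ^ i * y ^ j := by
      rintro k u ⟨i, j, rfl⟩
      exact ⟨k + i, j, by rw [pow_add, mul_assoc]⟩
    have stepy1 : ∀ (u : Q), (∃ i j : ℕ, u = x ^ i * y ^ j) → ∃ i j : ℕ, y * u = x ^ i * y ^ j := by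
      rintro u ⟨i, j, rfl⟩
      refine ⟨e * i, j + 1, ?_⟩
      rw [← mul_assoc, hconj, pow_succ', mul_assoc]
    have stepy : ∀ (k : ℕ) (u : Q), (∃ i j : ℕ, u = x ^ i * y ^ j) → ∃ i j : ℕ, y ^ k * u = x ^ i * y ^ j := by
      intro k
      induction k with
      | zero => intro u hu; simpa using hu
      | succ k ih =>
        intro u hu
        rw [pow_succ', mul_assoc]
        exact stepy1 _ (ih u hu)
    have hxi : x⁻¹ = x ^ (orderOf x - 1) := by
      apply inv_eq_of_mul_eq_one_right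
      rw [← pow_succ', Nat.sub_add_cancel hn, pow_orderOf_eq_one]
    have hyi : y⁻¹ = y ^ (m - 1) := by
      apply inv_eq_of_mul_eq_one_right
      rw [← pow_succ', Nat.sub_add_cancel hm0, hm]
    induction hg using Subgroup.closure_induction_left with
    | one => exact ⟨0, 0, by simp⟩
    | mul_left a ha b _ hb =>
      rcases ha with rfl | ha
      · have := stepx 1 b hb
        simpa using this
      · rw [Set.mem_singleton_iff] at ha
        subst ha
        exact stepy1 b hb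
    | inv_mul_cancel a ha b _ hb =>
      rcases ha with rfl | ha
      · rw [hxi]
        exact stepx _ b hb
      · rw [Set.mem_singleton_iff] at ha
        subst ha
        rw [hyi]
        exact stepy _ b hb
  have hrange : ((Subgroup.closure ({x, y} : Set Q) : Subgroup Q) : Set Q) = Set.range f := by
    ext g
    constructor
    · intro hg
      obtain ⟨i, j, rfl⟩ := hP g hg
      refine ⟨(⟨i % orderOf x, Nat.mod_lt _ hn⟩, ⟨j % m, Nat.mod_lt _ hm0⟩), ?_⟩
      show x ^ (i % orderOf x) * y ^ (j % m) = x ^ i * y ^ j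
      rw [pow_mod_orderOf, ← pow_eq_pow_mod j hm]
    · rintro ⟨p, rfl⟩
      have hx : x ∈ Subgroup.closure ({x, y} : Set Q) := Subgroup.subset_closure (by simp)
      have hy : y ∈ Subgroup.closure ({x, y} : Set Q) := Subgroup.subset_closure (by simp)
      exact Subgroup.mul_mem _ (Subgroup.pow_mem _ hx _) (Subgroup.pow_mem _ hy _)
  have hlt : ∀ i k j l : ℕ, j < l → l < m → x ^ i * y ^ j ≠ x ^ k * y ^ l := by
    intro i k j l hjl hl h
    have h2 : y ^ (l - j) = x ^ (-(k : ℤ) + i) := by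
      have h3 : y ^ l = y ^ (l - j) * y ^ j := by
        rw [← pow_add]
        congr 1
        omega
      rw [h3, ← mul_assoc] at h
      have h4 : x ^ i = x ^ k * y ^ (l - j) := mul_right_cancel h
      rw [zpow_add, zpow_neg, zpow_natCast, zpow_natCast, h4]
      group
    exact hdis (l - j) (by omega) (by omega) (h2 ▸ Subgroup.zpow_mem_zpowers x _)
  have hinj : Function.Injective f := by
    rintro ⟨⟨i, hi⟩, ⟨j, hj⟩⟩ ⟨⟨k, hk⟩, ⟨l, hl⟩⟩ h
    have h' : x ^ i * y ^ j = x ^ k * y ^ l := h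
    have hjl : j = l := by
      by_contra hne
      rcases Nat.lt_or_gt_of_ne hne with h1 | h1
      · exact hlt i k j l h1 hl h'
      · exact hlt k i l j h1 hj h'.symm
    subst hjl
    have h2 : x ^ i = x ^ k := mul_right_cancel h'
    have h3 : i = k := pow_injOn_Iio_orderOf (Set.mem_Iio.2 hi) (Set.mem_Iio.2 hk) h2
    subst h3
    rfl
  have h1 : Nat.card (Subgroup.closure ({x, y} : Set Q)) = Nat.card (Set.range f) :=
    Nat.card_congr (Equiv.setCongr hrange)
  rw [h1, ← Nat.card_congr (Equiv.ofInjective f hinj)]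
  simp

/-- The generators of a preimage. -/
theorem closure_comap_gens {Δ Q : Type*} [Group Δ] [Group Q] (τ : Δ →* Q) {x y : Q} {A S : Δ}
    (hA : τ A = x) (hS : τ S = y) (hAm : A ∈ (Subgroup.closure ({x, y} : Set Q)).comap τ)
    (hSm : S ∈ (Subgroup.closure ({x, y} : Set Q)).comap τ) :
    Subgroup.closure
      (({⟨A, hAm⟩, ⟨S, hSm⟩} : Set ((Subgroup.closure ({x, y} : Set Q)).comap τ)) ∪
        (τ.comp ((Subgroup.closure ({x, y} : Set Q)).comap τ).subtype).ker) = ⊤ := by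
  set H := (Subgroup.closure ({x, y} : Set Q)).comap τ with hH
  rw [eq_top_iff]
  intro d _
  have h1 : τ d.1 ∈ Subgroup.closure ({x, y} : Set Q) := d.2
  let τ' := τ.comp H.subtype
  have hA' : τ' ⟨A, hAm⟩ = x := hA
  have hS' : τ' ⟨S, hSm⟩ = y := hS
  have h2 : Subgroup.closure ({x, y} : Set Q) =
      (Subgroup.closure ({⟨A, hAm⟩, ⟨S, hSm⟩} : Set H)).map τ' := by
    rw [MonoidHom.map_closure, Set.image_pair, hA', hS']
  obtain ⟨w, hw, hwd⟩ : τ d.1 ∈ (Subgroup.closure ({⟨A, hAm⟩, ⟨S, hSm⟩} : Set H)).map τ' := by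
    rw [← h2]
    exact d.2
  have h3 : w⁻¹ * d ∈ τ'.ker := by
    rw [MonoidHom.mem_ker, map_mul, map_inv, hwd]
    exact inv_mul_cancel _
  have h4 : w ∈ Subgroup.closure (({⟨A, hAm⟩, ⟨S, hSm⟩} : Set H) ∪ τ'.ker) :=
    Subgroup.closure_mono Set.subset_union_left hw
  have h5 := Subgroup.mul_mem _ h4 (Subgroup.subset_closure (Or.inr h3))
  rwa [mul_inv_cancel_left] at h5

/-- The core computation in a central extension of a semidihedral group of order 16. -/
theorem sd_core {X Q : Type*} [Group X] [Group Q] (τ : X →* Q) (hcen : τ.ker ≤ Subgroup.center X)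
    {x y : Q} (h8 : orderOf x = 8) (hy : y ^ 2 = 1) (hrel : y * x * y⁻¹ = x ^ 3) {A S : X}
    (hA : τ A = x) (hS : τ S = y) (hgen : Subgroup.closure (({A, S} : Set X) ∪ τ.ker) = ⊤) :
    ∀ z ∈ τ.ker, z ∈ commutator X → z = 1 := by
  have hc : ∀ k ∈ τ.ker, ∀ g : X, g * k = k * g := fun k hk g =>
    Subgroup.mem_center_iff.mp (hcen hk) g
  -- the defect
  set k := (A ^ 3)⁻¹ * (S * A * S⁻¹) with hk
  have hkker : k ∈ τ.ker := by
    rw [MonoidHom.mem_ker, hk, map_mul, map_inv, map_pow, map_mul, map_mul, map_inv, hA, hS, hrel]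
    exact inv_mul_cancel _
  have hkc := hc k hkker
  have h1 : S * A * S⁻¹ = A ^ 3 * k := by rw [hk]; group
  have hS2 : S ^ 2 ∈ τ.ker := by
    rw [MonoidHom.mem_ker, map_pow, hS, hy]
  have hS2c := hc _ hS2
  have h2 : S * (S * A * S⁻¹) * S⁻¹ = A := by
    have : S * (S * A * S⁻¹) * S⁻¹ = S ^ 2 * A * (S ^ 2)⁻¹ := by
      rw [pow_two, mul_inv_rev]
      simp only [mul_assoc]
    rw [this, ← hS2c A]
    group
  have hAk : A * k = k * A := hkc A
  have hconj3 : S * (A ^ 3 * k) * S⁻¹ = (A ^ 3 * k) ^ 3 * k := by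
    have e1 : S * (A ^ 3 * k) * S⁻¹ = (S * A * S⁻¹) ^ 3 * (S * k * S⁻¹) := by
      have e0 : (S * A * S⁻¹) ^ 3 = S * A ^ 3 * S⁻¹ := conj_pow
      rw [e0]
      group
    have e2 : S * k * S⁻¹ = k := by
      rw [hkc S]
      group
    rw [e1, e2, h1]
  have hcomm3 : (A ^ 3 * k) ^ 3 * k = A ^ 9 * k ^ 4 := by
    have hcm : Commute (A ^ 3) k := Commute.pow_left (show Commute A k from hAk) 3
    rw [hcm.mul_pow, ← pow_mul, mul_assoc, ← pow_succ]
  have hA8 : A ^ 8 * k ^ 4 = 1 := by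
    have e : A = A ^ 9 * k ^ 4 := by
      rw [← hcomm3, ← hconj3, ← h1, h2]
    have e2 : A * (A ^ 8 * k ^ 4) = A * 1 := by
      rw [mul_one, ← mul_assoc, ← pow_succ']
      exact e.symm
    exact mul_left_cancel e2
  set w := A ^ 2 * k with hw
  have hw4 : w ^ 4 = 1 := by
    have hcm : Commute (A ^ 2) k := Commute.pow_left (show Commute A k from hAk) 2
    rw [hw, hcm.mul_pow, ← pow_mul]
    exact hA8
  have hAw : A * w * A⁻¹ = w := by
    rw [hw]
    have : A * (A ^ 2 * k) * A⁻¹ = (A * A ^ 2) * (k * A⁻¹) := by group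
    rw [this, ← hc k hkker A⁻¹]
    group
  have hSw : S * w * S⁻¹ = w⁻¹ := by
    have e1 : S * w * S⁻¹ = (S * A * S⁻¹) ^ 2 * (S * k * S⁻¹) := by
      have e0 : (S * A * S⁻¹) ^ 2 = S * A ^ 2 * S⁻¹ := conj_pow
      rw [hw, e0]
      group
    have e2 : S * k * S⁻¹ = k := by
      rw [hkc S]
      group
    rw [e1, e2, h1]
    have hcm : Commute (A ^ 3) k := Commute.pow_left (show Commute A k from hAk) 3
    have hcm2 : Commute (A ^ 2) k := Commute.pow_left (show Commute A k from hAk) 2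
    rw [hcm.mul_pow, eq_inv_iff_mul_eq_one]
    have e3 : (A ^ 3) ^ 2 * k ^ 2 * k * w = w ^ 4 := by
      rw [hw, hcm2.mul_pow, ← pow_mul, ← pow_mul]
      have e5 : A ^ (3 * 2) * k ^ 2 * k * (A ^ 2 * k) = A ^ 6 * (k ^ 2 * k) * (A ^ 2 * k) := by
        rw [mul_assoc (A ^ (3 * 2))]
      rw [e5]
      have hcm3 : Commute (k ^ 2 * k) (A ^ 2) := (Commute.mul_left (Commute.pow_left (show Commute k A from hAk.symm) 2) (show Commute k A from hAk.symm)).pow_right 2
      calc A ^ 6 * (k ^ 2 * k) * (A ^ 2 * k) = A ^ 6 * ((k ^ 2 * k) * A ^ 2) * k := by simp only [mul_assoc]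
        _ = A ^ 6 * (A ^ 2 * (k ^ 2 * k)) * k := by rw [hcm3.eq]
        _ = (A ^ 6 * A ^ 2) * ((k ^ 2 * k) * k) := by simp only [mul_assoc]
        _ = A ^ (2 * 4) * k ^ 4 := by rw [← pow_add, ← pow_succ, ← pow_succ]
    rw [e3, hw4]
  have hdich : ∀ g, g * w * g⁻¹ = w ∨ g * w * g⁻¹ = w⁻¹ := by
    intro g
    have hg : g ∈ Subgroup.closure (({A, S} : Set X) ∪ τ.ker) := hgen ▸ Subgroup.mem_top g
    induction hg using Subgroup.closure_induction with
    | mem u hu =>
      rcases hu with (rfl | rfl) | hu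
      · exact Or.inl hAw
      · exact Or.inr hSw
      · left
        rw [← hc u hu w, mul_inv_cancel_right]
    | one => left; simp
    | mul u v _ _ hu hv =>
      have e : u * v * w * (u * v)⁻¹ = u * (v * w * v⁻¹) * u⁻¹ := by group
      have e' : ∀ t, u * t⁻¹ * u⁻¹ = (u * t * u⁻¹)⁻¹ := fun t => by group
      rcases hv with hv | hv
      · rw [e, hv]; exact hu
      · rw [e, hv, e']
        rcases hu with hu | hu
        · right; rw [hu]
        · left; rw [hu, inv_inv]
    | inv u _ hu =>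
      rcases hu with hu | hu
      · left
        calc u⁻¹ * w * u⁻¹⁻¹ = u⁻¹ * (u * w * u⁻¹) * u⁻¹⁻¹ := by rw [hu]
          _ = w := by group
      · right
        have : u * w⁻¹ * u⁻¹ = w := by
          have h2 : u * w⁻¹ * u⁻¹ = (u * w * u⁻¹)⁻¹ := by group
          rw [h2, hu, inv_inv]
        calc u⁻¹ * w * u⁻¹⁻¹ = u⁻¹ * (u * w⁻¹ * u⁻¹) * u⁻¹⁻¹ := by rw [this]
          _ = w⁻¹ := by group
  haveI hN : (Subgroup.zpowers w).Normal := by
    constructor
    intro n hn g
    obtain ⟨t, rfl⟩ := Subgroup.mem_zpowers_iff.mp hn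
    rw [← conj_zpow]
    rcases hdich g with h | h <;> rw [h]
    · exact Subgroup.zpow_mem _ (Subgroup.mem_zpowers w) t
    · exact Subgroup.zpow_mem _ (Subgroup.inv_mem _ (Subgroup.mem_zpowers w)) t
  have hcomm : commutator X ≤ Subgroup.zpowers w := by
    apply commutator_le_of_gens _ hgen
    have hcen1 : ∀ k ∈ τ.ker, ∀ g : X, ⁅k, g⁆ = 1 := by
      intro k hk g
      rw [commutatorElement_eq_one_iff_commute]
      exact (hc k hk g).symm
    have hcen2 : ∀ k ∈ τ.ker, ∀ g : X, ⁅g, k⁆ = 1 := by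
      intro k hk g
      rw [commutatorElement_eq_one_iff_commute]
      exact hc k hk g
    have hSA : ⁅A, S⁆ = w⁻¹ := by
      rw [commutatorElement_def]
      have e : S * A⁻¹ * S⁻¹ = (S * A * S⁻¹)⁻¹ := by group
      calc A * S * A⁻¹ * S⁻¹ = A * (S * A⁻¹ * S⁻¹) := by group
        _ = A * (A ^ 3 * k)⁻¹ := by rw [e, h1]
        _ = A * (A * w)⁻¹ := by rw [hw, pow_succ', mul_assoc]
        _ = (A * w * A⁻¹)⁻¹ := by group
        _ = w⁻¹ := by rw [hAw]
    rintro u (hu | hu) v (hv | hv)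
    · rcases hu with rfl | rfl <;> rcases hv with rfl | rfl
      · rw [commutatorElement_self]; exact Subgroup.one_mem _
      · rw [hSA]; exact Subgroup.inv_mem _ (Subgroup.mem_zpowers _)
      · rw [← commutatorElement_inv, hSA, inv_inv]; exact Subgroup.mem_zpowers _
      · rw [commutatorElement_self]; exact Subgroup.one_mem _
    · rw [hcen2 v hv]; exact Subgroup.one_mem _
    · rw [hcen1 u hu]; exact Subgroup.one_mem _
    · rw [hcen1 u hu]; exact Subgroup.one_mem _
  intro z hz hzc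
  obtain ⟨t, rfl⟩ := Subgroup.mem_zpowers_iff.mp (hcomm hzc)
  have hτw : τ w = x ^ 2 := by
    rw [hw, map_mul, map_pow, hA, MonoidHom.mem_ker.mp hkker, mul_one]
  have h4 : (x ^ 2) ^ t = 1 := by
    have := MonoidHom.mem_ker.mp hz
    rwa [map_zpow, hτw] at this
  have hord : orderOf (x ^ 2) = 4 := by
    rw [orderOf_pow' x (by norm_num : 2 ≠ 0), h8]
    rfl
  have h5 := orderOf_dvd_iff_zpow_eq_one.mpr h4
  rw [hord] at h5
  obtain ⟨s, hs⟩ := h5
  rw [hs, zpow_mul]
  have : w ^ ((4 : ℕ) : ℤ) = 1 := by rw [zpow_natCast]; exact hw4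
  rw [this, one_zpow]

/-- The commutator of lifts in a central extension is trivial in the presence of an element
centralizing `a` and inverting `b`, when `a ^ 3 = 1` and `a` and `b` commute. -/
theorem comm_lift_trivial {Δ Q : Type*} [Group Δ] [Group Q] (τ : Δ →* Q)
    (hcen : τ.ker ≤ Subgroup.center Δ) {a b g : Q} (ha : a ^ 3 = 1) (hab : a * b = b * a)
    (hga : g * a * g⁻¹ = a) (hgb : g * b * g⁻¹ = b⁻¹) {A B G : Δ} (hA : τ A = a) (hB : τ B = b)
    (hG : τ G = g) : A * B = B * A := by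
  have hc : ∀ k ∈ τ.ker, ∀ u : Δ, u * k = k * u := fun k hk u =>
    Subgroup.mem_center_iff.mp (hcen hk) u
  set c := ⁅A, B⁆ with hcd
  have hcker : c ∈ τ.ker := by
    rw [MonoidHom.mem_ker, hcd, map_commutatorElement, hA, hB, commutatorElement_eq_one_iff_mul_comm]
    exact hab
  have hcc := hc c hcker
  -- first form of `A`
  set k₁ := (G * A * G⁻¹) * A⁻¹ with hk₁
  have hk₁ker : k₁ ∈ τ.ker := by
    rw [MonoidHom.mem_ker, hk₁, map_mul, map_mul, map_mul, map_inv, map_inv, hA, hG, hga]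
    exact mul_inv_cancel _
  set k₂ := B * (G * B * G⁻¹) with hk₂
  have hk₂ker : k₂ ∈ τ.ker := by
    rw [MonoidHom.mem_ker, hk₂, map_mul, map_mul, map_mul, map_inv, hB, hG, hgb]
    exact mul_inv_cancel _
  have e1 : G * A * G⁻¹ = A * k₁ := by
    rw [hc k₁ hk₁ker A, hk₁]
    group
  have e2 : G * B * G⁻¹ = B⁻¹ * k₂ := by
    rw [hk₂]
    group
  have h1 : G * c * G⁻¹ = c := by
    rw [hcc G]
    group
  have h2 : G * c * G⁻¹ = ⁅A, B⁻¹⁆ := by
    have : G * ⁅A, B⁆ * G⁻¹ = ⁅G * A * G⁻¹, G * B * G⁻¹⁆ := by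
      simp only [commutatorElement_def]
      group
    rw [hcd, this, e1, e2, Hopf.comm_mul_central_left (fun u => hc k₁ hk₁ker u),
      Hopf.comm_mul_central_right (fun u => hc k₂ hk₂ker u)]
  have h3 : ⁅A, B⁻¹⁆ = c⁻¹ := by
    have e3 : ⁅A, B⁻¹⁆ = B⁻¹ * ⁅B, A⁆ * B := by
      simp only [commutatorElement_def]
      group
    rw [e3, ← commutatorElement_inv, ← hcd]
    have : B⁻¹ * c⁻¹ * B = c⁻¹ := by
      have h4 : B⁻¹ * c⁻¹ * B = (B⁻¹ * c * B)⁻¹ := by group
      rw [h4, hcc B⁻¹]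
      group
    exact this
  have h4 : c = c⁻¹ := by
    rw [← h3, ← h2, h1]
  -- `c ^ 3 = 1`
  have hA3 : A ^ 3 ∈ τ.ker := by
    rw [MonoidHom.mem_ker, map_pow, hA, ha]
  have hpow : ∀ n : ℕ, ⁅A ^ n, B⁆ = c ^ n := by
    intro n
    induction n with
    | zero => simp
    | succ n ih =>
      have e : ⁅A ^ (n + 1), B⁆ = A ^ n * ⁅A, B⁆ * (A ^ n)⁻¹ * ⁅A ^ n, B⁆ := by
        simp only [commutatorElement_def, pow_succ]
        group
      have e4 : A ^ n * c * (A ^ n)⁻¹ = c := by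
        rw [hcc (A ^ n)]
        group
      rw [e, ← hcd, ih, e4, pow_succ']
  have h5 : c ^ 3 = 1 := by
    rw [← hpow 3, commutatorElement_eq_one_iff_commute]
    exact (hc _ hA3 B).symm
  have h6 : c * c = 1 := by
    nth_rw 1 [h4]
    exact inv_mul_cancel c
  have h7 : c = 1 := by
    calc c = c ^ 3 * (c * c)⁻¹ := by group
      _ = 1 := by rw [h5, h6]; simp
  rw [hcd, commutatorElement_eq_one_iff_commute] at h7
  exact h7

end Cfsg.Agent.H09
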