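import Cfsg.Agent.Lib.H09.SchurSD

/-! A criterion for a trivial multiplier for groups of order 7920 with the expected local data. -/

set_option autoImplicit false
set_option linter.unusedSectionVars false
set_option linter.unusedVariables false
set_option linter.style.haveILetI false

namespace Cfsg.Agent.H09

open scoped commutatorElement
open Cfsg.Agent.H19

universe u

/-- Transfer into a preimage. -/
theorem eq_one_of_preimage {Δ Q : Type*} [Group Δ] [Finite Δ] [Group Q] (τ : Δ →* Q)
    (hs : Function.Surjective τ) (hcen : τ.ker ≤ Subgroup.center Δ)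
    (T : Subgroup Q) {r : ℕ} (hr : r.Prime) (hcop : ¬ r ∣ T.index)
    {z : Δ} (hz : z ∈ τ.ker) (hzc : z ∈ commutator Δ) (hord : orderOf z = r)
    (hT : ∀ w (hw : w ∈ T.comap τ), τ w = 1 → (⟨w, hw⟩ : T.comap τ) ∈ commutator (T.comap τ) → w = 1) :
    z = 1 := by
  obtain ⟨h, h1⟩ := transfer_central (T.comap τ) hzc (hcen hz)
  have h2 := hT _ h (by rw [map_pow, MonoidHom.mem_ker.mp hz, one_pow]) h1
  have h3 := orderOf_dvd_of_pow_eq_one h2
  rw [hord, Subgroup.index_comap_of_surjective T hs] at h3
  exact absurd h3 hcop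

theorem ker_comp_subtype_le_center {Δ Q : Type*} [Group Δ] [Group Q] (τ : Δ →* Q)
    (hcen : τ.ker ≤ Subgroup.center Δ) (H : Subgroup Δ) :
    (τ.comp H.subtype).ker ≤ Subgroup.center H := by
  intro u hu
  have h1 : τ u.1 = 1 := hu
  have h2 := hcen h1
  rw [Subgroup.mem_center_iff]
  intro g
  exact Subtype.ext (Subgroup.mem_center_iff.1 h2 g)

/-- The part of the kernel in the commutator subgroup of the preimage of a semidihedral subgroup. -/
theorem sd_preimage {Δ Q : Type*} [Group Δ] [Group Q] (τ : Δ →* Q)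
    (hs : Function.Surjective τ) (hcen : τ.ker ≤ Subgroup.center Δ)
    {x y : Q} (h8 : orderOf x = 8) (hy : y ^ 2 = 1) (hrel : y * x * y⁻¹ = x ^ 3)
    (w : Δ) (hw : w ∈ (Subgroup.closure ({x, y} : Set Q)).comap τ) (h1 : τ w = 1)
    (h2 : (⟨w, hw⟩ : (Subgroup.closure ({x, y} : Set Q)).comap τ) ∈
      commutator ((Subgroup.closure ({x, y} : Set Q)).comap τ)) : w = 1 := by
  obtain ⟨A, hA⟩ := hs x
  obtain ⟨S, hS⟩ := hs y
  have hAm : A ∈ (Subgroup.closure ({x, y} : Set Q)).comap τ := by
    rw [Subgroup.mem_comap, hA]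
    exact Subgroup.subset_closure (by simp)
  have hSm : S ∈ (Subgroup.closure ({x, y} : Set Q)).comap τ := by
    rw [Subgroup.mem_comap, hS]
    exact Subgroup.subset_closure (by simp)
  have hgen := closure_comap_gens τ hA hS hAm hSm
  have := sd_core (τ.comp ((Subgroup.closure ({x, y} : Set Q)).comap τ).subtype)
    (ker_comp_subtype_le_center τ hcen _) h8 hy hrel (A := ⟨A, hAm⟩) (S := ⟨S, hSm⟩) hA hS hgen
    ⟨w, hw⟩ h1 h2
  exact congrArg Subtype.val this

/-- The preimage of an elementary abelian subgroup of order 9 with an inverting element is abelian. -/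
theorem ab_preimage {Δ Q : Type*} [Group Δ] [Group Q] (τ : Δ →* Q)
    (hs : Function.Surjective τ) (hcen : τ.ker ≤ Subgroup.center Δ)
    {a b g : Q} (ha : a ^ 3 = 1) (hab : a * b = b * a)
    (hga : g * a * g⁻¹ = a) (hgb : g * b * g⁻¹ = b⁻¹)
    (w : Δ) (hw : w ∈ (Subgroup.closure ({a, b} : Set Q)).comap τ)
    (h2 : (⟨w, hw⟩ : (Subgroup.closure ({a, b} : Set Q)).comap τ) ∈
      commutator ((Subgroup.closure ({a, b} : Set Q)).comap τ)) : w = 1 := by
  obtain ⟨A, hA⟩ := hs a
  obtain ⟨B, hB⟩ := hs b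
  obtain ⟨G, hG⟩ := hs g
  have hAm : A ∈ (Subgroup.closure ({a, b} : Set Q)).comap τ := by
    rw [Subgroup.mem_comap, hA]
    exact Subgroup.subset_closure (by simp)
  have hBm : B ∈ (Subgroup.closure ({a, b} : Set Q)).comap τ := by
    rw [Subgroup.mem_comap, hB]
    exact Subgroup.subset_closure (by simp)
  have hgen := closure_comap_gens τ hA hB hAm hBm
  have hcomm := comm_lift_trivial τ hcen ha hab hga hgb hA hB hG
  have hle : commutator ((Subgroup.closure ({a, b} : Set Q)).comap τ) ≤ ⊥ := by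
    apply commutator_le_of_gens _ hgen
    have hcenH := ker_comp_subtype_le_center τ hcen ((Subgroup.closure ({a, b} : Set Q)).comap τ)
    have hcen1 : ∀ k ∈ (τ.comp ((Subgroup.closure ({a, b} : Set Q)).comap τ).subtype).ker,
        ∀ u : (Subgroup.closure ({a, b} : Set Q)).comap τ, ⁅k, u⁆ = 1 := by
      intro k hk u
      rw [commutatorElement_eq_one_iff_commute]
      exact (Subgroup.mem_center_iff.mp (hcenH hk) u).symm
    have hcen2 : ∀ k ∈ (τ.comp ((Subgroup.closure ({a, b} : Set Q)).comap τ).subtype).ker,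
        ∀ u : (Subgroup.closure ({a, b} : Set Q)).comap τ, ⁅u, k⁆ = 1 := by
      intro k hk u
      rw [commutatorElement_eq_one_iff_commute]
      exact Subgroup.mem_center_iff.mp (hcenH hk) u
    have hc : (⟨A, hAm⟩ : (Subgroup.closure ({a, b} : Set Q)).comap τ) * ⟨B, hBm⟩ = ⟨B, hBm⟩ * ⟨A, hAm⟩ :=
      Subtype.ext hcomm
    rintro u (hu | hu) v (hv | hv)
    · rcases hu with rfl | rfl <;> rcases hv with rfl | rfl
      · rw [commutatorElement_self]; exact Subgroup.one_mem _
      · rw [commutatorElement_eq_one_iff_mul_comm.mpr hc]; exact Subgroup.one_mem _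
      · rw [commutatorElement_eq_one_iff_mul_comm.mpr hc.symm]; exact Subgroup.one_mem _
      · rw [commutatorElement_self]; exact Subgroup.one_mem _
    · rw [hcen2 v hv]; exact Subgroup.one_mem _
    · rw [hcen1 u hu]; exact Subgroup.one_mem _
    · rw [hcen1 u hu]; exact Subgroup.one_mem _
  have := hle h2
  exact congrArg Subtype.val (Subgroup.mem_bot.mp this)

/-- A trivial multiplier from local data in a group of order 7920. -/
theorem mult_trivial_of_data {Q : Type u} [Group Q] [Finite Q] (hQ : Nat.card Q = 7920)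
    {x y a b g : Q} (h8 : orderOf x = 8) (hy : y ^ 2 = 1) (hrel : y * x * y⁻¹ = x ^ 3)
    (ha : a ^ 3 = 1) (ha1 : a ≠ 1) (hb : b ^ 3 = 1) (hab : a * b = b * a)
    (hne : b ∉ Subgroup.zpowers a)
    (hga : g * a * g⁻¹ = a) (hgb : g * b * g⁻¹ = b⁻¹) : Cfsg.HasCyclicSchurMultiplier Q 1 := by
  -- order of the semidihedral subgroup
  have hyne : y ∉ Subgroup.zpowers x := by
    intro h
    obtain ⟨k, rfl⟩ := Subgroup.mem_zpowers_iff.mp h
    have h2 : x ^ k * x * (x ^ k)⁻¹ = x := by
      rw [(Commute.zpow_left (Commute.refl x) k).eq]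
      group
    rw [h2] at hrel
    have h3 : x ^ 2 = 1 := by
      have h4 : x * x ^ 2 = x * 1 := by
        rw [mul_one, ← pow_succ']
        exact hrel.symm
      exact mul_left_cancel h4
    have := orderOf_dvd_of_pow_eq_one h3
    rw [h8] at this
    omega
  have hcard2 : Nat.card (Subgroup.closure ({x, y} : Set Q)) = 16 := by
    rw [card_closure_pair x y 2 3 (by norm_num) hy hrel, h8]
    intro j h0 hj
    have : j = 1 := by omega
    subst this
    simpa using hyne
  have hcard3 : Nat.card (Subgroup.closure ({a, b} : Set Q)) = 9 := by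
    have ho : orderOf a = 3 := orderOf_eq_prime ha ha1
    haveI : Fact (Nat.Prime 3) := ⟨Nat.prime_three⟩
    rw [card_closure_pair a b 3 1 (by norm_num) hb, ho]
    · rw [pow_one, ← hab]
      group
    · intro j h0 hj
      have : j = 1 ∨ j = 2 := by omega
      rcases this with rfl | rfl
      · simpa using hne
      · intro h
        apply hne
        have h2 := Subgroup.pow_mem _ h 2
        have h3 : (b ^ 2) ^ 2 = b := by
          rw [← pow_mul]
          show b ^ (3 + 1) = b
          rw [pow_succ, hb, one_mul]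
        rwa [h3] at h2
  have hi2 : (Subgroup.closure ({x, y} : Set Q)).index = 495 := by
    have := Subgroup.card_mul_index (Subgroup.closure ({x, y} : Set Q))
    rw [hcard2, hQ] at this
    omega
  have hi3 : (Subgroup.closure ({a, b} : Set Q)).index = 880 := by
    have := Subgroup.card_mul_index (Subgroup.closure ({a, b} : Set Q))
    rw [hcard3, hQ] at this
    omega
  rw [Hopf.hasCyclic_one_iff]
  intro Δ _ _ τ hτ
  apply ker_eq_bot_of_local τ hτ
  intro r _ R z hzR hord hzk hzZ hzC hzRC
  by_cases hr2 : r = 2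
  · subst hr2
    refine eq_one_of_preimage τ hτ.1 hτ.2.1 (Subgroup.closure ({x, y} : Set Q)) Nat.prime_two ?_ hzk hzC hord
      (sd_preimage τ hτ.1 hτ.2.1 h8 hy hrel)
    rw [hi2]
    norm_num
  by_cases hr3 : r = 3
  · subst hr3
    refine eq_one_of_preimage τ hτ.1 hτ.2.1 (Subgroup.closure ({a, b} : Set Q)) Nat.prime_three ?_ hzk hzC hord
      (fun w hw _ h => ab_preimage τ hτ.1 hτ.2.1 ha hab hga hgb w hw h)
    rw [hi3]
    norm_num
  -- the remaining primes: cyclic image
  have hrp : r.Prime := Fact.out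
  have hP : IsPGroup r ((R : Subgroup Δ).map τ) := R.isPGroup'.map τ
  obtain ⟨k, hk⟩ := IsPGroup.iff_card.mp hP
  have hdvd : r ^ k ∣ 7920 := by
    rw [← hk, ← hQ]
    exact Subgroup.card_subgroup_dvd_card _
  refine eq_one_of_cyclic_image τ hτ.2.1 ?_ hzR hzRC
  rcases Nat.lt_or_ge k 2 with hk2 | hk2
  · have : k = 0 ∨ k = 1 := by omega
    rcases this with rfl | rfl
    · rw [pow_zero] at hk
      haveI := (Nat.card_eq_one_iff_unique.mp hk).1
      exact isCyclic_of_subsingleton
    · rw [pow_one] at hk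
      haveI := Fact.mk hrp
      exact isCyclic_of_prime_card hk
  · exfalso
    have h1 : r ^ 2 ∣ 7920 := (pow_dvd_pow r hk2).trans hdvd
    have hc1 : Nat.Coprime r 144 := by
      have e : (144 : ℕ) = 2 ^ 4 * 3 ^ 2 := by norm_num
      rw [e]
      apply Nat.Coprime.mul_right
      · exact Nat.Coprime.pow_right _ ((Nat.coprime_primes hrp Nat.prime_two).2 hr2)
      · exact Nat.Coprime.pow_right _ ((Nat.coprime_primes hrp Nat.prime_three).2 hr3)
    have h2 : r ^ 2 ∣ 55 := by
      have e : (7920 : ℕ) = 144 * 55 := by norm_num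
      rw [e] at h1
      exact (Nat.Coprime.pow_left 2 hc1).dvd_of_dvd_mul_left h1
    have h3 : r ^ 2 ≤ 55 := Nat.le_of_dvd (by norm_num) h2
    have h4 : r ≤ 7 := by nlinarith
    interval_cases r <;> first | (exact absurd rfl hr2) | (exact absurd rfl hr3) | (exact hrp.one_lt.ne rfl) | (exact absurd h2 (by decide))

end Cfsg.Agent.H09
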