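import Cfsg.Agent.Lib.H09.HHall
import Cfsg.Agent.Lib.H09.KTrans
import Cfsg.Agent.Lib.H09.WClose

/-! Applications of the Thompson reduction. -/

set_option autoImplicit false
set_option linter.unusedSectionVars false
set_option linter.unusedVariables false

namespace Cfsg.Agent.H09

open Cfsg Cfsg.Agent.H13 Cfsg.Agent.H14
open scoped commutatorElement

universe u

section Equiv
variable {p : ℕ} [hp : Fact p.Prime] {A B : Type*} [Group A] [Group B] [Finite A] [Finite B]

theorem pCore_map_equiv (e : A ≃* B) : (pCore p A).map e.toMonoidHom = pCore p B := by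
  apply le_antisymm
  · refine H01.le_pCore ?_ ((H01.pCore_isPGroup p).map e.toMonoidHom)
    exact (H01.pCore_normal p).map e.toMonoidHom e.surjective
  · have h1 : (pCore p B).map e.symm.toMonoidHom ≤ pCore p A := by
      refine H01.le_pCore ?_ ((H01.pCore_isPGroup p).map e.symm.toMonoidHom)
      exact (H01.pCore_normal p).map e.symm.toMonoidHom e.symm.surjective
    intro b hb
    refine ⟨e.symm b, h1 ⟨b, hb, rfl⟩, ?_⟩
    exact e.apply_symm_apply b

theorem mem_map_equiv_iff (e : A ≃* B) {T : Subgroup A} {a : A} :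
    e a ∈ T.map e.toMonoidHom ↔ a ∈ T := by
  constructor
  · rintro ⟨x, hx, hxe⟩
    have : x = a := e.injective hxe
    rwa [← this]
  · intro h
    exact ⟨a, h, rfl⟩

theorem chief_map_equiv (e : A ≃* B) {U V : Subgroup A} (h : IsChiefFactor U V) :
    IsChiefFactor (U.map e.toMonoidHom) (V.map e.toMonoidHom) := by
  obtain ⟨hlt, hUn, hVn, hmin⟩ := h
  refine ⟨?_, hUn.map _ e.surjective, hVn.map _ e.surjective, ?_⟩
  · refine lt_of_le_of_ne (Subgroup.map_mono hlt.le) ?_
    intro heq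
    exact hlt.ne (Subgroup.map_injective e.injective heq)
  · intro N hN h1 h2
    have h3 : V ≤ N.comap e.toMonoidHom := by
      intro v hv
      exact h1 ⟨v, hv, rfl⟩
    have h4 : N.comap e.toMonoidHom ≤ U := by
      intro x hx
      exact (mem_map_equiv_iff e).1 (h2 hx)
    have hmp : (N.comap e.toMonoidHom).map e.toMonoidHom = N :=
      Subgroup.map_comap_eq_self_of_surjective e.surjective N
    rcases hmin _ (hN.comap e.toMonoidHom) h3 h4 with h5 | h5
    · left
      rw [← hmp, h5]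
    · right
      rw [← hmp, h5]

theorem centralizer_core_transfer (e : A ≃* B)
    (h : Subgroup.centralizer (pCore p A : Set A) ≤ pCore p A) :
    Subgroup.centralizer (pCore p B : Set B) ≤ pCore p B := by
  intro z hz
  rw [← pCore_map_equiv (p := p) e]
  refine ⟨e.symm z, h ?_, e.apply_symm_apply z⟩
  rw [Subgroup.mem_centralizer_iff]
  intro o ho
  have h1 : e o ∈ pCore p B := by
    rw [← pCore_map_equiv (p := p) e]
    exact ⟨o, ho, rfl⟩
  have h2 := Subgroup.mem_centralizer_iff.1 hz _ h1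
  apply e.injective
  simpa using h2

theorem coatom_map_equiv (e : A ≃* B) {S : Subgroup A} (h : IsCoatom S) :
    IsCoatom (S.map e.toMonoidHom) := by
  refine ⟨?_, ?_⟩
  · intro h1
    apply h.1
    apply Subgroup.map_injective (f := e.toMonoidHom) e.injective
    rw [h1, ← MonoidHom.range_eq_map]
    exact (MonoidHom.range_eq_top.2 e.surjective).symm
  · intro M hM
    have h1 : S < M.comap e.toMonoidHom := by
      refine lt_of_le_of_ne ?_ ?_
      · intro s hs
        exact hM.le ⟨s, hs, rfl⟩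
      · intro heq
        apply hM.ne
        rw [heq]
        exact Subgroup.map_comap_eq_self_of_surjective e.surjective M
    have h2 := h.2 _ h1
    rw [← Subgroup.map_comap_eq_self_of_surjective (f := e.toMonoidHom) e.surjective M, h2,
      ← MonoidHom.range_eq_map]
    exact MonoidHom.range_eq_top.2 e.surjective

theorem npc_quot_transfer (e : A ≃* B) (h : HasNormalPComplement p (A ⧸ pCore p A)) :
    HasNormalPComplement p (B ⧸ pCore p B) := by
  have hle : pCore p A ≤ (pCore p B).comap e.toMonoidHom := by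
    intro a ha
    show e a ∈ pCore p B
    rw [← pCore_map_equiv (p := p) e]
    exact ⟨a, ha, rfl⟩
  let f : (A ⧸ pCore p A) →* (B ⧸ pCore p B) :=
    QuotientGroup.map (pCore p A) (pCore p B) e.toMonoidHom hle
  have hf : Function.Surjective f := by
    intro q
    induction q using QuotientGroup.induction_on with
    | H b =>
      refine ⟨(QuotientGroup.mk (e.symm b) : A ⧸ pCore p A), ?_⟩
      show (QuotientGroup.mk (e (e.symm b)) : B ⧸ pCore p B) = _
      rw [e.apply_symm_apply]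
  exact npc_of_surjective f hf h

end Equiv

section Conf
variable {p : ℕ} [hp : Fact p.Prime] {Y : Type u} [Group Y] [Finite Y]

/-- In the final configuration the Sylow subgroup is maximal. -/
theorem ThConf.coatom {S : Sylow p Y} {X : Subgroup Y} (h : ThConf p Y S X) :
    IsCoatom (S : Subgroup Y) := by
  have hQS : pCore p Y ≤ (S : Subgroup Y) := H01.pCore_le_sylow p S
  refine ⟨?_, ?_⟩
  · intro htop
    apply h.hXne
    apply le_antisymm _ h.hQX
    intro x hx
    have hxS : x ∈ (S : Subgroup Y) := by rw [htop]; exact Subgroup.mem_top x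
    obtain ⟨j, hj⟩ := S.isPGroup' ⟨x, hxS⟩
    exact h.hXpel x hx j (congrArg Subtype.val hj)
  · intro M hM
    haveI := h.hXn
    have hX₁ : pCore p Y ≤ M ⊓ X := le_inf (hQS.trans hM.le) h.hQX
    have hSN : (S : Subgroup Y) ≤ Subgroup.normalizer ((M ⊓ X : Subgroup Y) : Set Y) := by
      intro s hs
      rw [Subgroup.mem_normalizer_iff]
      intro x
      have hs' : s ∈ M := hM.le hs
      constructor
      · rintro ⟨h1, h2⟩
        exact ⟨M.mul_mem (M.mul_mem hs' h1) (M.inv_mem hs'), h.hXn.conj_mem x h2 s⟩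
      · rintro ⟨h1, h2⟩
        have e : x = s⁻¹ * (s * x * s⁻¹) * s := by group
        refine ⟨?_, ?_⟩
        · rw [e]; exact M.mul_mem (M.mul_mem (M.inv_mem hs') h1) hs'
        · have h3 := h.hXn.conj_mem _ h2 s⁻¹
          have e2 : s⁻¹ * (s * x * s⁻¹) * s⁻¹⁻¹ = x := by group
          rwa [e2] at h3
    rcases h.hirr _ hX₁ inf_le_right hSN with h1 | h1
    · exfalso
      apply hM.not_ge
      intro m hm
      have hy : m ∈ ((S : Subgroup Y) ⊔ X : Subgroup Y) := by
        rw [sup_comm, h.hXP]; exact Subgroup.mem_top m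
      rw [← SetLike.mem_coe, Subgroup.mul_normal (H := (S : Subgroup Y)) (N := X)] at hy
      obtain ⟨s, hs, x, hx, rfl⟩ := Set.mem_mul.1 hy
      have hxM : x ∈ M := by
        have h3 := M.mul_mem (M.inv_mem (hM.le hs)) hm
        simpa using h3
      have hxQ : x ∈ pCore p Y := by
        rw [← h1]
        exact ⟨hxM, hx⟩
      exact S.toSubgroup.mul_mem hs (hQS hxQ)
    · rw [eq_top_iff, ← h.hXP]
      refine sup_le ?_ hM.le
      rw [← h1]
      exact inf_le_left

/-- The element version of the final contradiction. -/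
theorem ThConf.no_short {S : Sylow p Y} {X : Subgroup Y} (h : ThConf p Y S X) {g : Y}
    (hgS : g ∈ (S : Subgroup Y)) (hgO : g ∉ pCore p Y) {U V : Subgroup Y} (hc : IsChiefFactor U V)
    (hU : U ≤ pCore p Y) (hg1 : iterCommutator U (Subgroup.zpowers g) (p - 1) ≤ V)
    (hg2 : ¬ ⁅U, Subgroup.zpowers g⁆ ≤ V) : False := by
  classical
  have hQn : (pCore p Y).Normal := H01.pCore_normal p
  have hQp : IsPGroup p (pCore p Y) := H01.pCore_isPGroup p
  have hQS : pCore p Y ≤ (S : Subgroup Y) := H01.pCore_le_sylow p S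
  have hUp : IsPGroup p U := hQp.to_le hU
  obtain ⟨hk1, hk2⟩ := hh_chief hc hUp h.hXn hQn hQp h.hXQ h.hXm hg1
  have hXn := h.hXn
  have hUn : U.Normal := hc.2.1
  have hVn : V.Normal := hc.2.2.1
  -- the kernel of the action on the factor
  let C : Subgroup Y :=
    { carrier := {y | ∀ u ∈ U, y * u * y⁻¹ * u⁻¹ ∈ V}
      one_mem' := by
        intro u hu
        simp
      mul_mem' := by
        intro a b ha hb u hu
        have h1 := hVn.conj_mem _ (hb u hu) a
        have h2 := ha u hu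
        have e : a * b * u * (a * b)⁻¹ * u⁻¹ =
            a * (b * u * b⁻¹ * u⁻¹) * a⁻¹ * (a * u * a⁻¹ * u⁻¹) := by group
        rw [e]
        exact V.mul_mem h1 h2
      inv_mem' := by
        intro a ha u hu
        have h1 := ha (a⁻¹ * u * a) (by
          have h2 := hUn.conj_mem u hu a⁻¹
          simpa using h2)
        have e : a⁻¹ * u * a⁻¹⁻¹ * u⁻¹ = (a * (a⁻¹ * u * a) * a⁻¹ * (a⁻¹ * u * a)⁻¹)⁻¹ := by group
        rw [e]
        exact V.inv_mem h1 }
  have hCmem : ∀ y, y ∈ C ↔ ∀ u ∈ U, y * u * y⁻¹ * u⁻¹ ∈ V := fun y => Iff.rfl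
  have hCn : C.Normal := by
    refine ⟨fun c hc' y u hu => ?_⟩
    have h1 := hc' (y⁻¹ * u * y) (by
      have h2 := hUn.conj_mem u hu y⁻¹
      simpa using h2)
    have h2 := hVn.conj_mem _ h1 y
    have e : y * c * y⁻¹ * u * (y * c * y⁻¹)⁻¹ * u⁻¹ =
        y * (c * (y⁻¹ * u * y) * c⁻¹ * (y⁻¹ * u * y)⁻¹) * y⁻¹ := by group
    rw [e]
    exact h2
  have hQC : pCore p Y ≤ C := by
    refine chief_trivial_of_p hc hUp _ hQn ?_
    intro r hr
    obtain ⟨k, hk⟩ := hQp ⟨r, hr⟩
    have hk' : r ^ p ^ k = 1 := congrArg Subtype.val hk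
    refine ⟨k, fun u hu => ?_⟩
    rw [hk']
    simp
  have hgC : g ∉ C := by
    intro hgC
    apply hg2
    rw [Subgroup.commutator_le]
    intro u hu z hz
    obtain ⟨k, rfl⟩ := Subgroup.mem_zpowers_iff.1 hz
    have h1 : g ^ k ∈ C := C.zpow_mem hgC k
    have h2 := h1 u hu
    have e : ⁅u, g ^ k⁆ = (g ^ k * u * (g ^ k)⁻¹ * u⁻¹)⁻¹ := by
      rw [commutatorElement_def]; group
    rw [e]
    exact V.inv_mem h2
  have hD1 : pCore p Y ≤ C ⊓ X := le_inf hQC h.hQX
  have hDS : (S : Subgroup Y) ≤ Subgroup.normalizer ((C ⊓ X : Subgroup Y) : Set Y) := by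
    haveI := hCn
    haveI := hXn
    have hDn : (C ⊓ X).Normal := inferInstance
    rw [Subgroup.normalizer_eq_top_iff.2 hDn]
    exact le_top
  rcases h.hirr _ hD1 inf_le_right hDS with h1 | h1
  · -- `g` centralizes `X` modulo `O_p`
    apply hgO
    refine mem_pCore_of_comm S X hXn h.hXP hgS ?_
    intro x hx
    have h2 : g * x * g⁻¹ * x⁻¹ ∈ C ⊓ X := by
      refine ⟨hk1 x hx, ?_⟩
      exact X.mul_mem (hXn.conj_mem x hx g) (X.inv_mem hx)
    rw [h1] at h2
    have h3 := (pCore p Y).inv_mem h2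
    have e : (g * x * g⁻¹ * x⁻¹)⁻¹ = x * g * x⁻¹ * g⁻¹ := by group
    rwa [e] at h3
  · -- `X` acts trivially, so the whole group acts as a `p`-group
    have hXC : X ≤ C := by
      rw [← h1]
      exact inf_le_left
    apply hgC
    have hall := chief_trivial_of_p hc hUp (⊤ : Subgroup Y) inferInstance (by
      intro r _
      have hy : r ∈ ((S : Subgroup Y) ⊔ X : Subgroup Y) := by
        rw [sup_comm, h.hXP]; exact Subgroup.mem_top r
      rw [← SetLike.mem_coe, Subgroup.mul_normal (H := (S : Subgroup Y)) (N := X)] at hy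
      obtain ⟨s, hs, x, hx, rfl⟩ := Set.mem_mul.1 hy
      obtain ⟨k, hk⟩ := S.isPGroup' ⟨s, hs⟩
      have hk' : s ^ p ^ k = 1 := congrArg Subtype.val hk
      refine ⟨k, fun u hu => ?_⟩
      -- modulo `C` the element is `s`
      have hmem : (s * x) ^ p ^ k ∈ C := by
        have hpow : ∀ n : ℕ, (s * x) ^ n * (s ^ n)⁻¹ ∈ X := by
          intro n
          induction n with
          | zero => simp
          | succ n ih =>
            have e : (s * x) ^ (n + 1) * (s ^ (n + 1))⁻¹ =
                ((s * x) ^ n * (s ^ n)⁻¹) * (s ^ n * (s * x * s⁻¹) * (s ^ n)⁻¹) := by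
              rw [pow_succ, pow_succ]
              group
            rw [e]
            refine X.mul_mem ih (hXn.conj_mem _ ?_ _)
            have e2 : s * x * s⁻¹ = s * x * s⁻¹ := rfl
            exact hXn.conj_mem x hx s
        have h2 := hXC (hpow (p ^ k))
        rw [hk', inv_one, mul_one] at h2
        exact h2
      exact hmem u hu)
    intro u hu
    exact hall g (Subgroup.mem_top g) u hu

end Conf

section Final
variable {p : ℕ} [hp : Fact p.Prime] {G : Type u} [Group G] [Finite G]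
  {W : ∀ (Q : Type u) [Group Q], Subgroup Q}

theorem normal_of_map_equiv {A B : Type*} [Group A] [Group B] (e : A ≃* B) {N : Subgroup A}
    (h : (N.map e.toMonoidHom).Normal) : N.Normal := by
  have h1 := h.comap e.toMonoidHom
  rwa [Subgroup.comap_map_eq_self_of_injective e.injective] at h1

theorem th_hfin_coatom (hW : IsCharPFunctor.{u} p W)
    (hloc : ∀ (K R : Subgroup G) [hR : (R.subgroupOf K).Normal],
      Subgroup.centralizer ((pCore p (↥K ⧸ R.subgroupOf K) : Subgroup (↥K ⧸ R.subgroupOf K)) :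
        Set (↥K ⧸ R.subgroupOf K)) ≤ pCore p (↥K ⧸ R.subgroupOf K) →
      HasNormalPComplement p ((↥K ⧸ R.subgroupOf K) ⧸ pCore p (↥K ⧸ R.subgroupOf K)) →
      ∀ T : Sylow p (↥K ⧸ R.subgroupOf K), IsCoatom (T : Subgroup (↥K ⧸ R.subgroupOf K)) →
      (inducedFunctor (G := (↥K ⧸ R.subgroupOf K)) W (T : Subgroup (↥K ⧸ R.subgroupOf K))).Normal) :
    ∀ (Y : Type u) [Group Y] [Finite Y], Involves Y G → ∀ (S : Sylow p Y) (X : Subgroup Y),
      ThConf p Y S X → (inducedFunctor W (S : Subgroup Y)).Normal ∨ FrobCond p Y := by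
  intro Y _ _ hY S X hX
  left
  obtain ⟨K, R, hR, ⟨e⟩⟩ := hY
  haveI := hR
  let f : Y ≃* (↥K ⧸ R.subgroupOf K) := e.symm
  let T : Sylow p (↥K ⧸ R.subgroupOf K) := S.mapSurjective (f := f.toMonoidHom) f.surjective
  have hT : (T : Subgroup (↥K ⧸ R.subgroupOf K)) = (S : Subgroup Y).map f.toMonoidHom :=
    Sylow.coe_mapSurjective (f := f.toMonoidHom) f.surjective S
  have h1 := hloc K R (centralizer_core_transfer f hX.hcQ)
    (npc_quot_transfer f (hasNormalPComplement_of_frobCond hX.hFrobQuot)) T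
    (by rw [hT]; exact coatom_map_equiv f hX.coatom)
  rw [hT, ind_map_of_inj hW f.toMonoidHom S.isPGroup' (fun x _ hx => f.injective (by simpa using hx))] at h1
  exact normal_of_map_equiv f h1

/-- The final configuration excludes short elements. -/
theorem th_hfin_short
    (hloc : ∀ (Y : Type u) [Group Y] [Finite Y], Involves Y G →
      Subgroup.centralizer (pCore p Y : Set Y) ≤ pCore p Y →
      ∀ T : Sylow p Y, ¬ (inducedFunctor (G := Y) W (T : Subgroup Y)).Normal →
      ∃ g : Y, g ∈ (T : Subgroup Y) ∧ g ∉ pCore p Y ∧ ∃ U V : Subgroup Y, IsChiefFactor U V ∧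
        U ≤ pCore p Y ∧ iterCommutator U (Subgroup.zpowers g) (p - 1) ≤ V ∧
        ¬ ⁅U, Subgroup.zpowers g⁆ ≤ V) :
    ∀ (Y : Type u) [Group Y] [Finite Y], Involves Y G → ∀ (S : Sylow p Y) (X : Subgroup Y),
      ThConf p Y S X → (inducedFunctor W (S : Subgroup Y)).Normal ∨ FrobCond p Y := by
  intro Y _ _ hY S X hX
  left
  by_contra hn
  obtain ⟨g, hgS, hgO, U, V, hc, hU, h1, h2⟩ := hloc Y hY hX.hcQ S hn
  exact hX.no_short hgS hgO hc hU h1 h2

theorem short_transport (hW : IsCharPFunctor.{u} p W)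
    (hloc : ∀ (K R : Subgroup G) [hR : (R.subgroupOf K).Normal],
      Subgroup.centralizer ((pCore p (↥K ⧸ R.subgroupOf K) : Subgroup (↥K ⧸ R.subgroupOf K)) :
        Set (↥K ⧸ R.subgroupOf K)) ≤ pCore p (↥K ⧸ R.subgroupOf K) →
      ∀ T : Sylow p (↥K ⧸ R.subgroupOf K),
      ¬ (inducedFunctor (G := (↥K ⧸ R.subgroupOf K)) W (T : Subgroup (↥K ⧸ R.subgroupOf K))).Normal →
      ∃ g : (↥K ⧸ R.subgroupOf K), g ∈ (T : Subgroup (↥K ⧸ R.subgroupOf K)) ∧
        g ∉ pCore p (↥K ⧸ R.subgroupOf K) ∧ ∃ U V : Subgroup (↥K ⧸ R.subgroupOf K),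
        IsChiefFactor U V ∧ U ≤ pCore p (↥K ⧸ R.subgroupOf K) ∧
        iterCommutator U (Subgroup.zpowers g) (p - 1) ≤ V ∧ ¬ ⁅U, Subgroup.zpowers g⁆ ≤ V) :
    ∀ (Y : Type u) [Group Y] [Finite Y], Involves Y G →
      Subgroup.centralizer (pCore p Y : Set Y) ≤ pCore p Y →
      ∀ T : Sylow p Y, ¬ (inducedFunctor (G := Y) W (T : Subgroup Y)).Normal →
      ∃ g : Y, g ∈ (T : Subgroup Y) ∧ g ∉ pCore p Y ∧ ∃ U V : Subgroup Y, IsChiefFactor U V ∧
        U ≤ pCore p Y ∧ iterCommutator U (Subgroup.zpowers g) (p - 1) ≤ V ∧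
        ¬ ⁅U, Subgroup.zpowers g⁆ ≤ V := by
  intro Y _ _ hY hcon S hn
  obtain ⟨K, R, hR, ⟨e⟩⟩ := hY
  haveI := hR
  let f : Y ≃* (↥K ⧸ R.subgroupOf K) := e.symm
  let T : Sylow p (↥K ⧸ R.subgroupOf K) := S.mapSurjective (f := f.toMonoidHom) f.surjective
  have hT : (T : Subgroup (↥K ⧸ R.subgroupOf K)) = (S : Subgroup Y).map f.toMonoidHom :=
    Sylow.coe_mapSurjective (f := f.toMonoidHom) f.surjective S
  have hn' : ¬ (inducedFunctor (G := (↥K ⧸ R.subgroupOf K)) W (T : Subgroup (↥K ⧸ R.subgroupOf K))).Normal := by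
    intro h1
    apply hn
    rw [hT, ind_map_of_inj hW f.toMonoidHom S.isPGroup' (fun x _ hx => f.injective (by simpa using hx))] at h1
    exact normal_of_map_equiv f h1
  obtain ⟨g', hg'T, hg'O, U', V', hc, hU', h1, h2⟩ := hloc K R (centralizer_core_transfer f hcon) T hn'
  refine ⟨e g', ?_, ?_, U'.map e.toMonoidHom, V'.map e.toMonoidHom, chief_map_equiv e hc, ?_, ?_, ?_⟩
  · rw [hT] at hg'T
    obtain ⟨t, ht, hte⟩ := hg'T
    have h3 : e g' = t := by
      rw [← hte]
      exact e.apply_symm_apply t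
    rw [h3]
    exact ht
  · intro h3
    rw [← pCore_map_equiv (p := p) f] at hg'O
    apply hg'O
    exact ⟨e g', h3, e.symm_apply_apply g'⟩
  · rw [← pCore_map_equiv (p := p) e]
    exact Subgroup.map_mono hU'
  · have h3 := iterCommutator_map e.toMonoidHom U' (Subgroup.zpowers g') (p - 1)
    rw [MonoidHom.map_zpowers] at h3
    have h4 : e.toMonoidHom g' = e g' := rfl
    rw [h4] at h3
    rw [← h3]
    exact Subgroup.map_mono h1
  · intro h3
    apply h2
    have h4 : Subgroup.zpowers (e g') = (Subgroup.zpowers g').map e.toMonoidHom := by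
      rw [MonoidHom.map_zpowers]
      rfl
    rw [h4, ← Subgroup.map_commutator] at h3
    exact (Subgroup.map_le_map_iff_of_injective e.injective).1 h3

/-- The `K`-infinity functor satisfies the local hypothesis. -/
theorem kinf_short (hp2 : p ≠ 2) (Y : Type u) [Group Y] [Finite Y]
    (hcon : Subgroup.centralizer (pCore p Y : Set Y) ≤ pCore p Y)
    (T : Sylow p Y) (hn : ¬ (inducedFunctor (G := Y) kInfLower (T : Subgroup Y)).Normal) :
    ∃ g : Y, g ∈ (T : Subgroup Y) ∧ g ∉ pCore p Y ∧ ∃ U V : Subgroup Y, IsChiefFactor U V ∧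
      U ≤ pCore p Y ∧ iterCommutator U (Subgroup.zpowers g) (p - 1) ≤ V ∧
      ¬ ⁅U, Subgroup.zpowers g⁆ ≤ V := by
  obtain ⟨g, hgT, hgO, -, -, h⟩ := kinf_main T (Or.inl hn)
  obtain ⟨U, V, hc, hU, h2, h1⟩ := h hcon
  refine ⟨g, hgT, hgO, U, V, hc, hU, ?_, h1⟩
  have hp3 : 2 ≤ p - 1 := by
    have h3 := hp.out.two_le
    omega
  exact (iterCommutator_anti hc.2.1 hp3).trans h2

theorem centralizer_kInfLower_le {P : Type u} [Group P] [Finite P]
    (hP : IsPGroup p P) :
    Subgroup.centralizer ((kInfLower P : Subgroup P) : Set P) ≤ kInfLower P :=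
  centralizer_sSup_le_of_family hP (kLowerStarFamily (kSeqOdd P 0))
      ⟨⊥, bot_mem_kLower _⟩ (by
        intro B hB x hx hT
        exact supZpowers_mem_kLower B x hx hB hT) (kInfLower P)
      (le_iSup (fun k => kSeqEven P k) 0)

/-- The second alternative in the K-infinity criterion. -/
theorem npc_normalizer_kinf (S : Sylow p G)
    (h : ∀ g ∈ Subgroup.normalizer ((inducedFunctor kInfLower (S : Subgroup G) : Subgroup G) : Set G),
      (orderOf g).Coprime p →
      g ∈ Subgroup.centralizer ((inducedFunctor kInfLower (S : Subgroup G) : Subgroup G) : Set G)) :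
    HasNormalPComplement p ↥(Subgroup.normalizer
      ((inducedFunctor kInfLower (S : Subgroup G) : Subgroup G) : Set G)) := by
  classical
  set K := inducedFunctor kInfLower (S : Subgroup G) with hK
  set Ω := Subgroup.normalizer ((K : Subgroup G) : Set G) with hΩ
  apply hasNormalPComplement_of_frobCond
  apply frobCond_of_FC
  have hconj := ind_conj_functor (isCharPFunctor_kInfLower p) (Y := G)
  have hKS : K ≤ (S : Subgroup G) := (hconj _ S.isPGroup').1
  have hSΩ : (S : Subgroup G) ≤ Ω :=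
    Subgroup.le_normalizer.trans (inf_normalizer_le_functor hconj S.isPGroup')
  have hrel : ¬ p ∣ (S : Subgroup G).relIndex Ω := relIndex_not_dvd_of_sylow S Ω hSΩ
  have hCS : (S : Subgroup G) ⊓ Subgroup.centralizer ((K : Subgroup G) : Set G) ≤ K := by
    rintro x ⟨hx1, hx2⟩
    have h1 : (⟨x, hx1⟩ : (S : Subgroup G)) ∈ Subgroup.centralizer
        ((kInfLower (S : Subgroup G) : Subgroup (S : Subgroup G)) : Set (S : Subgroup G)) := by
      rw [Subgroup.mem_centralizer_iff]
      intro y hy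
      apply Subtype.ext
      exact Subgroup.mem_centralizer_iff.1 hx2 _ ⟨y, hy, rfl⟩
    exact ⟨_, centralizer_kInfLower_le S.isPGroup' h1, rfl⟩
  have hCconj : ∀ n ∈ Ω, ∀ c ∈ Subgroup.centralizer ((K : Subgroup G) : Set G),
      n * c * n⁻¹ ∈ Subgroup.centralizer ((K : Subgroup G) : Set G) := by
    intro n hn c hc
    rw [Subgroup.mem_centralizer_iff]
    intro k hk
    have h1 : n⁻¹ * k * n ∈ K := by
      have h2 := (Subgroup.mem_normalizer_iff.1 (Ω.inv_mem hn) k).1 hk
      simpa using h2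
    have h3 := Subgroup.mem_centralizer_iff.1 hc _ h1
    calc k * (n * c * n⁻¹) = n * ((n⁻¹ * k * n) * c) * n⁻¹ := by group
      _ = n * (c * (n⁻¹ * k * n)) * n⁻¹ := by rw [h3]
      _ = n * c * n⁻¹ * k := by group
  intro T hT hTΩ y hyΩ hyT hyc
  have hyC := h y hyΩ hyc
  obtain ⟨n, hn, hle⟩ := exists_conj_le_of_not_dvd_relIndex (p := p) hSΩ S.isPGroup' hrel hTΩ hT
  rw [Subgroup.mem_centralizer_iff]
  intro t ht
  obtain ⟨z, hz⟩ : ∃ z, z = y * t * y⁻¹ * t⁻¹ := ⟨_, rfl⟩
  have hzT : z ∈ T := by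
    rw [hz]
    exact T.mul_mem ((Subgroup.mem_normalizer_iff.1 hyT t).1 ht) (T.inv_mem ht)
  have hzC : z ∈ Subgroup.centralizer ((K : Subgroup G) : Set G) := by
    have h1 := hCconj t (hTΩ ht) _ (Subgroup.inv_mem _ hyC)
    have e : z = y * (t * y⁻¹ * t⁻¹) := by rw [hz]; group
    rw [e]
    exact Subgroup.mul_mem _ hyC h1
  have hzS : n * z * n⁻¹ ∈ (S : Subgroup G) := hle (conj_mem_map n hzT)
  have hzK1 : n * z * n⁻¹ ∈ K := hCS ⟨hzS, hCconj n hn z hzC⟩
  have hzK : z ∈ K := by
    have h1 := (Subgroup.mem_normalizer_iff.1 hn z).2 hzK1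
    exact h1
  have hyz : y * z = z * y := (Subgroup.mem_centralizer_iff.1 hyC z hzK).symm
  have hgt : y * t * y⁻¹ = z * t := by rw [hz]; group
  have hyzc : y * z * y⁻¹ = z := by rw [hyz]; group
  have hpow : ∀ j : ℕ, y ^ j * t * (y ^ j)⁻¹ = z ^ j * t := by
    intro j
    induction j with
    | zero => simp
    | succ j ih =>
      calc y ^ (j + 1) * t * (y ^ (j + 1))⁻¹ = y * (y ^ j * t * (y ^ j)⁻¹) * y⁻¹ := by
            rw [pow_succ']; group
        _ = y * (z ^ j * t) * y⁻¹ := by rw [ih]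
        _ = (y * z ^ j * y⁻¹) * (y * t * y⁻¹) := by group
        _ = z ^ j * (z * t) := by
            rw [hgt, ← conj_pow, hyzc]
        _ = z ^ (j + 1) * t := by rw [pow_succ, mul_assoc]
  have h6 := hpow (orderOf y)
  rw [pow_orderOf_eq_one] at h6
  have h7 : z ^ orderOf y = 1 := by
    have : t = z ^ orderOf y * t := by simpa using h6
    exact (mul_eq_right.mp this.symm)
  obtain ⟨k, hk⟩ := hT ⟨z, hzT⟩
  have h8 : z = 1 := eq_one_of_pow_of_coprime (congrArg Subtype.val hk : z ^ p ^ k = 1) h7 hyc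
  have h9 : y * t * y⁻¹ = t := by rw [hgt, h8, one_mul]
  have h10 : y * t = t * y := mul_inv_eq_iff_eq_mul.mp h9
  exact h10.symm

end Final

end Cfsg.Agent.H09
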