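import Cfsg.Agent.Lib.H14.GT
import Cfsg.Agent.Lib.H09.Sect

/-! Thompson's normal `p`-complement reduction for functors. -/

set_option autoImplicit false
set_option linter.unusedSectionVars false
set_option linter.unusedVariables false

namespace Cfsg.Agent.H09

open Cfsg Cfsg.Agent.H13 Cfsg.Agent.H14
open scoped commutatorElement

universe u

section Th

variable {p : ℕ} [hp : Fact p.Prime]

/-- The final configuration of the reduction. -/
structure ThConf (p : ℕ) [Fact p.Prime] (Y : Type u) [Group Y] [Finite Y] (S : Sylow p Y)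
    (X : Subgroup Y) : Prop where
  notFrob : ¬ FrobCond p Y
  hXn : X.Normal
  hQX : pCore p Y ≤ X
  hXQ : ∀ a ∈ X, ∀ b ∈ X, a * b * a⁻¹ * b⁻¹ ∈ pCore p Y
  hXpel : ∀ x ∈ X, ∀ j : ℕ, x ^ p ^ j = 1 → x ∈ pCore p Y
  hXm : ∃ m : ℕ, m.Coprime p ∧ ∀ x ∈ X, x ^ m ∈ pCore p Y
  hXP : X ⊔ (S : Subgroup Y) = ⊤
  hXidx : ∃ k, X.index = p ^ k
  hcQ : Subgroup.centralizer (pCore p Y : Set Y) ≤ pCore p Y
  hirr : ∀ X₁ : Subgroup Y, pCore p Y ≤ X₁ → X₁ ≤ X →
    (S : Subgroup Y) ≤ Subgroup.normalizer (X₁ : Set Y) → X₁ = pCore p Y ∨ X₁ = X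
  hL : ∀ L : Subgroup Y, L.Normal → (Nat.card L).Coprime p → L = ⊥
  hXne : X ≠ pCore p Y
  hFrobQuot : FrobCond p (Y ⧸ pCore p Y)

variable {G : Type u} [Group G] [Finite G] {W : ∀ (Q : Type u) [Group Q], Subgroup Q}
  {Y : Type u} [Group Y] [Finite Y]

/-- The inductive hypothesis. -/
def ThIH (p : ℕ) [Fact p.Prime] (G : Type u) [Group G] (W : ∀ (Q : Type u) [Group Q], Subgroup Q)
    (m : ℕ) : Prop :=
  ∀ (Y' : Type u) [Group Y'] [Finite Y'], Involves Y' G → Nat.card Y' < m → ∀ S' : Sylow p Y',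
    FrobCond p (NN (inducedFunctor W (S' : Subgroup Y'))) → FrobCond p Y'

theorem fc_sub (hW : IsCharPFunctor.{u} p W) (hG : Involves Y G) (hIH : ThIH p G W (Nat.card Y))
    {H S₁ : Subgroup Y} (hH : H ≠ ⊤) (hSH : S₁ ≤ H) (hSp : IsPGroup p S₁)
    (hS : ¬ p ∣ S₁.relIndex H) (hfc : FC p (H ⊓ NN (inducedFunctor W S₁))) : FC p H := by
  apply FC_of_frobCond
  have hcard : Nat.card H < Nat.card Y := by
    have hlt : H < ⊤ := lt_top_iff_ne_top.mpr hH
    have h1 := card_lt_of_lt hlt
    rwa [Subgroup.card_top] at h1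
  have hpg : IsPGroup p (S₁.subgroupOf H) := hSp.comap_subtype
  let P' : Sylow p H := hpg.toSylow hS
  have hP'e : (P' : Subgroup H) = S₁.subgroupOf H := rfl
  refine hIH H (Involves.trans' (involves_subgroup H) hG) hcard P' ?_
  have hz : (inducedFunctor W (P' : Subgroup H)).map H.subtype = inducedFunctor W S₁ := by
    have h1 := ind_map_of_inj hW H.subtype P'.isPGroup' (fun x _ hx => Subtype.ext hx)
    rw [← h1, hP'e, Subgroup.map_subgroupOf_eq_of_le hSH]
  let K := NN (inducedFunctor W (P' : Subgroup H))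
  let f : K →* ↥(H ⊓ NN (inducedFunctor W S₁)) :=
    { toFun := fun k => ⟨k.1.1, k.1.2, by
        have h1 := Subgroup.le_normalizer_map H.subtype ⟨k.1, k.2, rfl⟩
        rw [hz] at h1
        exact h1⟩
      map_one' := rfl
      map_mul' := fun _ _ => rfl }
  have hf : Function.Injective f := by
    intro a b h
    have h1 : a.1.1 = b.1.1 := congrArg (fun x => x.1) h
    exact Subtype.ext (Subtype.ext h1)
  exact frobCond_of_injective f hf (frobCond_of_FC hfc)

theorem th_partC (hW : IsCharPFunctor.{u} p W) (hG : Involves Y G) (hIH : ThIH p G W (Nat.card Y))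
    (P : Sylow p Y) {T₀ : Subgroup Y} (hT₀ : GoodT p P T₀)
    (hmax : ∀ T, GoodT p P T → muT P T ≤ muT P T₀) : (P : Subgroup Y) ≤ NN T₀ := by
  classical
  obtain ⟨hT₀ne, hT₀P, hT₀tame, hT₀fc⟩ := hT₀
  by_contra hPN
  set H := NN T₀ with hH
  set S := (P : Subgroup Y) ⊓ H with hS
  have hSP : S ≤ (P : Subgroup Y) := inf_le_left
  have hSH : S ≤ H := inf_le_right
  have hSp : IsPGroup p S := P.isPGroup'.to_le hSP
  have hSne : S ≠ (P : Subgroup Y) := by
    intro h
    apply hPN
    rw [← h]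
    exact hSH
  have hSbot : S ≠ ⊥ := by
    intro h
    have h1 : T₀ ≤ S := le_inf hT₀P Subgroup.le_normalizer
    rw [h] at h1
    exact hT₀ne (le_bot_iff.mp h1)
  have hconj := ind_conj_functor hW (Y := Y)
  set W₁ := inducedFunctor W S with hW₁
  have hW₁S : W₁ ≤ S := (hconj S hSp).1
  have hW₁p : IsPGroup p W₁ := hSp.to_le hW₁S
  have hW₁ne : W₁ ≠ ⊥ := (hconj S hSp).2.1 hSbot
  have hHne : H ≠ ⊤ := by
    intro h
    apply hPN
    rw [h]
    exact le_top
  have hnotFC : ¬ FC p (NN W₁) := by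
    intro hfc
    apply hT₀fc
    exact fc_sub hW hG hIH hHne hSH hSp hT₀tame (hfc.mono inf_le_right)
  obtain ⟨y, hyT, hyt⟩ := exists_tame P hW₁p
  set W' := W₁.map (MulAut.conj y).toMonoidHom with hW'
  have hW'good : GoodT p P W' := by
    refine ⟨?_, hyT, hyt, ?_⟩
    · intro h
      exact hW₁ne ((Subgroup.map_eq_bot_iff_of_injective W₁ (MulAut.conj y).injective).mp h)
    · intro h
      apply hnotFC
      rw [NN, hW', normalizer_conj] at h
      exact FC.of_conj y h
  have hle := hmax W' hW'good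
  -- the bigger `p`-subgroup
  let R : Subgroup Y := (P : Subgroup Y) ⊓ NN S
  have hRp : IsPGroup p R := P.isPGroup'.to_le inf_le_left
  obtain ⟨u, huP, huS, huN⟩ := Cfsg.Agent.H14.exists_mem_normalizer_of_pgroup P.isPGroup' hSP hSne
  have hSR : S < R := by
    refine lt_of_le_of_ne (le_inf hSP Subgroup.le_normalizer) ?_
    intro h
    apply huS
    rw [h]
    exact ⟨huP, huN⟩
  have hRW : R ≤ NN W₁ := by
    intro v hv
    refine mem_normalizer_of_map_conj_eq ?_
    rw [← (hconj S hSp).2.2 v]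
    congr 1
    exact map_conj_eq_of_mem_normalizer hv.2
  have hN' : NN W' = (NN W₁).map (MulAut.conj y).toMonoidHom := normalizer_conj W₁ y
  have hR'le : R.map (MulAut.conj y).toMonoidHom ≤ NN W' := by
    rw [hN']
    exact Subgroup.map_mono hRW
  have hcardR : Nat.card R ≤ Nat.card ((P : Subgroup Y) ⊓ NN W' : Subgroup Y) := by
    have h1 := card_le_of_relIndex (inf_le_right : (P : Subgroup Y) ⊓ NN W' ≤ NN W') hyt
      (hRp.map (MulAut.conj y).toMonoidHom) hR'le
    have h2 : Nat.card (R.map (MulAut.conj y).toMonoidHom) = Nat.card R :=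
      (Nat.card_congr ((MulAut.conj y).subgroupMap R).toEquiv).symm
    rwa [h2] at h1
  have hcardS : Nat.card S < Nat.card R := card_lt_of_lt hSR
  have hT₀card : Nat.card T₀ ≤ Nat.card Y := Subgroup.card_le_card_group T₀
  unfold muT at hle
  have hstep : (Nat.card S + 1) * (Nat.card Y + 1) ≤
      Nat.card ((P : Subgroup Y) ⊓ NN W' : Subgroup Y) * (Nat.card Y + 1) :=
    Nat.mul_le_mul_right _ (by omega)
  have e : (P : Subgroup Y) ⊓ NN T₀ = S := rfl
  rw [e] at hle
  nlinarith

/-- Passing to the quotient by a normal `p'`-subgroup. -/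
theorem th_pprime (hW : IsCharPFunctor.{u} p W) (hG : Involves Y G) (hIH : ThIH p G W (Nat.card Y))
    (P : Sylow p Y) (hfc : FrobCond p (NN (inducedFunctor W (P : Subgroup Y))))
    {L : Subgroup Y} (hLn : L.Normal) (hLc : (Nat.card L).Coprime p) (hne : L ≠ ⊥) :
    FrobCond p Y := by
  classical
  have hp' : p.Prime := Fact.out
  haveI := hLn
  let π := QuotientGroup.mk' L
  have hπs : Function.Surjective π := QuotientGroup.mk'_surjective L
  have hπ1 : ∀ x : Y, π x = 1 ↔ x ∈ L := fun x => QuotientGroup.eq_one_iff x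
  apply frobCond_lift_pprime hLc
  have hcardlt : Nat.card (Y ⧸ L) < Nat.card Y := by
    have h1 : Nat.card Y = Nat.card (Y ⧸ L) * Nat.card L :=
      Subgroup.card_eq_card_quotient_mul_card_subgroup L
    have h2 : 1 < Nat.card L := by
      rw [Subgroup.one_lt_card_iff_ne_bot]
      exact hne
    have h3 : 0 < Nat.card (Y ⧸ L) := Nat.card_pos
    rw [h1]
    nlinarith
  have hinj : ∀ x ∈ (P : Subgroup Y), π x = 1 → x = 1 := by
    intro x hx h
    obtain ⟨k, hk⟩ := P.isPGroup' ⟨x, hx⟩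
    exact eq_one_of_mem_coprime ((hπ1 x).mp h) hLc (congrArg Subtype.val hk)
  let Pb : Sylow p (Y ⧸ L) := P.mapSurjective hπs
  have hPb : (Pb : Subgroup (Y ⧸ L)) = (P : Subgroup Y).map π := Sylow.coe_mapSurjective hπs P
  refine hIH (Y ⧸ L) (Involves.trans' (involves_quotient L) hG) hcardlt Pb ?_
  rw [hPb, ind_map_of_inj hW π P.isPGroup' hinj]
  set W₀ := inducedFunctor W (P : Subgroup Y) with hW₀
  have hWp : IsPGroup p W₀ := P.isPGroup'.to_le ((ind_conj_functor hW _ P.isPGroup').1)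
  let f : Subgroup.normalizer (W₀ : Set Y) →* Subgroup.normalizer ((W₀.map π : Subgroup _) : Set _) :=
    { toFun := fun k => ⟨π k.1, Subgroup.le_normalizer_map π ⟨k.1, k.2, rfl⟩⟩
      map_one' := Subtype.ext (map_one π)
      map_mul' := fun a b => Subtype.ext (map_mul π a.1 b.1) }
  have hf : Function.Surjective f := by
    rintro ⟨gb, hgb⟩
    obtain ⟨g, rfl⟩ := hπs gb
    have hle : W₀.map (MulAut.conj g).toMonoidHom ≤ W₀ ⊔ L := by
      rintro _ ⟨w, hw, rfl⟩
      have h1 : π (g * w * g⁻¹) ∈ W₀.map π := by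
        have := (Subgroup.mem_normalizer_iff.mp hgb (π w)).mp ⟨w, hw, rfl⟩
        simpa using this
      obtain ⟨w', hw', e⟩ := h1
      have h2 : w'⁻¹ * (g * w * g⁻¹) ∈ L := by
        rw [← hπ1, map_mul, map_inv, e, inv_mul_cancel]
      have e2 : g * w * g⁻¹ = w' * (w'⁻¹ * (g * w * g⁻¹)) := by group
      change g * w * g⁻¹ ∈ W₀ ⊔ L
      rw [e2]
      exact Subgroup.mul_mem _ (Subgroup.mem_sup_left hw') (Subgroup.mem_sup_right h2)
    have hp2 : IsPGroup p (W₀.map (MulAut.conj g).toMonoidHom) := hWp.map _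
    obtain ⟨ℓ, hℓ, hle2⟩ := exists_conj_of_le_sup hWp hLn hLc hp2 hle
    have hmem : ℓ * g ∈ Subgroup.normalizer (W₀ : Set Y) := by
      apply mem_normalizer_of_map_conj_le
      rintro _ ⟨w, hw, rfl⟩
      have h3 : ℓ * (g * w * g⁻¹) * ℓ⁻¹ ∈ W₀ := hle2 ⟨g * w * g⁻¹, ⟨w, hw, rfl⟩, rfl⟩
      have e3 : (ℓ * g) * w * (ℓ * g)⁻¹ = ℓ * (g * w * g⁻¹) * ℓ⁻¹ := by group
      change (ℓ * g) * w * (ℓ * g)⁻¹ ∈ W₀
      rw [e3]
      exact h3
    refine ⟨⟨ℓ * g, hmem⟩, ?_⟩
    apply Subtype.ext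
    change π (ℓ * g) = π g
    rw [map_mul, (hπ1 ℓ).mpr hℓ, one_mul]
  exact frobCond_of_surjective f hf hfc

/-- One step of the reduction. -/
theorem th_step (hW : IsCharPFunctor.{u} p W) (hG : Involves Y G) (hIH : ThIH p G W (Nat.card Y))
    (P : Sylow p Y) (hfc : FrobCond p (NN (inducedFunctor W (P : Subgroup Y))))
    (hnot : ¬ FrobCond p Y) : ∃ X : Subgroup Y, ThConf p Y P X := by
  classical
  have hp' : p.Prime := Fact.out
  have hFC : FC p (NN (inducedFunctor W (P : Subgroup Y))) := FC_of_frobCond hfc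
  have hnotTop : ¬ FC p (⊤ : Subgroup Y) := fun h => hnot (FC_top_iff.mp h)
  have hconj := ind_conj_functor hW (Y := Y)
  -- no normal `p'`-subgroups
  have hL : ∀ L : Subgroup Y, L.Normal → (Nat.card L).Coprime p → L = ⊥ := by
    intro L hLn hLc
    by_contra hne
    exact hnot (th_pprime hW hG hIH P hfc hLn hLc hne)
  -- the selection
  have hne𝒯 : {T : Subgroup Y | GoodT p P T}.Nonempty := by
    have h1 : ¬ FrobCond p Y := hnot
    unfold FrobCond at h1
    push Not at h1
    obtain ⟨T, hT, g, hg, hgc, hgn⟩ := h1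
    have hne : T ≠ ⊥ := by
      rintro rfl
      apply hgn
      rw [Subgroup.mem_centralizer_iff]
      intro h hh
      rw [Subgroup.mem_bot.mp hh, one_mul, mul_one]
    have hnf : ¬ FC p (NN T) := fun h => hgn (h T hT Subgroup.le_normalizer g hg hg hgc)
    obtain ⟨y, hy⟩ := exists_good_of_not_FC P hT hne hnf
    exact ⟨_, hy⟩
  obtain ⟨T₀, hT₀, hmax⟩ := Set.exists_max_image _ (muT P) (Set.toFinite _) hne𝒯
  have hmax' : ∀ T, GoodT p P T → muT P T ≤ muT P T₀ := fun T hT => hmax T hT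
  have hPT₀ := th_partC hW hG hIH P hT₀ hmax'
  have hT₀g : GoodT p P T₀ := hT₀
  obtain ⟨hT₀ne, hT₀P, hT₀tame, hT₀fc⟩ := hT₀g
  -- `T₀` is normal
  have hT₀top : NN T₀ = ⊤ := by
    by_contra hne
    apply hT₀fc
    have hidx : ¬ p ∣ (P : Subgroup Y).relIndex (NN T₀) := by
      rw [inf_eq_left.mpr hPT₀] at hT₀tame
      exact hT₀tame
    exact fc_sub hW hG hIH hne hPT₀ P.isPGroup' hidx (hFC.mono inf_le_right)
  have hT₀n : T₀.Normal := Subgroup.normalizer_eq_top_iff.mp hT₀top
  set Q := Cfsg.pCore p Y with hQ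
  have hQn : Q.Normal := Cfsg.Agent.H01.pCore_normal p
  have hQp : IsPGroup p Q := Cfsg.Agent.H01.pCore_isPGroup p
  have hQP : Q ≤ (P : Subgroup Y) := Cfsg.Agent.H01.pCore_le_sylow p P
  have hT₀Q : T₀ ≤ Q := Cfsg.Agent.H01.le_pCore hT₀n (P.isPGroup'.to_le hT₀P)
  have hQne : Q ≠ ⊥ := by
    intro h
    rw [h] at hT₀Q
    exact hT₀ne (le_bot_iff.mp hT₀Q)
  have hNQ : NN Q = ⊤ := Subgroup.normalizer_eq_top_iff.mpr hQn
  have hmuT₀ : muT P T₀ = Nat.card (P : Subgroup Y) * (Nat.card Y + 1) + Nat.card T₀ := by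
    unfold muT
    rw [hT₀top, inf_top_eq]
  have hPidx : ¬ p ∣ (P : Subgroup Y).relIndex (⊤ : Subgroup Y) := by
    rw [Subgroup.relIndex_top_right]
    exact P.not_dvd_index
  have hQgood : GoodT p P Q := by
    refine ⟨hQne, hQP, ?_, ?_⟩
    · rw [hNQ, inf_top_eq]
      exact hPidx
    · rw [hNQ]
      exact hnotTop
  have hT₀eq : T₀ = Q := by
    have h1 := hmax' Q hQgood
    have h2 : muT P Q = Nat.card (P : Subgroup Y) * (Nat.card Y + 1) + Nat.card Q := by
      unfold muT
      rw [hNQ, inf_top_eq]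
    rw [h2, hmuT₀] at h1
    exact Subgroup.eq_of_le_of_card_ge hT₀Q (by omega)
  -- larger subgroups normalized by `P`
  have hK : ∀ R : Subgroup Y, Q < R → R ≤ (P : Subgroup Y) → (P : Subgroup Y) ≤ NN R → FC p (NN R) := by
    intro R hQR hRP hPR
    by_contra hnfc
    have hRgood : GoodT p P R := by
      refine ⟨?_, hRP, ?_, hnfc⟩
      · intro h
        rw [h] at hQR
        exact not_lt_bot hQR
      · rw [inf_eq_left.mpr hPR]
        intro h
        apply hPidx.elim
        rw [Subgroup.relIndex_top_right]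
        have h1 : (P : Subgroup Y).relIndex (NN R) * (NN R).index = (P : Subgroup Y).index :=
          Subgroup.relIndex_mul_index hPR
        rw [← h1]
        exact h.mul_right _
    have h1 := hmax' R hRgood
    have h2 : muT P R = Nat.card (P : Subgroup Y) * (Nat.card Y + 1) + Nat.card R := by
      unfold muT
      rw [inf_eq_left.mpr hPR]
    rw [h2, hmuT₀, hT₀eq] at h1
    have h3 := card_lt_of_lt hQR
    omega
  -- the quotient
  haveI := hQn
  let π := QuotientGroup.mk' Q
  have hπs : Function.Surjective π := QuotientGroup.mk'_surjective Q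
  have hπ1 : ∀ x : Y, π x = 1 ↔ x ∈ Q := fun x => QuotientGroup.eq_one_iff x
  have hkerπ : (⊥ : Subgroup (Y ⧸ Q)).comap π = Q := by
    ext x
    rw [Subgroup.mem_comap, Subgroup.mem_bot]
    exact hπ1 x
  have hQcomap : ∀ K : Subgroup (Y ⧸ Q), Q ≤ K.comap π := by
    intro K x hx
    rw [Subgroup.mem_comap, (hπ1 x).mpr hx]
    exact K.one_mem
  let Pb : Sylow p (Y ⧸ Q) := P.mapSurjective hπs
  have hPb : (Pb : Subgroup (Y ⧸ Q)) = (P : Subgroup Y).map π := Sylow.coe_mapSurjective hπs P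
  have hcardlt : Nat.card (Y ⧸ Q) < Nat.card Y := by
    have h1 : Nat.card Y = Nat.card (Y ⧸ Q) * Nat.card Q := Subgroup.card_eq_card_quotient_mul_card_subgroup Q
    have h2 : 1 < Nat.card Q := by
      rw [Subgroup.one_lt_card_iff_ne_bot]
      exact hQne
    have h3 : 0 < Nat.card (Y ⧸ Q) := Nat.card_pos
    rw [h1]
    nlinarith
  have hPcomap : (P : Subgroup Y) = ((Pb : Subgroup (Y ⧸ Q))).comap π := by
    apply le_antisymm
    · intro u hu
      rw [Subgroup.mem_comap, hPb]
      exact ⟨u, hu, rfl⟩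
    · intro u hu
      rw [Subgroup.mem_comap, hPb] at hu
      obtain ⟨v, hv, e⟩ := hu
      have h1 : v⁻¹ * u ∈ Q := by
        rw [← hπ1, map_mul, map_inv, e, inv_mul_cancel]
      have h2 := Subgroup.mul_mem _ hv (hQP h1)
      simpa using h2
  have hconjb := ind_conj_functor hW (Y := Y ⧸ Q)
  have hFrobQuot : FrobCond p (Y ⧸ Q) := by
    set Zb := inducedFunctor W (Pb : Subgroup (Y ⧸ Q)) with hZb
    by_cases hZ : Zb = ⊥
    · -- a `p'`-group
      have hPbbot : (Pb : Subgroup (Y ⧸ Q)) = ⊥ := by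
        by_contra hne
        exact (hconjb _ Pb.isPGroup').2.1 hne hZ
      intro T hT g _ _
      obtain ⟨P₁, hP₁⟩ := hT.exists_le_sylow
      have h1 : Nat.card (P₁ : Subgroup (Y ⧸ Q)) = Nat.card (Pb : Subgroup (Y ⧸ Q)) :=
        P₁.card_eq_multiplicity.trans Pb.card_eq_multiplicity.symm
      rw [hPbbot, Subgroup.card_bot] at h1
      have h2 : (P₁ : Subgroup (Y ⧸ Q)) = ⊥ := Subgroup.card_eq_one.mp h1
      rw [Subgroup.mem_centralizer_iff]
      intro t ht
      have h3 := hP₁ ht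
      rw [h2, Subgroup.mem_bot] at h3
      rw [h3, one_mul, mul_one]
    · refine hIH (Y ⧸ Q) (Involves.trans' (involves_quotient Q) hG) hcardlt Pb ?_
      let R : Subgroup Y := Zb.comap π
      have hQR : Q < R := by
        refine lt_of_le_of_ne (hQcomap Zb) ?_
        intro h
        apply hZ
        apply Subgroup.comap_injective hπs
        exact h.symm.trans hkerπ.symm
      have hZbPb : Zb ≤ (Pb : Subgroup (Y ⧸ Q)) := (hconjb _ Pb.isPGroup').1
      have hRP : R ≤ (P : Subgroup Y) := by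
        rw [hPcomap]
        exact Subgroup.comap_mono hZbPb
      have hNR : NN R = (NN Zb).comap π := (Subgroup.comap_normalizer_eq_of_surjective Zb hπs).symm
      have hPR : (P : Subgroup Y) ≤ NN R := by
        rw [hNR]
        intro u hu
        have h1 : π u ∈ (Pb : Subgroup (Y ⧸ Q)) := by
          rw [hPb]
          exact ⟨u, hu, rfl⟩
        exact (Subgroup.le_normalizer.trans
          (inf_normalizer_le_functor hconjb Pb.isPGroup')) h1
      have hRfc := hK R hQR hRP hPR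
      let f : NN R →* NN Zb :=
        { toFun := fun k => ⟨π k.1, hNR.le k.2⟩
          map_one' := Subtype.ext (map_one π)
          map_mul' := fun a b => Subtype.ext (map_mul π a.1 b.1) }
      have hf : Function.Surjective f := by
        rintro ⟨gb, hgb⟩
        obtain ⟨g, rfl⟩ := hπs gb
        have hg : g ∈ NN R := by
          rw [hNR]
          exact hgb
        exact ⟨⟨g, hg⟩, rfl⟩
      exact frobCond_of_surjective f hf (frobCond_of_FC hRfc)
  -- the normal complement
  obtain ⟨Nb, hNbn, hNbc, k, hk⟩ := npc_iff.mp (hasNormalPComplement_of_frobCond hFrobQuot)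
  let X : Subgroup Y := Nb.comap π
  have hXn : X.Normal := hNbn.comap π
  have hQX : Q ≤ X := hQcomap Nb
  have hXidx : X.index = p ^ k := by
    rw [← hk]
    exact Subgroup.index_comap_of_surjective Nb hπs
  have hXm : ∀ x ∈ X, x ^ Nat.card Nb ∈ Q := by
    intro x hx
    rw [← hπ1, map_pow]
    have := pow_card_eq_one' (G := Nb) (x := ⟨π x, hx⟩)
    exact congrArg Subtype.val this
  have hXP : X ⊔ (P : Subgroup Y) = ⊤ := by
    have h1 : (X ⊔ (P : Subgroup Y)).index ∣ p ^ k := by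
      rw [← hXidx]
      exact Subgroup.index_dvd_of_le le_sup_left
    have h2 : (X ⊔ (P : Subgroup Y)).index ∣ (P : Subgroup Y).index :=
      Subgroup.index_dvd_of_le le_sup_right
    obtain ⟨j, -, hj⟩ := (Nat.dvd_prime_pow hp').mp h1
    rcases j with _ | j
    · rw [pow_zero] at hj
      exact Subgroup.index_eq_one.mp hj
    · exfalso
      apply P.not_dvd_index
      refine dvd_trans ?_ h2
      rw [hj]
      exact dvd_pow_self p (by omega)
  have hXpel : ∀ x ∈ X, ∀ j : ℕ, x ^ p ^ j = 1 → x ∈ Q := by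
    intro x hx j hj
    rw [← hπ1]
    have h1 : π x ∈ Nb := hx
    exact eq_one_of_mem_coprime h1 hNbc (by rw [← map_pow, hj, map_one])
  -- `C_G(Q) ≤ Q`
  have hC₁ : Subgroup.centralizer (Q : Set Y) ⊓ X ≤ Q := by
    have hCn : (Subgroup.centralizer (Q : Set Y) ⊓ X).Normal := by
      haveI : (Subgroup.centralizer (Q : Set Y)).Normal := Subgroup.normal_centralizer
      haveI := hXn
      infer_instance
    have hFC₁ : FC p (Subgroup.centralizer (Q : Set Y) ⊓ X) := by
      intro T hT hTC g hg _ _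
      rw [Subgroup.mem_centralizer_iff]
      intro t ht
      have h1 : t ∈ Q := by
        obtain ⟨j, hj⟩ := hT ⟨t, ht⟩
        exact hXpel t (hTC ht).2 j (congrArg Subtype.val hj)
      exact (Subgroup.mem_centralizer_iff.mp hg.1) t h1
    have hpg := isPGroup_of_FC_normal hCn hFC₁ hL
    exact Cfsg.Agent.H01.le_pCore hCn hpg
  have hcQ : Subgroup.centralizer (Q : Set Y) ≤ Q := by
    haveI : (Subgroup.centralizer (Q : Set Y)).Normal := Subgroup.normal_centralizer
    apply Cfsg.Agent.H01.le_pCore inferInstance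
    rintro ⟨g, hg⟩
    obtain ⟨a, ha⟩ := exists_pprime_part (p := p) g
    have h1 : (g ^ p ^ a) ^ p ^ k ∈ X := by
      rw [← hXidx]
      exact Subgroup.pow_index_mem X _
    have h2 : g ^ p ^ a ∈ X := mem_of_pow_mem_coprime h1 (Nat.Coprime.pow_left k ha.symm)
    have h3 : g ^ p ^ a ∈ Q := hC₁ ⟨Subgroup.pow_mem _ hg _, h2⟩
    obtain ⟨j, hj⟩ := hQp ⟨_, h3⟩
    have h4 : g ^ p ^ a = 1 := eq_one_of_coprime_order (congrArg Subtype.val hj) ha
    exact ⟨a, Subtype.ext h4⟩
  -- irreducibility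
  have hirr : ∀ X₁ : Subgroup Y, Q ≤ X₁ → X₁ ≤ X → (P : Subgroup Y) ≤ NN X₁ → X₁ = Q ∨ X₁ = X := by
    intro X₁ hQX₁ hX₁X hPX₁
    by_cases hEq : X₁ = X
    · exact Or.inr hEq
    left
    let G₁ : Subgroup Y := (P : Subgroup Y) ⊔ X₁
    have hG₁ : G₁ ≠ ⊤ := by
      intro htop
      apply hEq
      apply le_antisymm hX₁X
      intro x hx
      have h1 : x ∈ (G₁ : Set Y) := by
        rw [htop]
        trivial
      rw [Subgroup.coe_mul_of_left_le_normalizer_right _ _ hPX₁] at h1
      obtain ⟨u, hu, x₁, hx₁, rfl⟩ := Set.mem_mul.mp h1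
      have hu' : u ∈ X := by
        have h2 := X.mul_mem hx (X.inv_mem (hX₁X hx₁))
        simpa using h2
      have hu'' : u ∈ Q := by
        obtain ⟨j, hj⟩ := P.isPGroup' ⟨u, hu⟩
        exact hXpel u hu' j (congrArg Subtype.val hj)
      exact X₁.mul_mem (hQX₁ hu'') hx₁
    have hPG₁ : (P : Subgroup Y) ≤ G₁ := le_sup_left
    have hidx : ¬ p ∣ (P : Subgroup Y).relIndex G₁ := by
      intro h
      apply P.not_dvd_index
      have h1 : (P : Subgroup Y).relIndex G₁ * G₁.index = (P : Subgroup Y).index :=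
        Subgroup.relIndex_mul_index hPG₁
      rw [← h1]
      exact h.mul_right _
    have hG₁fc : FC p G₁ :=
      fc_sub hW hG hIH hG₁ hPG₁ P.isPGroup' hidx (hFC.mono inf_le_right)
    apply le_antisymm _ hQX₁
    intro x hx
    obtain ⟨a, ha⟩ := exists_pprime_part (p := p) x
    have h1 : x ^ p ^ a ∈ X₁ := X₁.pow_mem hx _
    have h2 : x ^ p ^ a ∈ Subgroup.centralizer (Q : Set Y) :=
      hG₁fc Q hQp (hQX₁.trans le_sup_right) _ (Subgroup.mem_sup_right h1)
        (hNQ.ge (Subgroup.mem_top _)) ha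
    have h3 : x ^ p ^ a ∈ Q := hcQ h2
    obtain ⟨j, hj⟩ := hQp ⟨_, h3⟩
    have h4 : x ^ p ^ a = 1 := eq_one_of_coprime_order (congrArg Subtype.val hj) ha
    exact hXpel x (hX₁X hx) a h4
  have hXneQ : X ≠ Q := by
    intro h
    apply hnot
    have h1 : X ≤ (P : Subgroup Y) := by rw [h]; exact hQP
    have h2 : (P : Subgroup Y) = ⊤ := by
      rw [← hXP, sup_eq_right.mpr h1]
    intro T _ g _ hgc
    have hg : g = 1 := by
      obtain ⟨j, hj⟩ := P.isPGroup' ⟨g, by rw [h2]; trivial⟩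
      exact eq_one_of_coprime_order (congrArg Subtype.val hj) hgc
    rw [hg]
    exact Subgroup.one_mem _
  have hNbne : Nb ≠ ⊥ := by
    rintro rfl
    apply hXneQ
    exact hkerπ
  -- the complement is abelian
  have hNbab := abelian_of_irreducible Pb hNbn hNbc hNbne (by
    intro K hKN hPbK
    have hcom : NN (K.comap π) = (NN K).comap π := (Subgroup.comap_normalizer_eq_of_surjective K hπs).symm
    have h1 : (P : Subgroup Y) ≤ NN (K.comap π) := by
      rw [hcom]
      intro u hu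
      rw [Subgroup.mem_comap]
      apply hPbK
      rw [hPb]
      exact ⟨u, hu, rfl⟩
    rcases hirr (K.comap π) (hQcomap K) (Subgroup.comap_mono hKN) h1 with h | h
    · left
      apply Subgroup.comap_injective hπs
      exact h.trans hkerπ.symm
    · right
      exact Subgroup.comap_injective hπs h)
  have hXQ : ∀ a ∈ X, ∀ b ∈ X, a * b * a⁻¹ * b⁻¹ ∈ Q := by
    intro a ha b hb
    rw [← hπ1]
    have h1 := hNbab (π a) ha (π b) hb
    simp only [map_mul, map_inv]
    rw [h1]
    group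
  exact ⟨X, hnot, hXn, hQX, hXQ, hXpel, ⟨Nat.card Nb, hNbc, hXm⟩, hXP, ⟨k, hXidx⟩, hcQ, hirr, hL,
    hXneQ, hFrobQuot⟩

/-- The generic Thompson theorem. -/
theorem thompson_generic (hW : IsCharPFunctor.{u} p W)
    (hfin : ∀ (Y : Type u) [Group Y] [Finite Y], Involves Y G → ∀ (S : Sylow p Y) (X : Subgroup Y),
      ThConf p Y S X → (inducedFunctor W (S : Subgroup Y)).Normal ∨ FrobCond p Y) :
    ∀ (m : ℕ), ThIH p G W m := by
  intro m
  induction m with
  | zero =>
    intro Y _ _ _ h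
    omega
  | succ m ih =>
    intro Y _ _ hY h S hfc
    by_contra hnot
    have hIH : ThIH p G W (Nat.card Y) := by
      intro Y' _ _ hY' h' S' hfc'
      exact ih Y' hY' (by omega) S' hfc'
    obtain ⟨X, hX⟩ := th_step hW hY hIH S hfc hnot
    rcases hfin Y hY S X hX with hn | hf
    · apply hnot
      have htop : NN (inducedFunctor W (S : Subgroup Y)) = ⊤ :=
        Subgroup.normalizer_eq_top_iff.mpr hn
      rw [htop] at hfc
      exact frobCond_of_injective (Subgroup.topEquiv (G := Y)).symm.toMonoidHom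
        (Subgroup.topEquiv (G := Y)).symm.injective hfc
    · exact hnot hf

/-- The Thompson theorem in terms of normal `p`-complements. -/
theorem thompson_npc (hW : IsCharPFunctor.{u} p W)
    (hfin : ∀ (Y : Type u) [Group Y] [Finite Y], Involves Y G → ∀ (S : Sylow p Y) (X : Subgroup Y),
      ThConf p Y S X → (inducedFunctor W (S : Subgroup Y)).Normal ∨ FrobCond p Y)
    (S : Sylow p G)
    (hN : HasNormalPComplement p ↥(Subgroup.normalizer
      ((inducedFunctor (G := G) W (S : Subgroup G) : Subgroup G) : Set G))) :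
    HasNormalPComplement p G :=
  hasNormalPComplement_of_frobCond
    (thompson_generic hW hfin (Nat.card G + 1) G involves_self (by omega) S
      (frobCond_of_hasNormalPComplement hN))

end Th

end Cfsg.Agent.H09
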